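import Cfsg.Agent.Lib.PGroups.Special

/-!
`2`-groups of symplectic type and exponent at most four: the Frattini subgroup has order at most two.

Let `E` be a finite `2`-group such that every characteristic abelian subgroup is cyclic and
`x ^ 4 = 1` for all `x`. If `z` is a central involution then all squares and commutators lie in
`⟨z⟩`, and `z` is the only central involution.

The proof shows that `Φ(E)` is abelian (a variant of Hobby's theorem: a nonabelian group with cyclic
centre is not the Frattini subgroup of a `p`-group), so it is cyclic; it is generated by squares,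
which are elements of order at most two.
-/

set_option autoImplicit false

namespace Cfsg.Agent.Lib.TI.SympExp4

open Subgroup Cfsg.Agent.Lib.PGroups.Basic
open scoped commutatorElement

variable {E : Type*} [Group E] [Finite E]

omit [Finite E] in
/-- `x` acts on a cyclic subgroup of exponent dividing four as `1` or as inversion. -/
theorem conj_on_cyclic (A : Subgroup E) (hcyc : IsCyclic ↥A) (hA : ∀ a ∈ A, a ^ 4 = 1) (x : E)
    (hx : ∀ a ∈ A, x * a * x⁻¹ ∈ A) :
    (∀ a ∈ A, x * a * x⁻¹ = a) ∨ (∀ a ∈ A, x * a * x⁻¹ = a⁻¹) := by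
  obtain ⟨⟨c, hcA⟩, hc⟩ := hcyc.exists_generator
  have hgen : ∀ a ∈ A, ∃ n : ℤ, a = c ^ n := by
    intro a ha
    obtain ⟨n, hn⟩ := Subgroup.mem_zpowers_iff.mp (hc ⟨a, ha⟩)
    refine ⟨n, ?_⟩
    have := congrArg Subtype.val hn
    simpa using this.symm
  have hc4 : c ^ 4 = 1 := hA c hcA
  have hcj : ∀ n : ℤ, x * c ^ n * x⁻¹ = (x * c * x⁻¹) ^ n := fun n => (conj_zpow).symm
  have hc1 : c = 1 → ∀ a ∈ A, x * a * x⁻¹ = a := by
    intro h a ha
    obtain ⟨n, rfl⟩ := hgen a ha
    rw [h]; simp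
  obtain ⟨j, hj⟩ := hgen _ (hx c hcA)
  have hc4' : c ^ (4 : ℤ) = 1 := by exact_mod_cast hc4
  have hjm : c ^ j = c ^ (j % 4) := by
    conv_lhs => rw [← Int.mul_ediv_add_emod j 4, zpow_add, zpow_mul, hc4', one_zpow, one_mul]
  have hlo : 0 ≤ j % 4 := Int.emod_nonneg _ (by norm_num)
  have hhi : j % 4 < 4 := Int.emod_lt_of_pos _ (by norm_num)
  rw [hjm] at hj
  generalize j % 4 = t at hj hlo hhi
  have hinj : ∀ u : E, x * u * x⁻¹ = 1 → u = 1 := by
    intro u hu
    have h1 : u = x⁻¹ * (x * u * x⁻¹) * x := by group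
    rw [h1, hu]; simp
  interval_cases t
  · left
    apply hc1
    apply hinj
    rw [hj]; simp
  · left
    intro a ha
    obtain ⟨n, rfl⟩ := hgen a ha
    rw [hcj, hj]; simp
  · left
    apply hc1
    have h2 : c ^ 2 = 1 := by
      apply hinj
      have h3 : x * c ^ 2 * x⁻¹ = (x * c * x⁻¹) ^ 2 := (conj_pow).symm
      rw [h3, hj]
      have h4 : (c ^ (2 : ℤ)) ^ 2 = c ^ 4 := by
        rw [← zpow_natCast, ← zpow_mul]; norm_cast
      rw [h4, hc4]
    apply hinj
    rw [hj]
    exact_mod_cast h2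
  · right
    intro a ha
    obtain ⟨n, rfl⟩ := hgen a ha
    rw [hcj, hj]
    have h5 : c ^ (3 : ℤ) = c⁻¹ := by
      rw [eq_inv_iff_mul_eq_one, ← zpow_add_one]; exact hc4'
    rw [h5]
    simp

omit [Finite E] in
/-- The commutator as a product of squares. -/
theorem comm_eq_squares (a b : E) :
    ⁅a, b⁆ = (a * b) ^ 2 * (b⁻¹ * a⁻¹ * b) ^ 2 * (b⁻¹) ^ 2 := by
  rw [commutatorElement_def]
  simp only [pow_two]
  group

/-- A normal subgroup containing all squares contains the Frattini subgroup. -/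
theorem frattini_le_of_squares (M : Subgroup E) [hM : M.Normal] (hs : ∀ x : E, x ^ 2 ∈ M) :
    frattini E ≤ M := by
  have hF2 : Fact (Nat.Prime 2) := ⟨Nat.prime_two⟩
  refine frattini_le_of_normal (p := 2) M ?_ hs
  rw [commutator_def, Subgroup.commutator_le]
  intro a _ b _
  rw [comm_eq_squares]
  exact M.mul_mem (M.mul_mem (hs _) (hs _)) (hs _)

/-- **The Frattini subgroup is abelian.** -/
theorem frattini_comm (h2 : IsPGroup 2 E)
    (hc : ∀ A : Subgroup E, A.Characteristic → IsMulCommutative ↥A → IsCyclic ↥A)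
    (h4 : ∀ x : E, x ^ 4 = 1) : IsMulCommutative ↥(frattini E) := by
  classical
  have hF2 : Fact (Nat.Prime 2) := ⟨Nat.prime_two⟩
  let Z₀ : Subgroup E := (center ↥(frattini E)).map (frattini E).subtype
  have hZc : Z₀.Characteristic := characteristic_of_characteristic_of_characteristic
  have hZn : Z₀.Normal := ConjAct.normal_of_characteristic_of_normal
  have hZΦ : ∀ a ∈ Z₀, ∀ φ ∈ frattini E, a * φ = φ * a := by
    rintro _ ⟨a, ha, rfl⟩ φ hφ
    have := mem_center_iff.mp ha ⟨φ, hφ⟩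
    exact (congrArg Subtype.val this).symm
  have hZle : Z₀ ≤ frattini E := by
    rintro _ ⟨a, _, rfl⟩
    exact a.2
  have hZa : IsMulCommutative ↥Z₀ := by
    refine ⟨⟨fun a b => Subtype.ext ?_⟩⟩
    exact hZΦ a a.2 b (hZle b.2)
  have hZcyc := hc Z₀ hZc hZa
  have hmemZ : ∀ k ∈ frattini E, (∀ φ ∈ frattini E, φ * k = k * φ) → k ∈ Z₀ := by
    intro k hk hφ
    refine ⟨⟨k, hk⟩, ?_, rfl⟩
    rw [SetLike.mem_coe, mem_center_iff]
    rintro ⟨φ, hφm⟩
    exact Subtype.ext (hφ φ hφm)
  by_contra hna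
  have hex : ∃ k₀ ∈ frattini E, k₀ ∉ Z₀ := by
    by_contra hcon
    push Not at hcon
    apply hna
    refine ⟨⟨fun a b => Subtype.ext ?_⟩⟩
    exact hZΦ a (hcon a a.2) b b.2
  obtain ⟨k₀, hk₀, hk₀Z⟩ := hex
  let N : Subgroup (E ⧸ Z₀) := (frattini E).map (QuotientGroup.mk' Z₀)
  have hNn : N.Normal := Subgroup.Normal.map inferInstance _ (QuotientGroup.mk'_surjective Z₀)
  have hNne : N ≠ ⊥ := by
    intro h
    have h1 : QuotientGroup.mk' Z₀ k₀ ∈ N := ⟨k₀, hk₀, rfl⟩
    rw [h, mem_bot] at h1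
    exact hk₀Z ((QuotientGroup.eq_one_iff k₀).mp h1)
  obtain ⟨zb, hzbN, hzbZ, hzbo⟩ := exists_central_orderOf_eq (h2.to_quotient Z₀) N hNne
  obtain ⟨k, hkΦ, rfl⟩ := hzbN
  have hkk : k * k ∈ Z₀ := by
    rw [← QuotientGroup.eq_one_iff]
    have h1 : (QuotientGroup.mk' Z₀ k) ^ 2 = 1 := by rw [← hzbo]; exact pow_orderOf_eq_one _
    rw [pow_two] at h1
    exact h1
  have hkZ : k ∉ Z₀ := by
    intro h
    have h1 : QuotientGroup.mk' Z₀ k = 1 := (QuotientGroup.eq_one_iff k).mpr h
    rw [h1, orderOf_one] at hzbo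
    norm_num at hzbo
  have hcomm : ∀ x : E, x * k * x⁻¹ * k⁻¹ ∈ Z₀ := by
    intro x
    rw [← QuotientGroup.eq_one_iff]
    have h1 := mem_center_iff.mp hzbZ (QuotientGroup.mk' Z₀ x)
    change (QuotientGroup.mk' Z₀ x) * (QuotientGroup.mk' Z₀ k) * (QuotientGroup.mk' Z₀ x)⁻¹ *
      (QuotientGroup.mk' Z₀ k)⁻¹ = 1
    rw [h1]
    group
  have hZ4 : ∀ a ∈ Z₀, a ^ 4 = 1 := fun a _ => h4 a
  have hZconj : ∀ x : E, ∀ a ∈ Z₀, x * a * x⁻¹ ∈ Z₀ := fun x a ha => hZn.conj_mem a ha x
  -- squares centralize `k`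
  have key : ∀ x : E, x ^ 2 * k = k * x ^ 2 := by
    intro x
    set a := x * k * x⁻¹ * k⁻¹ with ha
    have haZ : a ∈ Z₀ := hcomm x
    have hak : a * k = k * a := hZΦ a haZ k hkΦ
    have hxk : x * k * x⁻¹ = a * k := by rw [ha]; group
    have hgoal : x ^ 2 * k * (x ^ 2)⁻¹ = k := by
      have h1 : x ^ 2 * k * (x ^ 2)⁻¹ = x * (x * k * x⁻¹) * x⁻¹ := by
        simp only [pow_two]; group
      have h2 : x * (a * k) * x⁻¹ = (x * a * x⁻¹) * (x * k * x⁻¹) := by group
      rw [h1, hxk, h2, hxk]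
      rcases conj_on_cyclic Z₀ hZcyc hZ4 x (hZconj x) with hid | hinv
      · -- `x` centralizes `Z₀`
        have h3 : x * (k * k) * x⁻¹ = k * k := hid _ hkk
        have h4' : x * (k * k) * x⁻¹ = (x * k * x⁻¹) * (x * k * x⁻¹) := by group
        rw [h4', hxk] at h3
        have h5 : a * a = 1 := by
          have h6 : (a * k) * (a * k) = (a * a) * (k * k) := by
            calc (a * k) * (a * k) = a * (k * a) * k := by group
              _ = a * (a * k) * k := by rw [hak]
              _ = _ := by group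
          rw [h6] at h3
          exact mul_eq_right.mp h3
        rw [hid a haZ]
        calc a * (a * k) = (a * a) * k := by group
          _ = k := by rw [h5, one_mul]
      · rw [hinv a haZ]
        group
    exact mul_inv_eq_iff_eq_mul.mp hgoal
  -- the normal subgroup `M`
  let M : Subgroup E := centralizer (normalClosure ({k} : Set E) : Set E)
  have hMn : M.Normal := inferInstance
  have hMs : ∀ x : E, x ^ 2 ∈ M := by
    intro x
    have hle : normalClosure ({k} : Set E) ≤ centralizer ({x ^ 2} : Set E) := by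
      rw [normalClosure, closure_le]
      intro g hg
      rw [Group.mem_conjugatesOfSet_iff] at hg
      obtain ⟨k', hk', hconj⟩ := hg
      rw [Set.mem_singleton_iff] at hk'
      subst hk'
      rw [isConj_iff] at hconj
      obtain ⟨u, rfl⟩ := hconj
      rw [SetLike.mem_coe, mem_centralizer_singleton_iff]
      have h1 : u * k' * u⁻¹ = (u * k' * u⁻¹ * k'⁻¹) * k' := by group
      have h2 : (u * k' * u⁻¹ * k'⁻¹) * x ^ 2 = x ^ 2 * (u * k' * u⁻¹ * k'⁻¹) :=
        hZΦ _ (hcomm u) _ (pow_mem_frattini h2 x)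
      rw [h1]
      calc (u * k' * u⁻¹ * k'⁻¹) * k' * x ^ 2 = (u * k' * u⁻¹ * k'⁻¹) * (k' * x ^ 2) := by group
        _ = (u * k' * u⁻¹ * k'⁻¹) * (x ^ 2 * k') := by rw [key x]
        _ = ((u * k' * u⁻¹ * k'⁻¹) * x ^ 2) * k' := by group
        _ = (x ^ 2 * (u * k' * u⁻¹ * k'⁻¹)) * k' := by rw [h2]
        _ = _ := by group
    rw [mem_centralizer_iff]
    intro g hg
    exact (mem_centralizer_singleton_iff.mp (hle hg))
  have hΦM : frattini E ≤ M := frattini_le_of_squares M hMs
  apply hkZ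
  apply hmemZ k hkΦ
  intro φ hφ
  have h1 := mem_centralizer_iff.mp (hΦM hφ) k (subset_normalClosure rfl)
  exact h1.symm

/-- In a cyclic group, the only solutions of `b * b = 1` are `1` and a given nontrivial one. -/
theorem cyclic_invol {A : Type*} [Group A] [Finite A] (hA : IsCyclic A) {a b : A} (ha : a * a = 1)
    (hb : b * b = 1) (ha1 : a ≠ 1) : b = 1 ∨ b = a := by
  classical
  have _ := Fintype.ofFinite A
  by_contra hcon
  push Not at hcon
  obtain ⟨hb1, hba⟩ := hcon
  have h1 := IsCyclic.card_pow_eq_one_le (α := A) (n := 2) (by norm_num)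
  have h2 : ({1, a, b} : Finset A) ⊆ Finset.univ.filter (fun x => x ^ 2 = 1) := by
    intro x hx
    simp only [Finset.mem_insert, Finset.mem_singleton] at hx
    simp only [Finset.mem_filter, Finset.mem_univ, true_and, pow_two]
    rcases hx with rfl | rfl | rfl
    · simp
    · exact ha
    · exact hb
  have h3 : ({1, a, b} : Finset A).card = 3 := by
    rw [Finset.card_eq_three]
    exact ⟨1, a, b, ha1.symm, hb1.symm, hba.symm, rfl⟩
  have h4 := Finset.card_le_card h2
  omega

/-- **Structure of `2`-groups of symplectic type and exponent at most four.** -/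
theorem structure_thm (h2 : IsPGroup 2 E)
    (hc : ∀ A : Subgroup E, A.Characteristic → IsMulCommutative ↥A → IsCyclic ↥A)
    (h4 : ∀ x : E, x ^ 4 = 1) {z : E} (hz : z ∈ center E) (hzz : z * z = 1) (hz1 : z ≠ 1) :
    (∀ x : E, x * x = 1 ∨ x * x = z) ∧ (∀ x y : E, ⁅x, y⁆ = 1 ∨ ⁅x, y⁆ = z) ∧
      (∀ x ∈ center E, x * x = 1 → x = 1 ∨ x = z) := by
  classical
  have hF2 : Fact (Nat.Prime 2) := ⟨Nat.prime_two⟩
  have hcenter : ∀ x ∈ center E, x * x = 1 → x = 1 ∨ x = z := by
    intro x hx hxx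
    have hcyc := hc (center E) inferInstance ⟨⟨fun a b => Subtype.ext (mem_center_iff.mp a.2 b).symm⟩⟩
    have h1 := cyclic_invol hcyc (a := ⟨z, hz⟩) (b := ⟨x, hx⟩) (Subtype.ext hzz) (Subtype.ext hxx)
      (fun h => hz1 (congrArg Subtype.val h))
    rcases h1 with h1 | h1
    · exact Or.inl (congrArg Subtype.val h1)
    · exact Or.inr (congrArg Subtype.val h1)
  have hΦa := frattini_comm h2 hc h4
  have hΦc := hc (frattini E) inferInstance hΦa
  have hΦcomm : ∀ a ∈ frattini E, ∀ b ∈ frattini E, a * b = b * a := fun a ha b hb =>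
    congrArg Subtype.val (mul_comm' (⟨a, ha⟩ : ↥(frattini E)) ⟨b, hb⟩)
  -- `N`: the elements of `Φ(E)` squaring to `1`
  let N : Subgroup E :=
    { carrier := {a | a ∈ frattini E ∧ a * a = 1}
      mul_mem' := by
        rintro a b ⟨ha, haa⟩ ⟨hb, hbb⟩
        refine ⟨mul_mem ha hb, ?_⟩
        calc a * b * (a * b) = a * (b * a) * b := by group
          _ = a * (a * b) * b := by rw [hΦcomm b hb a ha]
          _ = (a * a) * (b * b) := by group
          _ = 1 := by rw [haa, hbb, one_mul]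
      one_mem' := ⟨one_mem _, by simp⟩
      inv_mem' := by
        rintro a ⟨ha, haa⟩
        refine ⟨inv_mem ha, ?_⟩
        rw [← mul_inv_rev, haa, inv_one] }
  have hNn : N.Normal := by
    constructor
    rintro a ⟨ha, haa⟩ g
    refine ⟨(inferInstance : (frattini E).Normal).conj_mem a ha g, ?_⟩
    calc g * a * g⁻¹ * (g * a * g⁻¹) = g * (a * a) * g⁻¹ := by group
      _ = 1 := by rw [haa]; simp
  have hNs : ∀ x : E, x ^ 2 ∈ N := by
    intro x
    refine ⟨pow_mem_frattini h2 x, ?_⟩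
    have := h4 x
    calc x ^ 2 * x ^ 2 = x ^ 4 := by rw [← pow_add]
      _ = 1 := this
  have hΦN : frattini E ≤ N := frattini_le_of_squares N hNs
  have hΦz : ∀ φ ∈ frattini E, φ = 1 ∨ φ = z := by
    intro φ hφ
    by_cases hφ1 : φ = 1
    · exact Or.inl hφ1
    have hφφ : φ * φ = 1 := (hΦN hφ).2
    have hφc : φ ∈ center E := by
      rw [mem_center_iff]
      intro u
      have hu : u * φ * u⁻¹ ∈ frattini E :=
        (inferInstance : (frattini E).Normal).conj_mem φ hφ u
      have huu : (u * φ * u⁻¹) * (u * φ * u⁻¹) = 1 := (hΦN hu).2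
      have h1 := cyclic_invol hΦc (a := ⟨φ, hφ⟩) (b := ⟨_, hu⟩) (Subtype.ext hφφ) (Subtype.ext huu)
        (fun h => hφ1 (congrArg Subtype.val h))
      rcases h1 with h1 | h1
      · exfalso
        have h2 : u * φ * u⁻¹ = 1 := congrArg Subtype.val h1
        apply hφ1
        have h3 : φ = u⁻¹ * (u * φ * u⁻¹) * u := by group
        rw [h3, h2]; simp
      · have h2 : u * φ * u⁻¹ = φ := congrArg Subtype.val h1
        exact mul_inv_eq_iff_eq_mul.mp h2
    exact hcenter φ hφc hφφ
  refine ⟨fun x => ?_, fun x y => ?_, hcenter⟩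
  · have := hΦz (x ^ 2) (pow_mem_frattini h2 x)
    rwa [pow_two] at this
  · exact hΦz _ (commutator_le_frattini h2 (commutator_mem_commutator (mem_top x) (mem_top y)))

end Cfsg.Agent.Lib.TI.SympExp4
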