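import Mathlib.Algebra.Group.Subgroup.Map
import Mathlib.Algebra.Group.End
import Mathlib.GroupTheory.Subgroup.Centralizer
import Mathlib.Tactic.Group

set_option autoImplicit false

/-!
Small API for conjugates written `A.map (MulAut.conj g).toMonoidHom`, and for the "TI" condition.
-/

namespace Cfsg.Agent.Lib.TI.Basic

variable {G : Type*} [Group G]

theorem mem_conj_iff {A : Subgroup G} {g x : G} :
    x ∈ A.map (MulAut.conj g).toMonoidHom ↔ g⁻¹ * x * g ∈ A := by
  constructor
  · rintro ⟨a, ha, rfl⟩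
    simpa [MulAut.conj_apply, mul_assoc] using ha
  · intro h
    refine ⟨_, h, ?_⟩
    simp [MulAut.conj_apply, mul_assoc]

theorem conj_mem {A : Subgroup G} {g a : G} (ha : a ∈ A) :
    g * a * g⁻¹ ∈ A.map (MulAut.conj g).toMonoidHom :=
  ⟨a, ha, by simp [MulAut.conj_apply]⟩

theorem map_conj_map_conj (A : Subgroup G) (g h : G) :
    (A.map (MulAut.conj g).toMonoidHom).map (MulAut.conj h).toMonoidHom =
      A.map (MulAut.conj (h * g)).toMonoidHom := by
  ext x
  simp only [mem_conj_iff]
  simp [mul_assoc]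

theorem map_conj_eq_self_of_mem_normalizer {A : Subgroup G} {g : G}
    (hg : g ∈ Subgroup.normalizer (A : Set G)) : A.map (MulAut.conj g).toMonoidHom = A := by
  ext x
  rw [mem_conj_iff]
  have := (Subgroup.mem_normalizer_iff.mp (Subgroup.inv_mem _ hg) x)
  simpa using this.symm

theorem mem_normalizer_of_map_conj_eq {A : Subgroup G} {g : G}
    (hg : A.map (MulAut.conj g).toMonoidHom = A) : g ∈ Subgroup.normalizer (A : Set G) := by
  rw [Subgroup.mem_normalizer_iff]
  intro x
  constructor
  · intro hx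
    have : g * x * g⁻¹ ∈ A.map (MulAut.conj g).toMonoidHom := conj_mem hx
    rwa [hg] at this
  · intro hx
    rw [← hg, mem_conj_iff] at hx
    simpa [mul_assoc] using hx

/-- `TI` transports along conjugation. -/
theorem ti_conj {A : Subgroup G}
    (hti : ∀ h : G, A.map (MulAut.conj h).toMonoidHom = A ∨ A.map (MulAut.conj h).toMonoidHom ⊓ A = ⊥)
    (g h : G) :
    (A.map (MulAut.conj g).toMonoidHom).map (MulAut.conj h).toMonoidHom =
        A.map (MulAut.conj g).toMonoidHom ∨
      (A.map (MulAut.conj g).toMonoidHom).map (MulAut.conj h).toMonoidHom ⊓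
        A.map (MulAut.conj g).toMonoidHom = ⊥ := by
  rcases hti (g⁻¹ * h * g) with h1 | h1
  · left
    rw [map_conj_map_conj]
    have := congrArg (fun S : Subgroup G => S.map (MulAut.conj g).toMonoidHom) h1
    simp only [map_conj_map_conj] at this
    simpa [mul_assoc] using this
  · right
    rw [map_conj_map_conj]
    rw [eq_bot_iff]
    intro x hx
    rw [Subgroup.mem_inf, mem_conj_iff, mem_conj_iff] at hx
    obtain ⟨h2, h3⟩ := hx
    have hmem : g⁻¹ * x * g ∈ A.map (MulAut.conj (g⁻¹ * h * g)).toMonoidHom ⊓ A := by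
      refine ⟨mem_conj_iff.mpr ?_, h3⟩
      simpa [mul_assoc] using h2
    rw [h1, Subgroup.mem_bot] at hmem
    rw [Subgroup.mem_bot]
    have : x = g * (g⁻¹ * x * g) * g⁻¹ := by group
    rw [this, hmem]
    simp

end Cfsg.Agent.Lib.TI.Basic
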