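import Cfsg.Agent.Lib.PGroups.Special

/-!
Duality and involutory automorphisms of extraspecial `2`-groups (or groups of order `2`):

* `mem_of_double_centralizer`: `C_E(C_E(W)) = W` if `Z(E) ≤ W`;
* for `σ` an automorphism of order at most `2`, with `d x = σ x * x⁻¹`, the subgroup generated by the
  `d x` is the centre of `{x | d x ∈ Z(E)}`, if `σ` is nontrivial.
-/

set_option autoImplicit false

namespace Cfsg.Agent.Lib.TI.ExtraInvol

open Subgroup Cfsg.Agent.Lib.PGroups.ClassTwo Cfsg.Agent.Lib.PGroups.Special Pointwise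
open scoped commutatorElement

variable {E : Type*} [Group E] [Finite E]

/-- A subgroup containing the centre of an `ExtraLike 2` group, not containing `x`, lies in a subgroup
of index two not containing `x`. -/
theorem exists_index_two_sep (h : ExtraLike 2 E) (W : Subgroup E) (hW : center E ≤ W) {x : E}
    (hx : x ∉ W) : ∃ M : Subgroup E, W ≤ M ∧ x ∉ M ∧ M.index = 2 := by
  have hF2 : Fact (Nat.Prime 2) := ⟨Nat.prime_two⟩
  obtain ⟨M, hWM, hmax⟩ := Finite.exists_le_maximal (p := fun M : Subgroup E => W ≤ M ∧ x ∉ M)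
    (a := W) ⟨le_rfl, hx⟩
  have hxM : x ∉ M := hmax.prop.2
  have hZM : center E ≤ M := hW.trans hWM
  have hnorm : M.Normal := by
    constructor
    intro m hm g
    have h1 : g * m * g⁻¹ = ⁅g, m⁆ * m := by
      rw [commutatorElement_def]; group
    rw [h1]
    exact M.mul_mem (hZM (h.comm_mem g m)) hm
  have key : ∀ y, y ∉ M → x * y⁻¹ ∈ M := by
    intro y hy
    have hxM' : x ∈ M ⊔ zpowers y := by
      by_contra hcon
      have h1 : M ⊔ zpowers y ≤ M := hmax.le_of_ge ⟨hWM.trans le_sup_left, hcon⟩ le_sup_left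
      exact hy (h1 (Subgroup.mem_sup_right (mem_zpowers y)))
    have h2 : x ∈ ((M ⊔ zpowers y : Subgroup E) : Set E) := hxM'
    rw [Subgroup.normal_mul] at h2
    obtain ⟨m, hm, w, hw, rfl⟩ := Set.mem_mul.mp h2
    obtain ⟨k, rfl⟩ := Subgroup.mem_zpowers_iff.mp hw
    have hy2 : y ^ 2 ∈ M := hZM (h.pow_mem y)
    rcases Int.even_or_odd' k with ⟨j, rfl | rfl⟩
    · exfalso
      apply hxM
      refine M.mul_mem hm ?_
      rw [zpow_mul]
      exact M.zpow_mem (by exact_mod_cast hy2) j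
    · have h3 : y ^ (2 * j + 1) = (y ^ (2 : ℤ)) ^ j * y := by
        rw [zpow_add, zpow_mul, zpow_one]
      change m * y ^ (2 * j + 1) * y⁻¹ ∈ M
      rw [h3]
      have h4 : m * ((y ^ (2 : ℤ)) ^ j * y) * y⁻¹ = m * (y ^ (2 : ℤ)) ^ j := by group
      rw [h4]
      exact M.mul_mem hm (M.zpow_mem (by exact_mod_cast hy2) j)
  refine ⟨M, hWM, hxM, ?_⟩
  rw [Subgroup.index_eq_two_iff]
  refine ⟨x, fun b => ?_⟩
  by_cases hb : b ∈ M
  · right
    refine ⟨hb, fun h1 => hxM ?_⟩
    have := M.mul_mem (M.inv_mem hb) h1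
    simpa using this
  · left
    refine ⟨?_, hb⟩
    have h1 : b⁻¹ ∉ M := fun h2 => hb (by simpa using M.inv_mem h2)
    have h2 := key _ h1
    rw [inv_inv] at h2
    have h3 : b * x = b * (x * b) * b⁻¹ := by group
    rw [h3]
    exact hnorm.conj_mem _ h2 b

/-- Separation of a point from a subgroup containing the centre by a homomorphism to the centre. -/
theorem exists_sep_hom (h : ExtraLike 2 E) (W : Subgroup E) (hW : center E ≤ W) {x : E}
    (hx : x ∉ W) : ∃ f : E →* center E, (∀ w ∈ W, f w = 1) ∧ f x ≠ 1 := by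
  classical
  have hF2 : Fact (Nat.Prime 2) := ⟨Nat.prime_two⟩
  obtain ⟨M, hWM, hxM, hidx⟩ := exists_index_two_sep h W hW hx
  have hcard : Nat.card (center E) = 2 := h.card_center
  have hnt : Nontrivial (center E) := by
    rw [← Finite.one_lt_card_iff_nontrivial, hcard]; norm_num
  obtain ⟨z, hz⟩ := exists_ne (1 : center E)
  have hz2 : z * z = 1 := by
    have : z ^ 2 = 1 := by
      rw [← hcard]; exact pow_card_eq_one'
    rwa [pow_two] at this
  let f : E →* center E :=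
    { toFun := fun g => if g ∈ M then 1 else z
      map_one' := by simp [M.one_mem]
      map_mul' := by
        intro a b
        have h1 := Subgroup.mul_mem_iff_of_index_two hidx (a := a) (b := b)
        by_cases ha : a ∈ M <;> by_cases hb : b ∈ M <;> simp [ha, hb, h1, hz2] }
  refine ⟨f, fun w hw => ?_, ?_⟩
  · change (if w ∈ M then 1 else z) = 1
    rw [if_pos (hWM hw)]
  · change (if x ∈ M then 1 else z) ≠ 1
    rw [if_neg hxM]
    exact hz

/-- **Double centralizer** in an `ExtraLike 2` group. -/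
theorem mem_of_double_centralizer (h : ExtraLike 2 E) (W : Subgroup E) (hW : center E ≤ W) {x : E}
    (hx : ∀ e : E, (∀ w ∈ W, ⁅e, w⁆ = 1) → ⁅e, x⁆ = 1) : x ∈ W := by
  have hF2 : Fact (Nat.Prime 2) := ⟨Nat.prime_two⟩
  by_contra hxW
  obtain ⟨f, hf1, hfx⟩ := exists_sep_hom h W hW hxW
  obtain ⟨e, he⟩ := h.exists_comm_eq_hom f (fun z hz => hf1 z (hW hz))
  have h1 : ∀ w ∈ W, ⁅e, w⁆ = 1 := by
    intro w hw
    rw [← he, hf1 w hw]
    rfl
  have h2 := hx e h1
  rw [← he] at h2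
  exact hfx (Subtype.ext h2)

section Invol

variable (σ : E →* E) (hσ : ∀ x, σ (σ x) = x)

include hσ

/-- An automorphism fixes the elements of the centre. -/
theorem center_fixed (h : ExtraLike 2 E) {z : E} (hz : z ∈ center E) : σ z = z := by
  have hF2 : Fact (Nat.Prime 2) := ⟨Nat.prime_two⟩
  by_cases hz1 : z = 1
  · rw [hz1, map_one]
  have hσz : σ z ∈ center E := by
    rw [mem_center_iff]
    intro g
    have h1 := mem_center_iff.mp hz (σ g)
    have h2 := congrArg σ h1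
    rw [map_mul, map_mul, hσ] at h2
    exact h2
  obtain ⟨n, hn⟩ := h.exists_pow_eq hz hz1 hσz
  have hz2 : z ^ 2 = 1 := h.center_pow z hz
  rcases Nat.even_or_odd' n with ⟨k, rfl | rfl⟩
  · rw [pow_mul, hz2, one_pow] at hn
    exfalso
    apply hz1
    have h3 := congrArg σ hn
    rw [hσ, map_one] at h3
    exact h3
  · rw [pow_succ, pow_mul, hz2, one_pow, one_mul] at hn
    exact hn

theorem comm_map (h : ExtraLike 2 E) (x y : E) : ⁅σ x, σ y⁆ = ⁅x, y⁆ := by
  rw [← map_commutatorElement]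
  exact center_fixed σ hσ h (h.comm_mem x y)

/-- Adjointness of `d`: `⁅σ x * x⁻¹, y⁆ = ⁅x, σ y * y⁻¹⁆`. -/
theorem comm_d_left (h : ExtraLike 2 E) (x y : E) : ⁅σ x * x⁻¹, y⁆ = ⁅x, σ y * y⁻¹⁆ := by
  rw [comm_mul_left h.comm_mem, comm_mul_right h.comm_mem, comm_inv_left h.comm_mem,
    comm_inv_right h.comm_mem]
  congr 1
  have := comm_map σ hσ h x (σ y)
  rwa [hσ] at this

omit hσ

/-- The elements acting trivially modulo the centre. -/
def fixedMod (h : ExtraLike 2 E) : Subgroup E where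
  carrier := {x | σ x * x⁻¹ ∈ center E}
  mul_mem' := by
    intro a b ha hb
    change σ (a * b) * (a * b)⁻¹ ∈ center E
    have h1 : σ (a * b) * (a * b)⁻¹ = σ a * (σ b * b⁻¹) * a⁻¹ := by
      rw [map_mul]; group
    rw [h1, mem_center_iff.mp hb (σ a)]
    have h2 : σ b * b⁻¹ * σ a * a⁻¹ = (σ b * b⁻¹) * (σ a * a⁻¹) := by group
    rw [h2]
    exact mul_mem hb ha
  one_mem' := by
    change σ 1 * 1⁻¹ ∈ center E
    simp [one_mem]
  inv_mem' := by
    intro a ha
    have ha : σ a * a⁻¹ ∈ center E := ha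
    change σ a⁻¹ * a⁻¹⁻¹ ∈ center E
    have h1 : σ a⁻¹ * a⁻¹⁻¹ = (σ a)⁻¹ * a := by simp
    have h2 : (σ a)⁻¹ * a = (σ a)⁻¹ * (a * (σ a)⁻¹) * σ a := by group
    have h3 : a * (σ a)⁻¹ = (σ a * a⁻¹)⁻¹ := by group
    rw [h1, h2, h3, mem_center_iff.mp (inv_mem ha) (σ a)⁻¹]
    simpa using inv_mem ha

theorem mem_fixedMod (h : ExtraLike 2 E) {x : E} : x ∈ fixedMod σ h ↔ σ x * x⁻¹ ∈ center E := Iff.rfl

/-- The subgroup generated by the `d x`. -/
def dClosure : Subgroup E := closure (Set.range fun x : E => σ x * x⁻¹)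

theorem d_mem_dClosure (x : E) : σ x * x⁻¹ ∈ dClosure σ := subset_closure ⟨x, rfl⟩

include hσ

omit hσ in
/-- The centre of `E` lies in the subgroup generated by the `d x`, if `σ` is nontrivial. -/
theorem center_le_dClosure (h : ExtraLike 2 E) (hne : ∃ x, σ x ≠ x) : center E ≤ dClosure σ := by
  have hF2 : Fact (Nat.Prime 2) := ⟨Nat.prime_two⟩
  obtain ⟨x, hx⟩ := hne
  set c := σ x * x⁻¹ with hc
  have hc1 : c ≠ 1 := by
    intro h1
    exact hx (mul_inv_eq_one.mp h1)
  -- a nontrivial element of the centre lies in `dClosure`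
  have hex : ∃ y ∈ dClosure σ, y ∈ center E ∧ y ≠ 1 := by
    by_cases hcZ : c ∈ center E
    · exact ⟨c, d_mem_dClosure σ x, hcZ, hc1⟩
    · rw [mem_center_iff] at hcZ
      push Not at hcZ
      obtain ⟨r, hr⟩ := hcZ
      refine ⟨⁅c, r⁆, ?_, h.comm_mem c r, ?_⟩
      · -- `r * d x * r⁻¹ = (d r)⁻¹ * d (r * x)`
        have h1 : r * c * r⁻¹ = (σ r * r⁻¹)⁻¹ * (σ (r * x) * (r * x)⁻¹) := by
          rw [hc, map_mul]; group
        have h2 : r * c * r⁻¹ ∈ dClosure σ := by
          rw [h1]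
          exact mul_mem (inv_mem (d_mem_dClosure σ r)) (d_mem_dClosure σ (r * x))
        rw [commutatorElement_def]
        have h3 : c * r * c⁻¹ * r⁻¹ = c * (r * c * r⁻¹)⁻¹ := by group
        rw [h3]
        exact mul_mem (d_mem_dClosure σ x) (inv_mem h2)
      · intro h1
        rw [commutatorElement_eq_one_iff_mul_comm] at h1
        exact hr h1.symm
  obtain ⟨y, hy, hyZ, hy1⟩ := hex
  intro w hw
  obtain ⟨n, rfl⟩ := h.exists_pow_eq hyZ hy1 hw
  exact pow_mem hy n

/-- The generators `d x` lie in `fixedMod`. -/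
theorem dClosure_le_fixedMod (h : ExtraLike 2 E) : dClosure σ ≤ fixedMod σ h := by
  have hF2 : Fact (Nat.Prime 2) := ⟨Nat.prime_two⟩
  rw [dClosure, closure_le]
  rintro _ ⟨x, rfl⟩
  change σ (σ x * x⁻¹) * (σ x * x⁻¹)⁻¹ ∈ center E
  have h1 : σ (σ x * x⁻¹) * (σ x * x⁻¹)⁻¹ = ((σ x * x⁻¹) ^ 2)⁻¹ := by
    rw [map_mul, map_inv, hσ, pow_two]
    group
  rw [h1]
  exact inv_mem (h.pow_mem _)

/-- The subgroup generated by the `d x` centralizes `fixedMod`. -/
theorem dClosure_comm (h : ExtraLike 2 E) {w q : E} (hw : w ∈ dClosure σ) (hq : q ∈ fixedMod σ h) :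
    ⁅w, q⁆ = 1 := by
  have hF2 : Fact (Nat.Prime 2) := ⟨Nat.prime_two⟩
  have hle : dClosure σ ≤ centralizer ({q} : Set E) := by
    rw [dClosure, closure_le]
    rintro _ ⟨x, rfl⟩
    rw [SetLike.mem_coe, mem_centralizer_singleton_iff]
    have h1 : ⁅σ x * x⁻¹, q⁆ = 1 := by
      rw [comm_d_left σ hσ h, commutatorElement_eq_one_iff_mul_comm]
      exact (mem_center_iff.mp hq x)
    exact commutatorElement_eq_one_iff_mul_comm.mp h1
  have h2 := mem_centralizer_singleton_iff.mp (hle hw)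
  exact commutatorElement_eq_one_iff_mul_comm.mpr h2

/-- A central element of `fixedMod` lies in the subgroup generated by the `d x`, if `σ` is
nontrivial. -/
theorem mem_dClosure_of_central (h : ExtraLike 2 E) (hne : ∃ x, σ x ≠ x) {x : E}
    (hx : ∀ y ∈ fixedMod σ h, ⁅y, x⁆ = 1) : x ∈ dClosure σ := by
  have hF2 : Fact (Nat.Prime 2) := ⟨Nat.prime_two⟩
  refine mem_of_double_centralizer h (dClosure σ) (center_le_dClosure σ h hne) ?_
  intro e he
  apply hx
  rw [mem_fixedMod, mem_center_iff]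
  intro r
  have h1 : ⁅σ e * e⁻¹, r⁆ = 1 := by
    rw [comm_d_left σ hσ h]
    exact he _ (d_mem_dClosure σ r)
  exact (commutatorElement_eq_one_iff_mul_comm.mp h1).symm

end Invol

end Cfsg.Agent.Lib.TI.ExtraInvol
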