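import Cfsg.Agent.S1782

/-!
Relative form of the commuting theorem for families of TI-subgroups (S1782):
members of an `H`-invariant family of pairwise disjoint subgroups of equal order, all containing an
element whose square is nontrivial, of a `2`-subgroup `H`, commute elementwise.
-/

set_option autoImplicit false

namespace Cfsg.Agent.Lib.TI.Family

open Cfsg.Agent.Lib.TI.Basic

variable {G : Type*} [Group G] [Finite G]

theorem family_commute (H : Subgroup G) (hH : IsPGroup 2 ↥H) (Δ : Set (Subgroup G))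
    (hle : ∀ R ∈ Δ, R ≤ H)
    (hinv : ∀ s ∈ H, ∀ R ∈ Δ, R.map (MulAut.conj s).toMonoidHom ∈ Δ)
    (hsq : ∀ R ∈ Δ, ∃ x ∈ R, x ^ 2 ≠ 1)
    (hord : ∀ R ∈ Δ, ∀ T ∈ Δ, Nat.card ↥R = Nat.card ↥T)
    (hti : ∀ R ∈ Δ, ∀ T ∈ Δ, R = T ∨ R ⊓ T = ⊥) :
    ∀ R ∈ Δ, ∀ T ∈ Δ, R ≠ T → ∀ r ∈ R, ∀ t ∈ T, r * t = t * r := by
  have : Fact (Nat.Prime 2) := ⟨Nat.prime_two⟩
  let Δ' : Set (Subgroup ↥H) := (fun R => R.subgroupOf H) '' Δ
  have key := Cfsg.Agent.S1782.result hH Δ' ?_ ?_ ?_ ?_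
  · intro R hR T hT hRT r hr t ht
    have hne : R.subgroupOf H ≠ T.subgroupOf H := by
      intro h
      apply hRT
      have h1 := Subgroup.subgroupOf_inj.mp h
      rwa [inf_eq_left.mpr (hle R hR), inf_eq_left.mpr (hle T hT)] at h1
    have h2 := key _ ⟨R, hR, rfl⟩ _ ⟨T, hT, rfl⟩ hne
    rw [Subgroup.commutator_eq_bot_iff_le_centralizer] at h2
    have h3 : (⟨r, hle R hR hr⟩ : ↥H) ∈ R.subgroupOf H := by
      rw [Subgroup.mem_subgroupOf]; exact hr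
    have h4 := Subgroup.mem_centralizer_iff.mp (h2 h3) ⟨t, hle T hT ht⟩
      (by rw [SetLike.mem_coe, Subgroup.mem_subgroupOf]; exact ht)
    exact (congrArg (fun z : ↥H => (z : G)) h4).symm
  · rintro s _ ⟨R, hR, rfl⟩
    refine ⟨_, hinv s.1 s.2 R hR, ?_⟩
    ext x
    simp only [Subgroup.mem_subgroupOf, mem_conj_iff]
    rfl
  · rintro _ ⟨R, hR, rfl⟩ hbot
    obtain ⟨x, hx, hx2⟩ := hsq R hR
    have hR2 : IsPGroup 2 ↥(R.subgroupOf H) := hH.to_subgroup _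
    let x' : ↥(R.subgroupOf H) := ⟨⟨x, hle R hR hx⟩, by rw [Subgroup.mem_subgroupOf]; exact hx⟩
    have h1 := Cfsg.Agent.Lib.PGroups.Basic.pow_mem_frattini hR2 x'
    rw [hbot, Subgroup.mem_bot] at h1
    apply hx2
    have h2 := congrArg (fun z : ↥(R.subgroupOf H) => ((z : ↥H) : G)) h1
    simpa [x'] using h2
  · rintro _ ⟨R, hR, rfl⟩ _ ⟨T, hT, rfl⟩
    have e1 : Nat.card ↥(R.subgroupOf H) = Nat.card ↥R :=
      Nat.card_congr (Subgroup.subgroupOfEquivOfLe (hle R hR)).toEquiv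
    have e2 : Nat.card ↥(T.subgroupOf H) = Nat.card ↥T :=
      Nat.card_congr (Subgroup.subgroupOfEquivOfLe (hle T hT)).toEquiv
    simp only [e1, e2]
    exact hord R hR T hT
  · rintro _ ⟨R, hR, rfl⟩ _ ⟨T, hT, rfl⟩
    rcases hti R hR T hT with h | h
    · left; simp only [h]
    · right
      rw [eq_bot_iff]
      intro x hx
      obtain ⟨h1, h2⟩ := Subgroup.mem_inf.mp hx
      rw [Subgroup.mem_subgroupOf] at h1 h2
      have h3 : (x : G) ∈ R ⊓ T := ⟨h1, h2⟩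
      rw [h, Subgroup.mem_bot] at h3
      exact Subgroup.mem_bot.mpr (Subtype.ext h3)

/-- Conjugates in a `2`-subgroup: a TI abelian subgroup with a nontrivial square commutes with its
`H`-conjugates. -/
theorem conj_commute (A H : Subgroup G) (hAH : A ≤ H) (hH : IsPGroup 2 ↥H) (hAa : IsMulCommutative ↥A)
    (hti : ∀ h : G, A.map (MulAut.conj h).toMonoidHom = A ∨ A.map (MulAut.conj h).toMonoidHom ⊓ A = ⊥)
    {a₀ : G} (ha₀ : a₀ ∈ A) (ha₀2 : a₀ ^ 2 ≠ 1) {s : G} (hs : s ∈ H) {a b : G} (ha : a ∈ A) (hb : b ∈ A) :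
    a * (s * b * s⁻¹) = (s * b * s⁻¹) * a := by
  have hAcomm : ∀ x ∈ A, ∀ y ∈ A, x * y = y * x := fun x hx y hy =>
    congrArg (fun z : ↥A => (z : G)) (mul_comm' (⟨x, hx⟩ : ↥A) ⟨y, hy⟩)
  by_cases hsA : A.map (MulAut.conj s).toMonoidHom = A
  · have : s * b * s⁻¹ ∈ A := by
      rw [← hsA]; exact conj_mem hb
    exact hAcomm a ha _ this
  let Δ : Set (Subgroup G) := {R | ∃ u ∈ H, R = A.map (MulAut.conj u).toMonoidHom}
  refine family_commute H hH Δ ?_ ?_ ?_ ?_ ?_ A ⟨1, H.one_mem, ?_⟩ _ ⟨s, hs, rfl⟩ (Ne.symm hsA) a ha _ (conj_mem hb)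
  · rintro R ⟨u, hu, rfl⟩
    rintro _ ⟨x, hx, rfl⟩
    simp only [MulEquiv.coe_toMonoidHom, MulAut.conj_apply]
    exact H.mul_mem (H.mul_mem hu (hAH hx)) (H.inv_mem hu)
  · rintro v hv R ⟨u, hu, rfl⟩
    exact ⟨v * u, H.mul_mem hv hu, map_conj_map_conj A u v⟩
  · rintro R ⟨u, hu, rfl⟩
    refine ⟨u * a₀ * u⁻¹, conj_mem ha₀, ?_⟩
    intro h
    apply ha₀2
    have h1 : (u * a₀ * u⁻¹) ^ 2 = u * a₀ ^ 2 * u⁻¹ := by
      simp only [pow_two]; group
    rw [h1] at h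
    have h2 : a₀ ^ 2 = u⁻¹ * (u * a₀ ^ 2 * u⁻¹) * u := by group
    rw [h2, h]; simp
  · rintro R ⟨u, hu, rfl⟩ T ⟨v, hv, rfl⟩
    rw [Subgroup.card_map_of_injective (MulEquiv.injective _),
      Subgroup.card_map_of_injective (MulEquiv.injective _)]
  · rintro R ⟨u, hu, rfl⟩ T ⟨v, hv, rfl⟩
    rcases ti_conj hti v (u * v⁻¹) with h | h
    · left
      rw [map_conj_map_conj] at h
      simpa using h
    · right
      rw [map_conj_map_conj] at h
      simpa using h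
  · ext x
    simp [mem_conj_iff]

end Cfsg.Agent.Lib.TI.Family
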