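import Mathlib

/-!
A "Chevalley-Warning" theorem for special Jordan division rings of characteristic two.

An additive subgroup `S` of the `n × n` matrices over `ZMod 2`, containing `1`, closed under
`(a, b) ↦ a b a`, all of whose nonzero elements are invertible, is commutative.

Proof.  Let `X = ∑ tᵢ Aᵢ` be the generic element of `S`.  All powers of `X` lie in the span of the
`Aᵢ` over the field of rational functions, so the minimal polynomial of `X` has degree `d ≤ dim S`.
By Gauss's lemma the minimal polynomial has coefficients in the polynomial ring and divides the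
characteristic polynomial; by homogeneity its constant term `N` is homogeneous of degree `d`.
`N` divides `det X`, so it has no nontrivial zero over `ZMod 2`; by Chevalley-Warning, `d ≥ dim S`.
Hence the powers of `X` span, and the `Aᵢ` commute.
-/

set_option autoImplicit false

namespace Cfsg.Agent.Lib.TI.JordanField

open Polynomial

section span

variable {K B : Type*} [Field K] [Ring B] [Algebra K B]

theorem jordan_span (s : Set B) (hadd : ∀ a ∈ s, ∀ b ∈ s, a + b ∈ s)
    (hU : ∀ a ∈ s, ∀ y ∈ s, a * y * a ∈ s) :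
    ∀ a ∈ Submodule.span K s, ∀ y ∈ Submodule.span K s, a * y * a ∈ Submodule.span K s := by
  set T := Submodule.span K s with hT
  have hsT : ∀ {a}, a ∈ s → a ∈ T := fun h => Submodule.subset_span h
  have hpol₀ : ∀ a ∈ s, ∀ b ∈ s, ∀ y ∈ s, a * y * b + b * y * a ∈ T := by
    intro a ha b hb y hy
    have h1 : a * y * b + b * y * a = (a + b) * y * (a + b) - a * y * a - b * y * b := by
      noncomm_ring
    rw [h1]
    exact T.sub_mem (T.sub_mem (hsT (hU _ (hadd a ha b hb) y hy)) (hsT (hU a ha y hy)))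
      (hsT (hU b hb y hy))
  have hpol₁ : ∀ a ∈ s, ∀ b ∈ s, ∀ y ∈ T, a * y * b + b * y * a ∈ T := by
    intro a ha b hb y hy
    induction hy using Submodule.span_induction with
    | mem y hy => exact hpol₀ a ha b hb y hy
    | zero => simp
    | add x y _ _ h1 h2 =>
      have : a * (x + y) * b + b * (x + y) * a = (a * x * b + b * x * a) + (a * y * b + b * y * a) := by
        noncomm_ring
      rw [this]; exact T.add_mem h1 h2
    | smul c x _ h =>
      have : a * (c • x) * b + b * (c • x) * a = c • (a * x * b + b * x * a) := by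
        simp [mul_smul_comm, smul_mul_assoc, smul_add]
      rw [this]; exact T.smul_mem c h
  have hpol₂ : ∀ a ∈ T, ∀ b ∈ s, ∀ y ∈ T, a * y * b + b * y * a ∈ T := by
    intro a ha b hb y hy
    induction ha using Submodule.span_induction with
    | mem a ha => exact hpol₁ a ha b hb y hy
    | zero => simp
    | add x z _ _ h1 h2 =>
      have : (x + z) * y * b + b * y * (x + z) = (x * y * b + b * y * x) + (z * y * b + b * y * z) := by
        noncomm_ring
      rw [this]; exact T.add_mem h1 h2
    | smul c x _ h =>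
      have : (c • x) * y * b + b * y * (c • x) = c • (x * y * b + b * y * x) := by
        simp [mul_smul_comm, smul_mul_assoc, smul_add]
      rw [this]; exact T.smul_mem c h
  have hpol : ∀ a ∈ T, ∀ b ∈ T, ∀ y ∈ T, a * y * b + b * y * a ∈ T := by
    intro a ha b hb y hy
    induction hb using Submodule.span_induction with
    | mem b hb => exact hpol₂ a ha b hb y hy
    | zero => simp
    | add x z _ _ h1 h2 =>
      have : a * y * (x + z) + (x + z) * y * a = (a * y * x + x * y * a) + (a * y * z + z * y * a) := by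
        noncomm_ring
      rw [this]; exact T.add_mem h1 h2
    | smul c x _ h =>
      have : a * y * (c • x) + (c • x) * y * a = c • (a * y * x + x * y * a) := by
        simp [mul_smul_comm, smul_mul_assoc, smul_add]
      rw [this]; exact T.smul_mem c h
  have hU₁ : ∀ a ∈ s, ∀ y ∈ T, a * y * a ∈ T := by
    intro a ha y hy
    induction hy using Submodule.span_induction with
    | mem y hy => exact hsT (hU a ha y hy)
    | zero => simp
    | add x z _ _ h1 h2 =>
      have : a * (x + z) * a = a * x * a + a * z * a := by noncomm_ring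
      rw [this]; exact T.add_mem h1 h2
    | smul c x _ h =>
      have : a * (c • x) * a = c • (a * x * a) := by
        simp [mul_smul_comm, smul_mul_assoc]
      rw [this]; exact T.smul_mem c h
  intro a ha y hy
  induction ha using Submodule.span_induction with
  | mem a ha => exact hU₁ a ha y hy
  | zero => simp
  | @add x z hx hz h1 h2 =>
    have : (x + z) * y * (x + z) = x * y * x + z * y * z + (x * y * z + z * y * x) := by
      noncomm_ring
    rw [this]; exact T.add_mem (T.add_mem h1 h2) (hpol x hx z hz y hy)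
  | smul c x _ h =>
    have : (c • x) * y * (c • x) = (c * c) • (x * y * x) := by
      simp [mul_smul_comm, smul_mul_assoc, smul_smul]
    rw [this]; exact T.smul_mem _ h

end span

section generic

variable {n m : ℕ}

/-- The generic element `∑ tᵢ Aᵢ`. -/
noncomputable def genericMat (A : Fin m → Matrix (Fin n) (Fin n) (ZMod 2)) :
    Matrix (Fin n) (Fin n) (MvPolynomial (Fin m) (ZMod 2)) :=
  ∑ i, (MvPolynomial.X i : MvPolynomial (Fin m) (ZMod 2)) • (A i).map MvPolynomial.C

theorem genericMat_apply (A : Fin m → Matrix (Fin n) (Fin n) (ZMod 2)) (r s : Fin n) :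
    genericMat A r s = ∑ i, MvPolynomial.X i * MvPolynomial.C (A i r s) := by
  simp [genericMat, Matrix.sum_apply]

theorem genericMat_homog (A : Fin m → Matrix (Fin n) (Fin n) (ZMod 2)) (r s : Fin n) :
    (genericMat A r s).IsHomogeneous 1 := by
  rw [genericMat_apply]
  apply MvPolynomial.IsHomogeneous.sum
  intro i _
  have := (MvPolynomial.isHomogeneous_X (ZMod 2) i).mul (MvPolynomial.isHomogeneous_C (Fin m) (A i r s))
  simpa using this

theorem genericMat_pow_homog (A : Fin m → Matrix (Fin n) (Fin n) (ZMod 2)) (p : ℕ) (r s : Fin n) :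
    (((genericMat A) ^ p) r s).IsHomogeneous p := by
  induction p generalizing r s with
  | zero =>
    rw [pow_zero, Matrix.one_apply]
    split_ifs
    · exact MvPolynomial.isHomogeneous_one _ _
    · exact MvPolynomial.isHomogeneous_zero _ _ _
  | succ p ih =>
    rw [pow_succ, Matrix.mul_apply]
    apply MvPolynomial.IsHomogeneous.sum
    intro j _
    exact (ih r j).mul (genericMat_homog A j s)

theorem genericMat_eval (A : Fin m → Matrix (Fin n) (Fin n) (ZMod 2)) (t : Fin m → ZMod 2) :
    (genericMat A).map (MvPolynomial.eval t) = ∑ i, t i • A i := by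
  ext r s
  simp [genericMat_apply, Matrix.sum_apply]

/-- Homogeneous component of a product with a homogeneous polynomial. -/
theorem homogeneousComponent_mul_homog {σ : Type*} {f h : MvPolynomial σ (ZMod 2)} {j d : ℕ}
    (hh : h.IsHomogeneous j) (hjd : j ≤ d) :
    MvPolynomial.homogeneousComponent d (f * h) =
      MvPolynomial.homogeneousComponent (d - j) f * h := by
  classical
  have key : ∀ i, MvPolynomial.homogeneousComponent d (MvPolynomial.homogeneousComponent i f * h) =
      if i = d - j then MvPolynomial.homogeneousComponent i f * h else 0 := by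
    intro i
    have hm : (MvPolynomial.homogeneousComponent i f * h) ∈
        MvPolynomial.homogeneousSubmodule σ (ZMod 2) (i + j) :=
      (MvPolynomial.homogeneousComponent_isHomogeneous i f).mul hh
    rw [MvPolynomial.homogeneousComponent_of_mem hm]
    by_cases hi : i = d - j
    · rw [if_pos hi, if_pos (by omega)]
    · rw [if_neg hi, if_neg (by omega)]
  conv_lhs => rw [← MvPolynomial.sum_homogeneousComponent f]
  rw [Finset.sum_mul, map_sum, Finset.sum_congr rfl (fun i _ => key i), Finset.sum_ite_eq']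
  split_ifs with hmem
  · rfl
  · rw [Finset.mem_range] at hmem
    rw [MvPolynomial.homogeneousComponent_eq_zero _ _ (by omega), zero_mul]

end generic

section lift

variable {n : ℕ} {R : Type*} [CommRing R] [IsIntegrallyClosed R]

/-- Gauss's lemma for the minimal polynomial of a matrix. -/
theorem exists_lift (K : Type*) [Field K] [Algebra R K] [IsFractionRing R K]
    (X : Matrix (Fin n) (Fin n) R) :
    ∃ m : R[X], m.Monic ∧ m.map (algebraMap R K) = minpoly K (X.map (algebraMap R K)) ∧
      m ∣ X.charpoly ∧ Polynomial.aeval X m = 0 := by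
  set XK := X.map (algebraMap R K) with hXK
  have hinj : Function.Injective (algebraMap R K) := IsFractionRing.injective R K
  have hint : IsIntegral K XK := Algebra.IsIntegral.isIntegral XK
  have hmon : (minpoly K XK).Monic := minpoly.monic hint
  have hd : minpoly K XK ∣ X.charpoly.map (algebraMap R K) := by
    rw [← Matrix.charpoly_map]
    exact minpoly.dvd K XK (Matrix.aeval_self_charpoly XK)
  obtain ⟨m, hm⟩ := IsIntegrallyClosed.eq_map_mul_C_of_dvd K X.charpoly_monic hd
  rw [hmon.leadingCoeff, map_one, mul_one] at hm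
  have hmm : m.Monic := Polynomial.monic_of_injective hinj (by rw [hm]; exact hmon)
  refine ⟨m, hmm, hm, ?_, ?_⟩
  · rw [← Polynomial.modByMonic_eq_zero_iff_dvd hmm]
    apply Polynomial.map_injective _ hinj
    rw [Polynomial.map_modByMonic _ hmm, hm, Polynomial.map_zero,
      Polynomial.modByMonic_eq_zero_iff_dvd hmon]
    exact hd
  · have hφ : Function.Injective (Matrix.map · (algebraMap R K) : Matrix (Fin n) (Fin n) R → _) :=
      Matrix.map_injective hinj
    apply hφ
    have h1 := Polynomial.aeval_algHom_apply ((Algebra.ofId R K).mapMatrix (m := Fin n)) X m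
    have h2 : ((Algebra.ofId R K).mapMatrix (m := Fin n)) X = XK := rfl
    rw [h2] at h1
    have h3 : Polynomial.aeval XK m = 0 := by
      rw [← Polynomial.aeval_map_algebraMap K, hm]
      exact minpoly.aeval K XK
    rw [h3] at h1
    have h4 : ((Polynomial.aeval X) m).map (algebraMap R K) =
      ((Algebra.ofId R K).mapMatrix (m := Fin n)) ((Polynomial.aeval X) m) := rfl
    simp only [h4, ← h1]
    ext; simp

end lift

section homog

variable {n m : ℕ}

/-- The homogeneous parts. -/
theorem homog_part (A : Fin m → Matrix (Fin n) (Fin n) (ZMod 2))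
    (p : (MvPolynomial (Fin m) (ZMod 2))[X]) (hp : p.Monic)
    (h : Polynomial.aeval (genericMat A) p = 0) :
    Polynomial.aeval (genericMat A) (X ^ p.natDegree + ∑ i ∈ Finset.range p.natDegree,
      C (MvPolynomial.homogeneousComponent (p.natDegree - i) (p.coeff i)) * X ^ i) = 0 := by
  set d := p.natDegree with hd
  have hsum : p = X ^ d + ∑ i ∈ Finset.range d, C (p.coeff i) * X ^ i := hp.as_sum
  rw [hsum] at h
  simp only [map_add, map_pow, Polynomial.aeval_X, map_sum, map_mul, Polynomial.aeval_C,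
    ← Algebra.smul_def] at h ⊢
  refine Matrix.ext fun r s => ?_
  have h1 := congrFun (congrFun h r) s
  have h2 := congrArg (MvPolynomial.homogeneousComponent d) h1
  simp only [Matrix.add_apply, Matrix.sum_apply, Matrix.zero_apply, map_add, map_sum, map_zero,
    Matrix.smul_apply, smul_eq_mul] at h2 ⊢
  rw [MvPolynomial.homogeneousComponent_eq_self (genericMat_pow_homog A d r s)] at h2
  rw [← h2]
  congr 1
  apply Finset.sum_congr rfl
  intro i hi
  rw [Finset.mem_range] at hi
  rw [homogeneousComponent_mul_homog (genericMat_pow_homog A i r s) hi.le]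

/-- The constant term of a monic annihilating polynomial of the generic matrix, of least degree,
is homogeneous of degree the degree of the polynomial. -/
theorem coeff_zero_homog (A : Fin m → Matrix (Fin n) (Fin n) (ZMod 2))
    (K : Type*) [Field K] [Algebra (MvPolynomial (Fin m) (ZMod 2)) K]
    [IsFractionRing (MvPolynomial (Fin m) (ZMod 2)) K]
    (p : (MvPolynomial (Fin m) (ZMod 2))[X]) (hp : p.Monic)
    (h : Polynomial.aeval (genericMat A) p = 0)
    (hmin : p.map (algebraMap (MvPolynomial (Fin m) (ZMod 2)) K) =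
      minpoly K ((genericMat A).map (algebraMap (MvPolynomial (Fin m) (ZMod 2)) K)))
    (hpos : 0 < p.natDegree) :
    (p.coeff 0).IsHomogeneous p.natDegree := by
  set d := p.natDegree with hd
  set q : (MvPolynomial (Fin m) (ZMod 2))[X] := X ^ d + ∑ i ∈ Finset.range d,
      C (MvPolynomial.homogeneousComponent (d - i) (p.coeff i)) * X ^ i with hq
  have hdeg : (∑ i ∈ Finset.range d,
      C (MvPolynomial.homogeneousComponent (d - i) (p.coeff i)) * X ^ i :
        (MvPolynomial (Fin m) (ZMod 2))[X]).degree < (d : ℕ) := by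
    rw [Finset.sum_range]
    exact Polynomial.degree_sum_fin_lt _
  have hqm : q.Monic := Polynomial.monic_X_pow_add hdeg
  have hqd : q.natDegree = d := by
    rw [Polynomial.natDegree_add_eq_left_of_degree_lt (by rwa [Polynomial.degree_X_pow]), Polynomial.natDegree_X_pow]
  have hqa : Polynomial.aeval (genericMat A) q = 0 := homog_part A p hp h
  have hinj : Function.Injective (algebraMap (MvPolynomial (Fin m) (ZMod 2)) K) :=
    IsFractionRing.injective _ K
  -- `q` maps to the minimal polynomial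
  have hqmin : q.map (algebraMap (MvPolynomial (Fin m) (ZMod 2)) K) =
      p.map (algebraMap (MvPolynomial (Fin m) (ZMod 2)) K) := by
    have hint : IsIntegral K ((genericMat A).map (algebraMap (MvPolynomial (Fin m) (ZMod 2)) K)) :=
      Algebra.IsIntegral.isIntegral _
    have hann : Polynomial.aeval ((genericMat A).map (algebraMap (MvPolynomial (Fin m) (ZMod 2)) K))
        (q.map (algebraMap (MvPolynomial (Fin m) (ZMod 2)) K)) = 0 := by
      rw [Polynomial.aeval_map_algebraMap]
      have h1 := Polynomial.aeval_algHom_apply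
        ((Algebra.ofId (MvPolynomial (Fin m) (ZMod 2)) K).mapMatrix (m := Fin n)) (genericMat A) q
      rw [hqa, map_zero] at h1
      exact h1
    have hdvd := minpoly.dvd K _ hann
    rw [← hmin] at hdvd
    apply Polynomial.eq_of_monic_of_dvd_of_natDegree_le (hp.map _) (hqm.map _) hdvd
    rw [Polynomial.natDegree_map_eq_of_injective hinj, Polynomial.natDegree_map_eq_of_injective hinj,
      hqd]
  have hqp : q = p := Polynomial.map_injective _ hinj hqmin
  have hc : p.coeff 0 = MvPolynomial.homogeneousComponent d (p.coeff 0) := by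
    conv_lhs => rw [← hqp, hq]
    rw [Polynomial.coeff_add, Polynomial.coeff_X_pow, if_neg (by omega), zero_add,
      Polynomial.finsetSum_coeff]
    simp only [Polynomial.coeff_C_mul, Polynomial.coeff_X_pow]
    rw [Finset.sum_eq_single 0]
    · simp
    · intro i _ hi
      rw [if_neg (by omega), mul_zero]
    · intro h0
      exact absurd (Finset.mem_range.mpr hpos) h0
  rw [hc]
  exact MvPolynomial.homogeneousComponent_isHomogeneous _ _

/-- The Chevalley-Warning step: the minimal polynomial of the generic element has degree at least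
the number of variables. -/
theorem le_natDegree (A : Fin m → Matrix (Fin n) (Fin n) (ZMod 2))
    (hA : ∀ t : Fin m → ZMod 2, t ≠ 0 → (∑ i, t i • A i).det ≠ 0)
    (K : Type*) [Field K] [Algebra (MvPolynomial (Fin m) (ZMod 2)) K]
    [IsFractionRing (MvPolynomial (Fin m) (ZMod 2)) K]
    (p : (MvPolynomial (Fin m) (ZMod 2))[X]) (hp : p.Monic)
    (h : Polynomial.aeval (genericMat A) p = 0)
    (hmin : p.map (algebraMap (MvPolynomial (Fin m) (ZMod 2)) K) =
      minpoly K ((genericMat A).map (algebraMap (MvPolynomial (Fin m) (ZMod 2)) K)))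
    (hdvd : p ∣ (genericMat A).charpoly)
    (hpos : 0 < p.natDegree) : m ≤ p.natDegree := by
  classical
  by_contra hlt
  push Not at hlt
  have hhom := coeff_zero_homog A K p hp h hmin hpos
  have hCW := char_dvd_card_solutions (K := ZMod 2) (σ := Fin m) 2 (f := p.coeff 0)
    (by
      calc (p.coeff 0).totalDegree ≤ p.natDegree := hhom.totalDegree_le
        _ < Fintype.card (Fin m) := by simpa using hlt)
  -- the only zero is `0`
  have hzero : ∀ t : Fin m → ZMod 2, t ≠ 0 → MvPolynomial.eval t (p.coeff 0) ≠ 0 := by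
    intro t ht h0
    obtain ⟨q, hq⟩ := hdvd
    have h1 : ((genericMat A).charpoly).coeff 0 = p.coeff 0 * q.coeff 0 := by
      rw [hq, Polynomial.mul_coeff_zero]
    have h2 : (genericMat A).det = (-1) ^ Fintype.card (Fin n) * (p.coeff 0 * q.coeff 0) := by
      rw [Matrix.det_eq_sign_charpoly_coeff, h1]
    have h3 := congrArg (MvPolynomial.eval t) h2
    rw [map_mul, map_mul, h0, zero_mul, mul_zero, RingHom.map_det] at h3
    have h4 : (MvPolynomial.eval t).mapMatrix (genericMat A) = ∑ i, t i • A i :=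
      genericMat_eval A t
    rw [h4] at h3
    exact hA t ht h3
  have h0 : MvPolynomial.eval (0 : Fin m → ZMod 2) (p.coeff 0) = 0 := by
    rw [MvPolynomial.eval_zero, MvPolynomial.constantCoeff_eq]
    apply hhom.coeff_eq_zero
    rw [map_zero]
    omega
  have hcard : Fintype.card { x : Fin m → ZMod 2 // MvPolynomial.eval x (p.coeff 0) = 0 } = 1 := by
    rw [Fintype.card_eq_one_iff]
    refine ⟨⟨0, h0⟩, ?_⟩
    rintro ⟨t, ht⟩
    apply Subtype.ext
    by_contra hne
    exact hzero t hne ht
  rw [hcard] at hCW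
  exact absurd hCW (by norm_num)

end homog

section main

/-- **The Jordan field lemma**, matrix form. -/
theorem commute_of_jordan {n : ℕ} [NeZero n]
    (S : Submodule (ZMod 2) (Matrix (Fin n) (Fin n) (ZMod 2)))
    (h1 : (1 : Matrix (Fin n) (Fin n) (ZMod 2)) ∈ S)
    (hU : ∀ a ∈ S, ∀ b ∈ S, a * b * a ∈ S)
    (hdet : ∀ a ∈ S, a ≠ 0 → a.det ≠ 0) :
    ∀ a ∈ S, ∀ b ∈ S, a * b = b * a := by
  classical
  set m := Module.finrank (ZMod 2) S with hm
  let bS : Module.Basis (Fin m) (ZMod 2) S := Module.finBasis (ZMod 2) S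
  let A : Fin m → Matrix (Fin n) (Fin n) (ZMod 2) := fun i => (bS i : Matrix (Fin n) (Fin n) (ZMod 2))
  have hAS : ∀ i, A i ∈ S := fun i => (bS i).2
  have hA : ∀ t : Fin m → ZMod 2, t ≠ 0 → (∑ i, t i • A i).det ≠ 0 := by
    intro t ht
    apply hdet
    · exact S.sum_mem fun i _ => S.smul_mem _ (hAS i)
    · intro h0
      apply ht
      have hli := bS.linearIndependent
      have h2 : ∑ i, t i • bS i = 0 := by
        apply Subtype.ext
        simpa using h0
      funext i
      exact Fintype.linearIndependent_iff.mp hli t h2 i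
  let R := MvPolynomial (Fin m) (ZMod 2)
  let K := FractionRing R
  let X := genericMat A
  let XK := X.map (algebraMap R K)
  obtain ⟨p, hpm, hpmin, hpdvd, hpa⟩ := exists_lift (R := R) K X
  let ιr : ZMod 2 →+* K := (algebraMap R K).comp MvPolynomial.C
  let ι : Matrix (Fin n) (Fin n) (ZMod 2) → Matrix (Fin n) (Fin n) K := fun a => a.map ιr
  have hιinj : Function.Injective ι := by
    apply Matrix.map_injective
    intro x y hxy
    exact MvPolynomial.C_injective _ _ (IsFractionRing.injective R K hxy)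
  have hιadd : ∀ a b, ι (a + b) = ι a + ι b := fun a b => Matrix.map_add _ (map_add ιr) a b
  have hιmul : ∀ a b, ι (a * b) = ι a * ι b := fun a b => Matrix.map_mul
  have hιsmul : ∀ (c : ZMod 2) a, ι (c • a) = ιr c • ι a := by
    intro c a
    ext r s
    simp [ι, Matrix.smul_apply]
  have hιone : ι 1 = 1 := Matrix.map_one _ (map_zero ιr) (map_one ιr)
  have hιzero : ι 0 = 0 := Matrix.map_zero _ (map_zero ιr)
  let s : Set (Matrix (Fin n) (Fin n) K) := ι '' (S : Set _)
  let T := Submodule.span K s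
  have hsadd : ∀ a ∈ s, ∀ b ∈ s, a + b ∈ s := by
    rintro _ ⟨a, ha, rfl⟩ _ ⟨b, hb, rfl⟩
    exact ⟨a + b, S.add_mem ha hb, hιadd a b⟩
  have hsU : ∀ a ∈ s, ∀ y ∈ s, a * y * a ∈ s := by
    rintro _ ⟨a, ha, rfl⟩ _ ⟨b, hb, rfl⟩
    exact ⟨a * b * a, hU a ha b hb, by rw [hιmul, hιmul]⟩
  have hTU := jordan_span (K := K) s hsadd hsU
  have hXK : XK = ∑ i, (algebraMap R K (MvPolynomial.X i)) • ι (A i) := by
    ext r s
    simp only [XK, X, Matrix.map_apply, genericMat_apply, map_sum, map_mul, Matrix.sum_apply,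
      Matrix.smul_apply, smul_eq_mul, ι, ιr, RingHom.comp_apply]
  have hXKT : XK ∈ T := by
    rw [hXK]
    exact T.sum_mem fun i _ => T.smul_mem _ (Submodule.subset_span ⟨A i, hAS i, rfl⟩)
  have h1T : (1 : Matrix (Fin n) (Fin n) K) ∈ T :=
    Submodule.subset_span ⟨1, h1, hιone⟩
  have hpow : ∀ q : ℕ, XK ^ q ∈ T := by
    intro q
    induction q using Nat.twoStepInduction with
    | zero => simpa using h1T
    | one => simpa using hXKT
    | more q h _ =>
      have : XK ^ (q + 2) = XK * XK ^ q * XK := by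
        rw [pow_succ, pow_succ, (Commute.pow_right (Commute.refl XK) q).eq]
      rw [this]
      exact hTU _ hXKT _ h
  -- `T` has dimension at most `m`
  have hTspan : T = Submodule.span K (Set.range fun i => ι (A i)) := by
    apply le_antisymm
    · apply Submodule.span_le.mpr
      rintro _ ⟨a, ha, rfl⟩
      have h3 : a = ∑ i, bS.repr ⟨a, ha⟩ i • A i := by
        have h5 := congrArg (fun x : S => (x : Matrix (Fin n) (Fin n) (ZMod 2))) (bS.sum_repr ⟨a, ha⟩)
        simp only [AddSubmonoidClass.coe_finsetSum, SetLike.val_smul] at h5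
        exact h5.symm
      have h4 : ∀ (u : Finset (Fin m)) (f : Fin m → ZMod 2), ι (∑ i ∈ u, f i • A i) =
          ∑ i ∈ u, ιr (f i) • ι (A i) := by
        intro u f
        induction u using Finset.induction_on with
        | empty => simpa using hιzero
        | insert i u hi ih =>
          rw [Finset.sum_insert hi, Finset.sum_insert hi, hιadd, hιsmul, ih]
      change ι a ∈ _
      rw [h3, h4]
      exact Submodule.sum_mem _ fun i _ => Submodule.smul_mem _ _ (Submodule.subset_span ⟨i, rfl⟩)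
    · apply Submodule.span_mono
      rintro _ ⟨i, rfl⟩
      exact ⟨A i, hAS i, rfl⟩
  have hTfin : Module.finrank K T ≤ m := by
    have h5 := finrank_range_le_card (R := K) (fun i => ι (A i))
    rw [Fintype.card_fin] at h5
    rw [hTspan]
    exact h5
  have hdpos : 0 < p.natDegree := by
    have h2 : (minpoly K XK).natDegree = p.natDegree := by
      rw [← hpmin]
      exact Polynomial.natDegree_map_eq_of_injective (IsFractionRing.injective R K) _
    rw [← h2]
    exact minpoly.natDegree_pos (Algebra.IsIntegral.isIntegral XK)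
  have hdm : m ≤ p.natDegree := le_natDegree A hA K p hpm hpa hpmin hpdvd hdpos
  have hd2 : (minpoly K XK).natDegree = p.natDegree := by
    rw [← hpmin]
    exact Polynomial.natDegree_map_eq_of_injective (IsFractionRing.injective R K) _
  have hli : LinearIndependent K (fun i : Fin (minpoly K XK).natDegree => XK ^ (i : ℕ)) :=
    linearIndependent_pow XK
  let Pw := Submodule.span K (Set.range fun i : Fin (minpoly K XK).natDegree => XK ^ (i : ℕ))
  have hPwT : Pw ≤ T := by
    apply Submodule.span_le.mpr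
    rintro _ ⟨i, rfl⟩
    exact hpow _
  have hPwfin : Module.finrank K Pw = (minpoly K XK).natDegree := by
    simpa using finrank_span_eq_card hli
  have hPwEq : Pw = T := by
    apply Submodule.eq_of_le_of_finrank_le hPwT
    rw [hPwfin, hd2]
    omega
  have hcX : ∀ a ∈ T, Commute a XK := by
    intro a ha
    rw [← hPwEq] at ha
    induction ha using Submodule.span_induction with
    | mem a ha =>
      obtain ⟨i, rfl⟩ := ha
      exact (Commute.refl XK).pow_left _
    | zero => exact Commute.zero_left _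
    | add x y _ _ h1 h2 => exact h1.add_left h2
    | smul c x _ h => exact h.smul_left c
  have hcT : ∀ a ∈ T, ∀ b ∈ T, Commute a b := by
    intro a ha b hb
    rw [← hPwEq] at hb
    induction hb using Submodule.span_induction with
    | mem b hb =>
      obtain ⟨i, rfl⟩ := hb
      exact (hcX a ha).pow_right _
    | zero => exact Commute.zero_right _
    | add x y _ _ h1 h2 => exact h1.add_right h2
    | smul c x _ h => exact h.smul_right c
  intro a ha b hb
  apply hιinj
  rw [hιmul, hιmul]
  exact hcT _ (Submodule.subset_span ⟨a, ha, rfl⟩) _ (Submodule.subset_span ⟨b, hb, rfl⟩)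

end main



section ring

variable {A : Type*} [Ring A]

/-- Inverse-closure: if `S, T` are additive groups containing `1`, whose nonzero elements have their
inverses in the other, then `S` is closed under inverses (characteristic two). -/
theorem inverse_closed (two : ∀ a : A, a + a = 0) (S T : AddSubgroup A) (h1S : (1 : A) ∈ S)
    (h1T : (1 : A) ∈ T)
    (hS : ∀ a ∈ S, a ≠ 0 → ∃ c ∈ T, a * c = 1 ∧ c * a = 1)
    (hT : ∀ c ∈ T, c ≠ 0 → ∃ a ∈ S, a * c = 1 ∧ c * a = 1) :
    ∀ s ∈ S, s ≠ 0 → ∃ c ∈ S, s * c = 1 ∧ c * s = 1 := by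
  have hneg : ∀ a b : A, a + b = 0 → a = b := by
    intro a b h
    have : a = a + (b + b) := by rw [two b, add_zero]
    rw [this, ← add_assoc, h, zero_add]
  intro s hs hs0
  by_cases hs1 : s = 1
  · exact ⟨1, h1S, by simp [hs1], by simp [hs1]⟩
  have h1s : 1 + s ≠ 0 := fun h => hs1 (hneg 1 s h).symm
  obtain ⟨c₁, hc₁, h1, h2⟩ := hS _ (S.add_mem h1S hs) h1s
  have h' : ∀ x y z : A, x + y = z → y = z + x := by
    intro x y z h
    rw [← h, add_comm x y, add_assoc, two, add_zero]
  have h1c : 1 + c₁ ≠ 0 := by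
    intro h
    have hc : c₁ = 1 := (hneg 1 c₁ h).symm
    rw [hc, mul_one] at h1
    exact hs0 (by simpa using h1)
  obtain ⟨a, ha, h3, h4⟩ := hT _ (T.add_mem h1T hc₁) h1c
  have e1 : s * c₁ = 1 + c₁ := by
    apply h' c₁ (s * c₁) 1
    rw [add_mul, one_mul] at h1
    exact h1
  have e2 : c₁ * s = 1 + c₁ := by
    apply h' c₁ (c₁ * s) 1
    rw [mul_add, mul_one] at h2
    exact h2
  have h5 : s * (c₁ * a) = 1 := by rw [← mul_assoc, e1, h4]
  have h6 : (a * c₁) * s = 1 := by rw [mul_assoc, e2, h3]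
  have h7 : a * c₁ = c₁ * a := by
    calc a * c₁ = a * c₁ * (s * (c₁ * a)) := by rw [h5, mul_one]
      _ = (a * c₁ * s) * (c₁ * a) := by noncomm_ring
      _ = c₁ * a := by rw [h6, one_mul]
  have h8 : a * c₁ = a + 1 := by
    apply h' 1 (a * c₁) a
    calc 1 + a * c₁ = a * c₁ * s + a * c₁ := by rw [h6]
      _ = a * (c₁ * (1 + s)) := by noncomm_ring
      _ = a := by rw [h2, mul_one]
  refine ⟨a + 1, S.add_mem ha h1S, ?_, ?_⟩
  · rw [← h8, h7, h5]
  · rw [← h8, h6]

/-- Hua's identity in characteristic two. -/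
theorem hua (two : ∀ a : A, a + a = 0) (S : AddSubgroup A)
    (hinv : ∀ s ∈ S, s ≠ 0 → ∃ c ∈ S, s * c = 1 ∧ c * s = 1) :
    ∀ a ∈ S, ∀ b ∈ S, a * b * a ∈ S := by
  have hneg : ∀ a b : A, a + b = 0 → a = b := by
    intro a b h
    have : a = a + (b + b) := by rw [two b, add_zero]
    rw [this, ← add_assoc, h, zero_add]
  have h' : ∀ x y z : A, x + y = z → y = z + x := by
    intro x y z h
    rw [← h, add_comm x y, add_assoc, two, add_zero]
  intro a ha b hb
  by_cases ha0 : a = 0
  · simp [ha0, S.zero_mem]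
  by_cases hb0 : b = 0
  · simp [hb0, S.zero_mem]
  obtain ⟨a', ha', aa', a'a⟩ := hinv a ha ha0
  obtain ⟨b', hb', bb', b'b⟩ := hinv b hb hb0
  by_cases he0 : b' + a = 0
  · have h1 : b' = a := hneg _ _ he0
    rw [h1] at b'b
    rw [b'b, one_mul]
    exact ha
  obtain ⟨e', he', ee', e'e⟩ := hinv _ (S.add_mem hb' ha) he0
  by_cases hf0 : a' + e' = 0
  · exfalso
    have h1 : a' = e' := hneg _ _ hf0
    rw [← h1] at e'e
    have h2 : b' + a = a := by
      calc b' + a = a * a' * (b' + a) := by rw [aa', one_mul]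
        _ = a * (a' * (b' + a)) := by rw [mul_assoc]
        _ = a := by rw [e'e, mul_one]
    have h3 : b' = 0 := by simpa using h2
    rw [h3, zero_mul] at b'b
    apply ha0
    calc a = a * 1 := by rw [mul_one]
      _ = 0 := by rw [← b'b, mul_zero]
  obtain ⟨f', hf', ff', f'f⟩ := hinv _ (S.add_mem ha' he') hf0
  have k1 : (a' + e') * ((b' + a) * b * a) = 1 := by
    calc (a' + e') * ((b' + a) * b * a)
        = a' * (b' * b) * a + (a' * a) * b * a + (e' * (b' + a)) * b * a := by noncomm_ring
      _ = 1 + (b * a + b * a) := by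
        rw [b'b, a'a, e'e, mul_one, a'a, one_mul, add_assoc]
      _ = 1 := by rw [two, add_zero]
  have k2 : f' = (b' + a) * b * a := by
    calc f' = f' * ((a' + e') * ((b' + a) * b * a)) := by rw [k1, mul_one]
      _ = (f' * (a' + e')) * ((b' + a) * b * a) := by noncomm_ring
      _ = (b' + a) * b * a := by rw [f'f, one_mul]
  have k3 : a + a * b * a = f' := by
    rw [k2, add_mul, add_mul, b'b, one_mul]
  rw [h' a (a * b * a) f' k3]
  exact S.add_mem hf' ha

end ring

section endo

variable {U : Type*} [AddCommGroup U] [Module (ZMod 2) U]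

theorem two_self (x : U) : x + x = 0 := by
  have h : (1 : ZMod 2) + 1 = 0 := by decide
  rw [← one_smul (ZMod 2) x, ← add_smul, h, zero_smul]

theorem end_two (a : Module.End (ZMod 2) U) : a + a = 0 := by
  ext u
  simp [two_self]

variable [Finite U]

theorem end_comm (S : Submodule (ZMod 2) (Module.End (ZMod 2) U)) (h1 : (1 : Module.End (ZMod 2) U) ∈ S)
    (hinv : ∀ s ∈ S, s ≠ 0 → ∃ c ∈ S, s * c = 1 ∧ c * s = 1) :
    ∀ a ∈ S, ∀ b ∈ S, a * b = b * a := by
  classical
  by_cases hU : Subsingleton U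
  · intro a _ b _
    apply LinearMap.ext
    intro u
    exact Subsingleton.elim _ _
  haveI : Nontrivial U := not_subsingleton_iff_nontrivial.mp hU
  haveI : Module.Finite (ZMod 2) U := Module.Finite.of_finite
  have hn : Module.finrank (ZMod 2) U ≠ 0 := Module.finrank_pos.ne'
  haveI : NeZero (Module.finrank (ZMod 2) U) := ⟨hn⟩
  let bU := Module.finBasis (ZMod 2) U
  let e := LinearMap.toMatrixAlgEquiv bU
  let Sm : Submodule (ZMod 2) (Matrix (Fin (Module.finrank (ZMod 2) U)) (Fin (Module.finrank (ZMod 2) U)) (ZMod 2)) :=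
    S.map e.toLinearEquiv.toLinearMap
  have hmem : ∀ a ∈ S, e a ∈ Sm := fun a ha => ⟨a, ha, rfl⟩
  have hU' : ∀ a ∈ S, ∀ b ∈ S, a * b * a ∈ S := by
    have h2 := hua end_two S.toAddSubgroup (fun s hs hs0 => hinv s hs hs0)
    exact fun a ha b hb => h2 a ha b hb
  have key := commute_of_jordan Sm (by
      have := hmem 1 h1
      rwa [map_one] at this)
    (by
      rintro _ ⟨a, ha, rfl⟩ _ ⟨b, hb, rfl⟩
      have h3 := hmem _ (hU' a ha b hb)
      simpa using h3)
    (by
      rintro _ ⟨a, ha, rfl⟩ ha0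
      have ha0' : a ≠ 0 := by
        rintro rfl
        simp at ha0
      obtain ⟨c, _, hc, _⟩ := hinv a ha ha0'
      have h3 : e a * e c = 1 := by rw [← map_mul, hc, map_one]
      have h4 := congrArg Matrix.det h3
      rw [Matrix.det_mul, Matrix.det_one] at h4
      exact left_ne_zero_of_mul_eq_one h4)
  intro a ha b hb
  have h3 := key (e a) (hmem a ha) (e b) (hmem b hb)
  apply e.injective
  rw [map_mul, map_mul, h3]

theorem end_finite : Finite (Module.End (ZMod 2) U) :=
  Finite.of_injective (fun f : Module.End (ZMod 2) U => (f : U → U)) DFunLike.coe_injective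

theorem end_mul_mem (S : Submodule (ZMod 2) (Module.End (ZMod 2) U))
    (h1 : (1 : Module.End (ZMod 2) U) ∈ S)
    (hinv : ∀ s ∈ S, s ≠ 0 → ∃ c ∈ S, s * c = 1 ∧ c * s = 1) :
    ∀ a ∈ S, ∀ b ∈ S, a * b ∈ S := by
  classical
  have := end_finite (U := U)
  have hcomm := end_comm S h1 hinv
  have hU' : ∀ a ∈ S, ∀ b ∈ S, a * b * a ∈ S := by
    have h2 := hua end_two S.toAddSubgroup (fun s hs hs0 => hinv s hs hs0)
    exact fun a ha b hb => h2 a ha b hb
  -- squaring on `S` is injective
  let sq : S → S := fun x => ⟨x.1 * 1 * x.1, hU' _ x.2 _ h1⟩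
  have hinj : Function.Injective sq := by
    intro x y hxy
    have h2 : x.1 * x.1 = y.1 * y.1 := by
      have := congrArg Subtype.val hxy
      simpa [sq] using this
    by_contra hne
    have h0 : x.1 + y.1 ≠ 0 := by
      intro h3
      apply hne
      apply Subtype.ext
      have : x.1 = x.1 + (y.1 + y.1) := by rw [end_two, add_zero]
      rw [this, ← add_assoc, h3, zero_add]
    obtain ⟨c, _, hc, _⟩ := hinv _ (S.add_mem x.2 y.2) h0
    have h3 : (x.1 + y.1) * (x.1 + y.1) = 0 := by
      have h4 : (x.1 + y.1) * (x.1 + y.1) = x.1 * x.1 + y.1 * y.1 + (x.1 * y.1 + y.1 * x.1) := by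
        noncomm_ring
      rw [h4, h2, end_two, hcomm _ x.2 _ y.2, end_two, add_zero]
    have h5 : x.1 + y.1 = 0 := by
      calc x.1 + y.1 = (x.1 + y.1) * ((x.1 + y.1) * c) := by rw [hc, mul_one]
        _ = ((x.1 + y.1) * (x.1 + y.1)) * c := by rw [mul_assoc]
        _ = 0 := by rw [h3, zero_mul]
    exact h0 h5
  have hsurj : Function.Surjective sq := Finite.surjective_of_injective hinj
  intro a ha b hb
  obtain ⟨c, hc⟩ := hsurj ⟨a, ha⟩
  have h2 : a = c.1 * c.1 := by
    have := congrArg Subtype.val hc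
    simpa [sq] using this.symm
  rw [h2]
  have h3 : c.1 * c.1 * b = c.1 * b * c.1 := by
    calc c.1 * c.1 * b = c.1 * (c.1 * b) := mul_assoc _ _ _
      _ = c.1 * (b * c.1) := by rw [hcomm _ c.2 _ hb]
      _ = c.1 * b * c.1 := (mul_assoc _ _ _).symm
  rw [h3]
  exact hU' _ c.2 _ hb

/-- Packaging as a field in `Type`. -/
theorem exists_field_of_end [Nontrivial U] (S : Submodule (ZMod 2) (Module.End (ZMod 2) U))
    (h1 : (1 : Module.End (ZMod 2) U) ∈ S)
    (hinv : ∀ s ∈ S, s ≠ 0 → ∃ c ∈ S, s * c = 1 ∧ c * s = 1)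
    (u₀ : U) (htrans : ∀ u, ∃ a ∈ S, a u₀ = u) :
    ∃ (F : Type) (_ : Field F) (_ : Fintype F) (e : F →+* Module.End (ZMod 2) U),
      (∀ x, e x ∈ S) ∧ (∀ a ∈ S, ∃ x, e x = a) ∧ Fintype.card F = Nat.card U ∧
      (∀ u, ∃! x, e x u₀ = u) := by
  classical
  haveI : Module.Finite (ZMod 2) U := Module.Finite.of_finite
  haveI : Fintype U := Fintype.ofFinite U
  have hcomm := end_comm S h1 hinv
  have hmul := end_mul_mem S h1 hinv
  let S' : Subring (Module.End (ZMod 2) U) :=
    { carrier := S
      mul_mem' := fun {a b} ha hb => hmul a ha b hb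
      one_mem' := h1
      add_mem' := fun {a b} ha hb => S.add_mem ha hb
      zero_mem' := S.zero_mem
      neg_mem' := fun {a} ha => S.neg_mem ha }
  have hS' : ∀ a, a ∈ S' ↔ a ∈ S := fun a => Iff.rfl
  have hfield : IsField S' := by
    refine ⟨⟨0, 1, ?_⟩, ?_, ?_⟩
    · intro h
      have h2 : (0 : Module.End (ZMod 2) U) = 1 := congrArg Subtype.val h
      obtain ⟨x, hx⟩ := exists_ne (0 : U)
      apply hx
      have h3 := congrArg (fun f : Module.End (ZMod 2) U => f x) h2
      simpa using h3.symm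
    · intro a b
      apply Subtype.ext
      exact hcomm _ a.2 _ b.2
    · intro a ha
      have ha0 : a.1 ≠ 0 := fun h => ha (Subtype.ext h)
      obtain ⟨c, hc, hac, _⟩ := hinv a.1 a.2 ha0
      exact ⟨⟨c, hc⟩, Subtype.ext hac⟩
  letI fld : Field S' := hfield.toField
  have := end_finite (U := U)
  haveI : Finite S' := Finite.of_injective (fun a : S' => a.1) Subtype.val_injective
  letI : Fintype S' := Fintype.ofFinite S'
  have hu₀ : u₀ ≠ 0 := by
    rintro rfl
    obtain ⟨x, hx⟩ := exists_ne (0 : U)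
    obtain ⟨a, _, ha⟩ := htrans x
    apply hx
    rw [← ha, map_zero]
  -- evaluation at `u₀` is a bijection
  have hinj : ∀ a ∈ S, ∀ b ∈ S, a u₀ = b u₀ → a = b := by
    intro a ha b hb hab
    by_contra hne
    have h0 : a + b ≠ 0 := by
      intro h3
      apply hne
      have : a = a + (b + b) := by rw [end_two, add_zero]
      rw [this, ← add_assoc, h3, zero_add]
    obtain ⟨c, _, _, hc⟩ := hinv _ (S.add_mem ha hb) h0
    have h2 : (a + b) u₀ = 0 := by
      rw [LinearMap.add_apply, hab, two_self]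
    apply hu₀
    have h3 := congrArg (fun f : Module.End (ZMod 2) U => f u₀) hc
    simpa [h2] using h3.symm
  have hbij : Function.Bijective (fun a : S' => a.1 u₀) := by
    constructor
    · intro a b hab
      exact Subtype.ext (hinj _ a.2 _ b.2 hab)
    · intro u
      obtain ⟨a, ha, hu⟩ := htrans u
      exact ⟨⟨a, ha⟩, hu⟩
  have hcardS : Nat.card S' = Nat.card U := Nat.card_congr (Equiv.ofBijective _ hbij)
  set k := Module.finrank (ZMod 2) U with hk
  have hk0 : k ≠ 0 := Module.finrank_pos.ne'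
  have hcardU : Nat.card U = 2 ^ k := by
    letI : Fintype U := Fintype.ofFinite U
    rw [Nat.card_eq_fintype_card, Module.card_eq_pow_finrank (K := ZMod 2) (V := U), ZMod.card]
  letI : Fintype (GaloisField 2 k) := Fintype.ofFinite _
  have hcardF : Fintype.card (GaloisField 2 k) = Fintype.card S' := by
    rw [← Nat.card_eq_fintype_card, ← Nat.card_eq_fintype_card, GaloisField.card 2 k hk0, hcardS,
      hcardU]
  let eqv : GaloisField 2 k ≃+* S' := FiniteField.ringEquivOfCardEq hcardF
  refine ⟨GaloisField 2 k, inferInstance, inferInstance, S'.subtype.comp eqv.toRingHom, ?_, ?_, ?_, ?_⟩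
  · intro x
    exact (eqv x).2
  · intro a ha
    refine ⟨eqv.symm ⟨a, ha⟩, ?_⟩
    simp
  · rw [← Nat.card_eq_fintype_card, GaloisField.card 2 k hk0, hcardU]
  · intro u
    obtain ⟨a, ha⟩ := hbij.2 u
    have ha' : a.1 u₀ = u := ha
    refine ⟨eqv.symm a, ?_, ?_⟩
    · simpa using ha'
    · intro y hy
      apply eqv.injective
      apply hbij.1
      simp only [RingEquiv.apply_symm_apply]
      rw [ha']
      exact hy

/-- The main abstract statement: two additive families of maps `Φ : U → Y`, `Ψ : Y → U`, inverse to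
each other and with `Φ` transitive, are the multiplications of a field. -/
theorem exists_field {Y : Type*} [AddCommGroup Y] [Module (ZMod 2) Y]
    (Φ : Submodule (ZMod 2) (U →ₗ[ZMod 2] Y)) (Ψ : Submodule (ZMod 2) (Y →ₗ[ZMod 2] U))
    (hΦ : ∀ φ ∈ Φ, φ ≠ 0 → ∃ ψ ∈ Ψ, ψ ∘ₗ φ = LinearMap.id ∧ φ ∘ₗ ψ = LinearMap.id)
    (hΨ : ∀ ψ ∈ Ψ, ψ ≠ 0 → ∃ φ ∈ Φ, ψ ∘ₗ φ = LinearMap.id ∧ φ ∘ₗ ψ = LinearMap.id)
    (hne : ∃ φ₀ ∈ Φ, φ₀ ≠ 0)
    (htrans : ∀ u : U, u ≠ 0 → ∀ y : Y, ∃ φ ∈ Φ, φ u = y) :
    ∃ (F : Type) (_ : Field F) (_ : Fintype F) (θ₂ : F ≃+ U) (θ₁ : F ≃+ Y),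
      Fintype.card F = Nat.card U ∧
      (∀ φ ∈ Φ, ∃ b : F, ∀ c, φ (θ₂ c) = θ₁ (b * c)) ∧
      (∀ b : F, ∃ φ ∈ Φ, ∀ c, φ (θ₂ c) = θ₁ (b * c)) ∧
      (∀ ψ ∈ Ψ, ∃ e : F, ∀ a, ψ (θ₁ a) = θ₂ (e * a)) ∧
      (∀ e : F, ∃ ψ ∈ Ψ, ∀ a, ψ (θ₁ a) = θ₂ (e * a)) := by
  classical
  obtain ⟨φ₀, hφ₀, hφ₀0⟩ := hne
  obtain ⟨ψ₀, hψ₀, h10, h01⟩ := hΦ φ₀ hφ₀ hφ₀0
  have hU : Nontrivial U := by
    by_contra h
    rw [not_nontrivial_iff_subsingleton] at h
    apply hφ₀0
    ext u
    rw [Subsingleton.elim u 0]
    simp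
  let L : (U →ₗ[ZMod 2] Y) →ₗ[ZMod 2] Module.End (ZMod 2) U :=
    { toFun := fun f => ψ₀ ∘ₗ f
      map_add' := fun f g => LinearMap.comp_add _ _ _
      map_smul' := fun c f => LinearMap.comp_smul _ _ _ }
  let R : (Y →ₗ[ZMod 2] U) →ₗ[ZMod 2] Module.End (ZMod 2) U :=
    { toFun := fun f => f ∘ₗ φ₀
      map_add' := fun f g => LinearMap.add_comp _ _ _
      map_smul' := fun c f => LinearMap.smul_comp _ _ _ }
  let S := Φ.map L
  let T := Ψ.map R
  have hLinj : ∀ f, L f = ψ₀ ∘ₗ f := fun f => rfl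
  have hRinj : ∀ f, R f = f ∘ₗ φ₀ := fun f => rfl
  have h1S : (1 : Module.End (ZMod 2) U) ∈ S := ⟨φ₀, hφ₀, h10⟩
  have h1T : (1 : Module.End (ZMod 2) U) ∈ T := ⟨ψ₀, hψ₀, h10⟩
  have hφeq : ∀ f : U →ₗ[ZMod 2] Y, φ₀ ∘ₗ (ψ₀ ∘ₗ f) = f := by
    intro f
    rw [← LinearMap.comp_assoc, h01, LinearMap.id_comp]
  have hψeq : ∀ f : Y →ₗ[ZMod 2] U, (f ∘ₗ φ₀) ∘ₗ ψ₀ = f := by
    intro f
    rw [LinearMap.comp_assoc, h01, LinearMap.comp_id]
  have hSinv : ∀ a ∈ S.toAddSubgroup, a ≠ 0 → ∃ c ∈ T.toAddSubgroup, a * c = 1 ∧ c * a = 1 := by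
    rintro _ ⟨φ, hφ, rfl⟩ ha
    have hφ0 : φ ≠ 0 := by
      rintro rfl
      exact ha (by simp)
    obtain ⟨ψ, hψ, h1, h2⟩ := hΦ φ hφ hφ0
    refine ⟨R ψ, ⟨ψ, hψ, rfl⟩, ?_, ?_⟩
    · apply LinearMap.ext
      intro u
      change ψ₀ (φ (ψ (φ₀ u))) = u
      rw [show φ (ψ (φ₀ u)) = φ₀ u from congrArg (fun f : Y →ₗ[ZMod 2] Y => f (φ₀ u)) h2]
      exact congrArg (fun f : U →ₗ[ZMod 2] U => f u) h10
    · apply LinearMap.ext
      intro u
      change ψ (φ₀ (ψ₀ (φ u))) = u
      rw [show φ₀ (ψ₀ (φ u)) = φ u from congrArg (fun f : Y →ₗ[ZMod 2] Y => f (φ u)) h01]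
      exact congrArg (fun f : U →ₗ[ZMod 2] U => f u) h1
  have hTinv : ∀ c ∈ T.toAddSubgroup, c ≠ 0 → ∃ a ∈ S.toAddSubgroup, a * c = 1 ∧ c * a = 1 := by
    rintro _ ⟨ψ, hψ, rfl⟩ hc
    have hψ0 : ψ ≠ 0 := by
      rintro rfl
      exact hc (by simp)
    obtain ⟨φ, hφ, h1, h2⟩ := hΨ ψ hψ hψ0
    refine ⟨L φ, ⟨φ, hφ, rfl⟩, ?_, ?_⟩
    · apply LinearMap.ext
      intro u
      change ψ₀ (φ (ψ (φ₀ u))) = u
      rw [show φ (ψ (φ₀ u)) = φ₀ u from congrArg (fun f : Y →ₗ[ZMod 2] Y => f (φ₀ u)) h2]
      exact congrArg (fun f : U →ₗ[ZMod 2] U => f u) h10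
    · apply LinearMap.ext
      intro u
      change ψ (φ₀ (ψ₀ (φ u))) = u
      rw [show φ₀ (ψ₀ (φ u)) = φ u from congrArg (fun f : Y →ₗ[ZMod 2] Y => f (φ u)) h01]
      exact congrArg (fun f : U →ₗ[ZMod 2] U => f u) h1
  have hSS := inverse_closed end_two S.toAddSubgroup T.toAddSubgroup h1S h1T hSinv hTinv
  -- `T ≤ S`
  have hTS : ∀ c ∈ T, c ∈ S := by
    intro c hc
    by_cases hc0 : c = 0
    · rw [hc0]; exact S.zero_mem
    obtain ⟨a, ha, hac, hca⟩ := hTinv c hc hc0
    have ha0 : a ≠ 0 := by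
      rintro rfl
      have h3 := congrArg (fun f : Module.End (ZMod 2) U => f) hac
      obtain ⟨x, hx⟩ := exists_ne (0 : U)
      apply hx
      have h4 := congrArg (fun f : Module.End (ZMod 2) U => f x) hac
      simpa using h4.symm
    obtain ⟨c', hc', h5, h6⟩ := hSS a ha ha0
    have : c = c' := by
      calc c = c * (a * c') := by rw [h5, mul_one]
        _ = (c * a) * c' := by rw [mul_assoc]
        _ = c' := by rw [hca, one_mul]
    rw [this]; exact hc'
  obtain ⟨u₀, hu₀⟩ := exists_ne (0 : U)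
  have htransS : ∀ u, ∃ a ∈ S, a u₀ = u := by
    intro u
    obtain ⟨φ, hφ, hu⟩ := htrans u₀ hu₀ (φ₀ u)
    refine ⟨L φ, ⟨φ, hφ, rfl⟩, ?_⟩
    change ψ₀ (φ u₀) = u
    rw [hu]
    exact congrArg (fun f : U →ₗ[ZMod 2] U => f u) h10
  obtain ⟨F, hF, hFt, e, heS, heS', hcard, hev⟩ :=
    exists_field_of_end S h1S (fun s hs hs0 => hSS s hs hs0) u₀ htransS
  -- coordinates
  let f₀ : F →+ U :=
    { toFun := fun x => e x u₀
      map_zero' := by simp
      map_add' := fun x y => by simp }
  let θ₂ : F ≃+ U := AddEquiv.ofBijective f₀ (by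
      constructor
      · intro x y hxy
        exact (hev _).unique hxy rfl
      · intro u
        obtain ⟨x, hx, _⟩ := hev u
        exact ⟨x, hx⟩)
  have hθ₂ : ∀ x, θ₂ x = e x u₀ := fun x => rfl
  let φe : U ≃+ Y :=
    { toFun := φ₀
      invFun := ψ₀
      left_inv := fun u => congrArg (fun f : U →ₗ[ZMod 2] U => f u) h10
      right_inv := fun y => congrArg (fun f : Y →ₗ[ZMod 2] Y => f y) h01
      map_add' := fun a b => map_add φ₀ a b }
  let θ₁ : F ≃+ Y := θ₂.trans φe
  have hθ₁ : ∀ x, θ₁ x = φ₀ (e x u₀) := fun x => rfl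
  refine ⟨F, hF, hFt, θ₂, θ₁, hcard, ?_, ?_, ?_, ?_⟩
  · intro φ hφ
    obtain ⟨b, hb⟩ := heS' (L φ) ⟨φ, hφ, rfl⟩
    refine ⟨b, fun c => ?_⟩
    rw [hθ₂, hθ₁, map_mul, hb]
    change φ (e c u₀) = φ₀ (ψ₀ (φ (e c u₀)))
    exact (congrArg (fun f : Y →ₗ[ZMod 2] Y => f (φ (e c u₀))) h01).symm
  · intro b
    obtain ⟨φ, hφ, hb⟩ := heS b
    refine ⟨φ, hφ, fun c => ?_⟩
    rw [hθ₂, hθ₁, map_mul, ← hb]
    change φ (e c u₀) = φ₀ (ψ₀ (φ (e c u₀)))
    exact (congrArg (fun f : Y →ₗ[ZMod 2] Y => f (φ (e c u₀))) h01).symm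
  · intro ψ hψ
    obtain ⟨b, hb⟩ := heS' (R ψ) (hTS _ ⟨ψ, hψ, rfl⟩)
    refine ⟨b, fun a => ?_⟩
    rw [hθ₂, hθ₁, map_mul, hb]
    rfl
  · intro b
    -- every element of `S` lies in `T`
    have hST : e b ∈ T := by
      by_cases hb0 : e b = 0
      · rw [hb0]; exact T.zero_mem
      obtain ⟨c, hc, h1, h2⟩ := hSinv _ (heS b) hb0
      by_cases hc0 : c = 0
      · exfalso
        rw [hc0, mul_zero] at h1
        obtain ⟨x, hx⟩ := exists_ne (0 : U)
        apply hx
        have h4 := congrArg (fun f : Module.End (ZMod 2) U => f x) h1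
        simpa using h4.symm
      obtain ⟨ψ, hψ, hψe⟩ := hc
      -- the inverse of `c` in `S`, hence in `T`
      have hcS : c ∈ S := hTS c ⟨ψ, hψ, hψe⟩
      obtain ⟨d, hd, hd1, hd2⟩ := hSinv c hcS hc0
      have hdb : d = e b := by
        calc d = (e b * c) * d := by rw [h1, one_mul]
          _ = e b * (c * d) := by rw [mul_assoc]
          _ = e b := by rw [hd1, mul_one]
      rw [← hdb]
      exact hd
    obtain ⟨ψ, hψ, hb⟩ := hST
    refine ⟨ψ, hψ, fun a => ?_⟩
    rw [hθ₂, hθ₁, map_mul, ← hb]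
    rfl

end endo

end Cfsg.Agent.Lib.TI.JordanField
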