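import Cfsg.Agent.Lib.TI.JordanField

/-!
The Jordan field lemma for exponent two groups written multiplicatively.
-/

set_option autoImplicit false

namespace Cfsg.Agent.Lib.TI.JordanField

/-- The Jordan field lemma, multiplicative form. -/
theorem exists_field_mul {A B : Type*} [CommGroup A] [CommGroup B] [Finite A]
    (ha : ∀ a : A, a * a = 1) (hb : ∀ b : B, b * b = 1)
    (Φ : Subgroup (A →* B)) (Ψ : Subgroup (B →* A))
    (hΦ : ∀ φ ∈ Φ, φ ≠ 1 → ∃ ψ ∈ Ψ, (∀ a, ψ (φ a) = a) ∧ ∀ b, φ (ψ b) = b)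
    (hΨ : ∀ ψ ∈ Ψ, ψ ≠ 1 → ∃ φ ∈ Φ, (∀ a, ψ (φ a) = a) ∧ ∀ b, φ (ψ b) = b)
    (hne : ∃ φ₀ ∈ Φ, φ₀ ≠ 1)
    (htrans : ∀ a : A, a ≠ 1 → ∀ b : B, ∃ φ ∈ Φ, φ a = b) :
    ∃ (F : Type) (_ : Field F) (_ : Fintype F) (θ₂ : F → A) (θ₁ : F → B),
      Function.Bijective θ₂ ∧ Function.Bijective θ₁ ∧
      (∀ x y, θ₂ (x + y) = θ₂ x * θ₂ y) ∧ (∀ x y, θ₁ (x + y) = θ₁ x * θ₁ y) ∧
      Fintype.card F = Nat.card A ∧
      (∀ φ ∈ Φ, ∃ b : F, ∀ c, φ (θ₂ c) = θ₁ (b * c)) ∧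
      (∀ b : F, ∃ φ ∈ Φ, ∀ c, φ (θ₂ c) = θ₁ (b * c)) ∧
      (∀ ψ ∈ Ψ, ∃ e : F, ∀ a, ψ (θ₁ a) = θ₂ (e * a)) ∧
      (∀ e : F, ∃ ψ ∈ Ψ, ∀ a, ψ (θ₁ a) = θ₂ (e * a)) := by
  classical
  letI mA : Module (ZMod 2) (Additive A) := AddCommGroup.zmodModule (n := 2) (fun x => by
    rw [two_nsmul]
    exact Additive.toMul.injective (ha x.toMul))
  letI mB : Module (ZMod 2) (Additive B) := AddCommGroup.zmodModule (n := 2) (fun x => by
    rw [two_nsmul]
    exact Additive.toMul.injective (hb x.toMul))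
  haveI : Finite (Additive A) := Finite.of_equiv A Additive.ofMul
  let L₁ : (A →* B) → (Additive A →ₗ[ZMod 2] Additive B) := fun φ =>
    (MonoidHom.toAdditive φ).toZModLinearMap 2
  let L₂ : (B →* A) → (Additive B →ₗ[ZMod 2] Additive A) := fun φ =>
    (MonoidHom.toAdditive φ).toZModLinearMap 2
  have hL₁ : ∀ φ (a : Additive A), L₁ φ a = Additive.ofMul (φ a.toMul) := fun _ _ => rfl
  have hL₂ : ∀ φ (a : Additive B), L₂ φ a = Additive.ofMul (φ a.toMul) := fun _ _ => rfl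
  have hsmul : ∀ (c : ZMod 2) {X : Type _} [AddCommGroup X] [Module (ZMod 2) X] (x : X),
      c • x = 0 ∨ c • x = x := by
    intro c X _ _ x
    fin_cases c
    · left; exact zero_smul _ _
    · right; exact one_smul _ _
  let Φ' : Submodule (ZMod 2) (Additive A →ₗ[ZMod 2] Additive B) :=
    { carrier := {f | ∃ φ ∈ Φ, f = L₁ φ}
      add_mem' := by
        rintro _ _ ⟨φ₁, h₁, rfl⟩ ⟨φ₂, h₂, rfl⟩
        refine ⟨φ₁ * φ₂, Φ.mul_mem h₁ h₂, ?_⟩
        apply LinearMap.ext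
        intro a
        rfl
      zero_mem' := ⟨1, Φ.one_mem, by
        apply LinearMap.ext
        intro a
        rfl⟩
      smul_mem' := by
        rintro c _ ⟨φ, h, rfl⟩
        rcases hsmul c (L₁ φ) with h1 | h1
        · rw [h1]
          exact ⟨1, Φ.one_mem, by
            apply LinearMap.ext
            intro a
            rfl⟩
        · rw [h1]
          exact ⟨φ, h, rfl⟩ }
  let Ψ' : Submodule (ZMod 2) (Additive B →ₗ[ZMod 2] Additive A) :=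
    { carrier := {f | ∃ φ ∈ Ψ, f = L₂ φ}
      add_mem' := by
        rintro _ _ ⟨φ₁, h₁, rfl⟩ ⟨φ₂, h₂, rfl⟩
        refine ⟨φ₁ * φ₂, Ψ.mul_mem h₁ h₂, ?_⟩
        apply LinearMap.ext
        intro a
        rfl
      zero_mem' := ⟨1, Ψ.one_mem, by
        apply LinearMap.ext
        intro a
        rfl⟩
      smul_mem' := by
        rintro c _ ⟨φ, h, rfl⟩
        rcases hsmul c (L₂ φ) with h1 | h1
        · rw [h1]
          exact ⟨1, Ψ.one_mem, by
            apply LinearMap.ext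
            intro a
            rfl⟩
        · rw [h1]
          exact ⟨φ, h, rfl⟩ }
  have hne1 : ∀ φ : A →* B, L₁ φ ≠ 0 → φ ≠ 1 := by
    rintro φ h rfl
    apply h
    apply LinearMap.ext
    intro a
    rfl
  have hne2 : ∀ φ : B →* A, L₂ φ ≠ 0 → φ ≠ 1 := by
    rintro φ h rfl
    apply h
    apply LinearMap.ext
    intro a
    rfl
  obtain ⟨F, hF, hFt, θ₂, θ₁, hcard, h1, h2, h3, h4⟩ := exists_field Φ' Ψ'
    (by
      rintro _ ⟨φ, hφ, rfl⟩ h0
      obtain ⟨ψ, hψ, h5, h6⟩ := hΦ φ hφ (hne1 φ h0)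
      refine ⟨L₂ ψ, ⟨ψ, hψ, rfl⟩, ?_, ?_⟩
      · apply LinearMap.ext
        intro a
        exact Additive.toMul.injective (h5 a.toMul)
      · apply LinearMap.ext
        intro a
        exact Additive.toMul.injective (h6 a.toMul))
    (by
      rintro _ ⟨ψ, hψ, rfl⟩ h0
      obtain ⟨φ, hφ, h5, h6⟩ := hΨ ψ hψ (hne2 ψ h0)
      refine ⟨L₁ φ, ⟨φ, hφ, rfl⟩, ?_, ?_⟩
      · apply LinearMap.ext
        intro a
        exact Additive.toMul.injective (h5 a.toMul)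
      · apply LinearMap.ext
        intro a
        exact Additive.toMul.injective (h6 a.toMul))
    (by
      obtain ⟨φ₀, h5, h6⟩ := hne
      refine ⟨L₁ φ₀, ⟨φ₀, h5, rfl⟩, ?_⟩
      intro h7
      apply h6
      ext a
      have := congrArg (fun f : Additive A →ₗ[ZMod 2] Additive B => f (Additive.ofMul a)) h7
      exact Additive.ofMul.injective this)
    (by
      intro u hu y
      have hu' : u.toMul ≠ 1 := fun h => hu (Additive.toMul.injective h)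
      obtain ⟨φ, h5, h6⟩ := htrans u.toMul hu' y.toMul
      refine ⟨L₁ φ, ⟨φ, h5, rfl⟩, ?_⟩
      exact Additive.toMul.injective h6)
  refine ⟨F, hF, hFt, fun x => (θ₂ x).toMul, fun x => (θ₁ x).toMul, ?_, ?_, ?_, ?_, ?_, ?_, ?_, ?_, ?_⟩
  · exact Additive.toMul.bijective.comp θ₂.bijective
  · exact Additive.toMul.bijective.comp θ₁.bijective
  · intro x y
    simp
  · intro x y
    simp
  · rw [hcard]
    exact Nat.card_congr Additive.toMul
  · intro φ hφ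
    obtain ⟨b, hb'⟩ := h1 (L₁ φ) ⟨φ, hφ, rfl⟩
    refine ⟨b, fun c => ?_⟩
    exact congrArg Additive.toMul (hb' c)
  · intro b
    obtain ⟨_, ⟨φ, hφ, rfl⟩, hb'⟩ := h2 b
    refine ⟨φ, hφ, fun c => ?_⟩
    exact congrArg Additive.toMul (hb' c)
  · intro φ hφ
    obtain ⟨b, hb'⟩ := h3 (L₂ φ) ⟨φ, hφ, rfl⟩
    refine ⟨b, fun c => ?_⟩
    exact congrArg Additive.toMul (hb' c)
  · intro b
    obtain ⟨_, ⟨φ, hφ, rfl⟩, hb'⟩ := h4 b
    refine ⟨φ, hφ, fun c => ?_⟩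
    exact congrArg Additive.toMul (hb' c)

end Cfsg.Agent.Lib.TI.JordanField
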