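import Cfsg.Agent.Lib.PCStage.Stage
import Cfsg.Prelude.Def_Balance

/-!
`2`-components of centralizers and the `B`-property.

* `quasisimple_of_central_ker`: a perfect group with a quasisimple quotient `A / N` and a map
  `A → Q'` sending `N` to the centre has quasisimple image, if the image is nontrivial.
* `isPComponent_map_of_isSubnormal`: `p`-components of subnormal subgroups are `p`-components.
* `pLayer_map_le`, `pLayer_normal`.
* `HasBProperty.of_mulEquiv`.
* `image_isComponent`, `commutator_le_oddCore`: the image in `X / O(X)` of a `2`-component of `C_X(t)`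
  is a component of `C_{X/O(X)}(t)` if `X` has the `B`-property.
-/

set_option autoImplicit false
set_option linter.style.haveILetI false
set_option linter.unusedSectionVars false
set_option linter.unnecessarySimpa false

namespace Cfsg.Agent.Lib.TI.LBalance

open Subgroup Cfsg Cfsg.Agent.Lib.Components.Basic Cfsg.Agent.Lib.Core.Basic
  Cfsg.Agent.Lib.PCStage.Basic Cfsg.Agent.Lib.PCStage.Stage
open scoped commutatorElement

/-- Quasisimplicity of an image. -/
theorem quasisimple_of_central_ker {A B Q' : Type*} [Group A] [Group B] [Group Q'] [Nontrivial Q']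
    (g : A →* B) (hg : Function.Surjective g) (hB : IsQuasisimple B) (h : A →* Q')
    (hh : Function.Surjective h) (hA : commutator A = ⊤)
    (hc : ∀ a ∈ g.ker, ∀ b : A, h a * h b = h b * h a) : IsQuasisimple Q' := by
  have hP : commutator Q' = ⊤ := by
    rw [_root_.commutator_def] at hA ⊢
    have := congrArg (Subgroup.map h) hA
    rwa [Subgroup.map_commutator, map_top_of_surjective h hh] at this
  apply quasisimple_of_normal_criterion hP
  intro N hN
  have hN' : (N.comap h).Normal := inferInstance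
  have hm : ((N.comap h).map g).Normal := hN'.map g hg
  rcases normal_eq_top_or_le_center hB ((N.comap h).map g) with ht | hz
  · left
    apply eq_top_of_sup_center_eq_top hP
    rw [eq_top_iff]
    intro q _
    obtain ⟨a, rfl⟩ := hh q
    have h1 : g a ∈ (N.comap h).map g := by rw [ht]; trivial
    obtain ⟨a', ha', e⟩ := h1
    have h2 : a'⁻¹ * a ∈ g.ker := by
      rw [MonoidHom.mem_ker, map_mul, map_inv, e, inv_mul_cancel]
    have h3 : h a = h a' * h (a'⁻¹ * a) := by
      rw [← map_mul]; group
    rw [h3]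
    refine Subgroup.mul_mem_sup ha' ?_
    rw [mem_center_iff]
    intro q
    obtain ⟨b, rfl⟩ := hh q
    exact (hc _ h2 b).symm
  · right
    -- `[N, Q', Q'] = 1`
    have h1 : ⁅⁅(⊤ : Subgroup Q'), N⁆, (⊤ : Subgroup Q')⁆ = ⊥ := by
      rw [commutator_eq_bot_iff_le_centralizer]
      rw [Subgroup.commutator_le]
      rintro q _ n hn
      rw [mem_centralizer_iff]
      intro w _
      obtain ⟨a, rfl⟩ := hh q
      obtain ⟨b, hb⟩ : ∃ b, h b = n := hh n
      obtain ⟨c, rfl⟩ := hh w
      have hbN : b ∈ N.comap h := by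
        rw [mem_comap, hb]; exact hn
      have h2 : ⁅a, b⁆ ∈ g.ker := by
        rw [MonoidHom.mem_ker, map_commutatorElement, commutatorElement_eq_one_iff_commute]
        have h3 : g b ∈ center B := hz ⟨b, hbN, rfl⟩
        exact (mem_center_iff.mp h3 (g a))
      have h4 := hc _ h2 c
      rw [map_commutatorElement, hb] at h4
      exact h4.symm
    have hTT : ⁅(⊤ : Subgroup Q'), (⊤ : Subgroup Q')⁆ = ⊤ := by
      rw [← _root_.commutator_def]; exact hP
    have h2 := commutator_eq_bot_of_perfect hTT h1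
    intro n hn
    rw [mem_center_iff]
    intro w
    have h3 := commutator_eq_bot_iff_le_centralizer.mp h2 (mem_top w)
    exact (mem_centralizer_iff.mp h3 n hn).symm

universe u

variable {T : Type u} [Group T] [Finite T] {p : ℕ}

/-- A `p`-component is perfect. -/
theorem commutator_self_of_isPComponent {K : Subgroup T} (hK : IsPComponent p K) : ⁅K, K⁆ = K := by
  apply hK.2.2
  · have h1 : ((_root_.commutator ↥K).map K.subtype).IsSubnormal :=
      IsSubnormal.trans' (H := _root_.commutator ↥K)
        (Subgroup.Normal.isSubnormal (inferInstance : (_root_.commutator ↥K).Normal)) hK.1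
    rwa [map_subtype_commutator] at h1
  · exact Subgroup.commutator_le_self K
  · rw [Subgroup.map_commutator]
    exact commutator_self_of_quasisimple hK.2.1.2

/-- A `p`-component has nontrivial image, and in fact it is not of order prime to `p`. -/
theorem not_coprime_of_isPComponent {K : Subgroup T} (hK : IsPComponent p K)
    (hco : (Nat.card ↥(K.map (QuotientGroup.mk' (pPrimeCore p T)))).Coprime p) : False := by
  have h1 := le_pPrimeCore_of_isSubnormal hK.2.1.1 hco
  rw [pPrimeCore_quotient_eq_bot] at h1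
  exact ne_bot_of_quasisimple hK.2.1.2 (le_bot_iff.mp h1)

/-- `p`-components of subnormal subgroups are `p`-components. -/
theorem isPComponent_map_of_isSubnormal {D : Subgroup T} (hD : D.IsSubnormal) {K : Subgroup ↥D}
    (hK : IsPComponent p K) : IsPComponent p (K.map D.subtype) := by
  have hKs : (K.map D.subtype).IsSubnormal := IsSubnormal.trans' hK.1 hD
  refine ⟨hKs, ⟨hKs.map (QuotientGroup.mk'_surjective _), ?_⟩, ?_⟩
  · have e₁ : ↥K ≃* ↥(K.map D.subtype) := K.equivMapOfInjective _ D.subtype_injective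
    obtain ⟨e₂⟩ := nonempty_quot_equiv_map (p := p) hKs
    exact quasisimple_of_mulEquiv ((quotEquiv p e₁).trans e₂) (quasisimple_quot hK)
  · intro H hH hle he
    have hHD : H ≤ D := hle.trans (map_subtype_le K)
    have h1 : H.subgroupOf D = K := by
      apply hK.2.2 _ hH.subgroupOf
      · intro h hh
        rw [mem_subgroupOf] at hh
        obtain ⟨k, hk, e⟩ := hle hh
        have : k = h := Subtype.ext e
        rwa [← this]
      · apply le_antisymm
        · apply Subgroup.map_mono
          intro h hh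
          rw [mem_subgroupOf] at hh
          obtain ⟨k, hk, e⟩ := hle hh
          have : k = h := Subtype.ext e
          rwa [← this]
        · rintro _ ⟨k, hk, rfl⟩
          have h2 : QuotientGroup.mk' (pPrimeCore p T) (k : T) ∈
              H.map (QuotientGroup.mk' (pPrimeCore p T)) := by
            rw [he]
            exact ⟨k, ⟨k, hk, rfl⟩, rfl⟩
          obtain ⟨h, hh, e⟩ := h2
          have h3 : h⁻¹ * (k : T) ∈ pPrimeCore p T := QuotientGroup.eq.mp e
          have h4 : h⁻¹ * (k : T) ∈ D := D.mul_mem (D.inv_mem (hHD hh)) k.2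
          have h5 : h⁻¹ * (k : T) ∈ (pPrimeCore p ↥D).map D.subtype := by
            rw [map_pPrimeCore_of_isSubnormal hD]
            exact ⟨h3, h4⟩
          obtain ⟨c, hc, ec⟩ := h5
          refine ⟨⟨h, hHD hh⟩, hh, ?_⟩
          refine QuotientGroup.eq.mpr ?_
          have : (⟨h, hHD hh⟩ : ↥D)⁻¹ * k = c := Subtype.ext ec.symm
          rwa [this]
    rw [← h1, map_subgroupOf_eq_of_le hHD]

/-- The image of the `p`-layer under an isomorphism. -/
theorem pLayer_map_le {Y : Type u} [Group Y] [Finite Y] (e : T ≃* Y) :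
    (pLayer p T).map e.toMonoidHom ≤ pLayer p Y := by
  rw [Subgroup.map_le_iff_le_comap]
  apply sSup_le
  intro K hK
  rw [← Subgroup.map_le_iff_le_comap]
  exact le_sSup (isPComponent_map_equiv e hK)

/-- The `p`-layer is normal. -/
instance pLayer_normal : (pLayer p T).Normal := by
  constructor
  intro n hn g
  have h1 := pLayer_map_le (p := p) (MulAut.conj g) (Subgroup.mem_map_of_mem _ hn)
  exact h1

/-- The `B`-property is invariant under isomorphisms. -/
theorem hasBProperty_of_mulEquiv {A B : Type u} [Group A] [Group B] [Finite A] [Finite B] (e : A ≃* B)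
    (h : HasBProperty A) : HasBProperty B := by
  intro t ht
  have ha : orderOf (e.symm t) = 2 := by rw [MulEquiv.orderOf_eq]; exact ht
  have h1 := h _ ha
  have hmap : (centralizer ({t} : Set B)).map e.symm.toMonoidHom = centralizer ({e.symm t} : Set A) := by
    ext w
    simp only [Subgroup.mem_map, mem_centralizer_singleton_iff]
    constructor
    · rintro ⟨b, hb, rfl⟩
      change e.symm b * e.symm t = e.symm t * e.symm b
      rw [← map_mul, ← map_mul, hb]
    · intro hw
      refine ⟨e w, ?_, by simp⟩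
      have h2 := congrArg e hw
      simpa using h2
  let e' : ↥(centralizer ({t} : Set B)) ≃* ↥(centralizer ({e.symm t} : Set A)) :=
    (e.symm.subgroupMap _).trans (MulEquiv.subgroupCongr hmap)
  have hL := pLayer_map_le (p := 2) e'
  have hO : (oddCore ↥(centralizer ({t} : Set B))).map e'.toMonoidHom =
      oddCore ↥(centralizer ({e.symm t} : Set A)) := map_pPrimeCore_equiv e'
  rw [Subgroup.map_le_iff_le_comap, Subgroup.commutator_le]
  intro l hl o ho
  have h2 : ⁅e' l, e' o⁆ ∈ ⁅pLayer 2 ↥(centralizer ({e.symm t} : Set A)),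
      oddCore ↥(centralizer ({e.symm t} : Set A))⁆ :=
    commutator_mem_commutator (hL ⟨l, hl, rfl⟩) (by rw [← hO]; exact ⟨o, ho, rfl⟩)
  have h3 := h1 ⟨_, h2, rfl⟩
  have h4 : e ((⁅e' l, e' o⁆ : ↥(centralizer ({e.symm t} : Set A))) : A) ∈
      (oddCore A).map e.toMonoidHom := ⟨_, h3, rfl⟩
  rw [show (oddCore A).map e.toMonoidHom = oddCore B from map_pPrimeCore_equiv e] at h4
  have h5 : e ((⁅e' l, e' o⁆ : ↥(centralizer ({e.symm t} : Set A))) : A) =
      ((⁅l, o⁆ : ↥(centralizer ({t} : Set B))) : B) := by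
    have hval : ∀ w : ↥(centralizer ({t} : Set B)), ((e' w : ↥(centralizer ({e.symm t} : Set A))) : A) =
        e.symm (w : B) := fun _ => rfl
    simp only [commutatorElement_def, Subgroup.coe_mul, InvMemClass.coe_inv, map_mul, map_inv]
    rw [hval, hval]
    simp only [MulEquiv.apply_symm_apply]
  rw [h5] at h4
  exact h4

section Core

variable {X : Type u} [Group X] [Finite X] {t : X} {T : Subgroup X}
  (hT : ∀ c : X, c ∈ T ↔ c * t = t * c) {K : Subgroup ↥T} (hK : IsPComponent 2 K)
  (hB : (⁅pLayer 2 ↥T, oddCore ↥T⁆).map T.subtype ≤ oddCore X)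

include hK hB

theorem core_comm {k o : ↥T} (hk : k ∈ K) (ho : o ∈ oddCore ↥T) : ((⁅k, o⁆ : ↥T) : X) ∈ oddCore X :=
  hB ⟨⁅k, o⁆, commutator_mem_commutator ((show K ≤ pLayer 2 ↥T from le_sSup hK) hk) ho, rfl⟩

/-- The image in `X / O(X)` of a `2`-component of `C_X(t)` is quasisimple. -/
theorem image_quasisimple :
    IsQuasisimple ↥((K.map T.subtype).map (QuotientGroup.mk' (oddCore X))) := by
  let πT := QuotientGroup.mk' (oddCore ↥T)
  let π := QuotientGroup.mk' (oddCore X)
  let g : ↥K →* ↥(K.map πT) := πT.subgroupMap K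
  have hg : Function.Surjective g := MonoidHom.subgroupMap_surjective _ _
  let h : ↥K →* ↥((K.map T.subtype).map π) :=
    (π.subgroupMap (K.map T.subtype)).comp (T.subtype.subgroupMap K)
  have hh : Function.Surjective h :=
    (MonoidHom.subgroupMap_surjective _ _).comp (MonoidHom.subgroupMap_surjective _ _)
  have hA : commutator ↥K = ⊤ :=
    (isPerfect_iff.mpr (commutator_self_of_isPComponent hK)).commutator_eq_top
  have hval : ∀ a : ↥K, ((h a : ↥((K.map T.subtype).map π)) : X ⧸ oddCore X) = π (((a : ↥T) : X)) :=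
    fun _ => rfl
  have hnt : Nontrivial ↥((K.map T.subtype).map π) := by
    rw [nontrivial_iff_ne_bot]
    intro hbot
    rw [Subgroup.map_eq_bot_iff, QuotientGroup.ker_mk'] at hbot
    apply not_coprime_of_isPComponent hK
    have h1 : Nat.card ↥(K.map T.subtype) ∣ Nat.card ↥(oddCore X) := Subgroup.card_dvd_of_le hbot
    have h2 : Nat.card ↥(K.map T.subtype) = Nat.card ↥K :=
      Subgroup.card_map_of_injective T.subtype_injective
    have h3 : Nat.card ↥(K.map πT) ∣ Nat.card ↥K := Subgroup.card_map_dvd _ _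
    have h4 : (Nat.card ↥(oddCore X)).Coprime 2 := pPrimeCore_coprime
    exact Nat.Coprime.coprime_dvd_left (h3.trans (h2 ▸ h1)) h4
  apply quasisimple_of_central_ker g hg hK.2.1.2 h hh hA
  intro a ha b
  have ha' : (a : ↥T) ∈ oddCore ↥T := by
    have h1 : πT (a : ↥T) = 1 := congrArg Subtype.val (MonoidHom.mem_ker.mp ha)
    exact (QuotientGroup.eq_one_iff _).mp h1
  have h2 := core_comm hK hB b.2 ha'
  have h3 : π ((⁅(b : ↥T), (a : ↥T)⁆ : ↥T) : X) = 1 := (QuotientGroup.eq_one_iff _).mpr h2
  apply Subtype.ext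
  rw [Subgroup.coe_mul, Subgroup.coe_mul, hval, hval]
  have h4 : ⁅π ((b : ↥T) : X), π ((a : ↥T) : X)⁆ = 1 := by
    rw [← map_commutatorElement]
    exact h3
  exact (commutatorElement_eq_one_iff_mul_comm.mp h4).symm

include hT

/-- Centralizers in `X / O(X)` are covered by centralizers in `X`. -/
theorem exists_lift_centralizer (ht : t * t = 1) {c : X}
    (hc : (QuotientGroup.mk' (oddCore X) c) * (QuotientGroup.mk' (oddCore X) t) =
      (QuotientGroup.mk' (oddCore X) t) * (QuotientGroup.mk' (oddCore X) c)) :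
    ∃ τ : ↥T, QuotientGroup.mk' (oddCore X) (τ : X) = QuotientGroup.mk' (oddCore X) c := by
  have ht2 : t ^ 2 = 1 := by rw [pow_two]; exact ht
  have hcase : ∀ g : X, c⁻¹ * g ∈ oddCore X → c⁻¹ * (t * g * t⁻¹) ∈ oddCore X := by
    intro g hg
    have h1 : QuotientGroup.mk' (oddCore X) g = QuotientGroup.mk' (oddCore X) c := by
      symm
      exact QuotientGroup.eq.mpr hg
    rw [← QuotientGroup.eq_one_iff]
    change QuotientGroup.mk' (oddCore X) (c⁻¹ * (t * g * t⁻¹)) = 1
    simp only [map_mul, map_inv, h1]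
    rw [← hc]
    group
  obtain ⟨o, ho, e⟩ := exists_fixed_in_coset' Nat.prime_two t c ht2 (oddCore X) pPrimeCore_coprime hcase
  refine ⟨⟨c * o, (hT _).mpr (mul_inv_eq_iff_eq_mul.mp e).symm⟩, ?_⟩
  exact (QuotientGroup.eq.mpr (by simpa using ho)).symm

/-- The image in `X / O(X)` of a `2`-component of `C_X(t)` is a component of the centralizer of the
image of `t`. -/
theorem image_isComponent (ht : t * t = 1) :
    IsComponent (((K.map T.subtype).map (QuotientGroup.mk' (oddCore X))).subgroupOf
      (centralizer ({QuotientGroup.mk' (oddCore X) t} : Set (X ⧸ oddCore X)))) := by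
  set π := QuotientGroup.mk' (oddCore X) with hπ
  set Cq := centralizer ({π t} : Set (X ⧸ oddCore X)) with hCq
  have hle : (K.map T.subtype).map π ≤ Cq := by
    rintro _ ⟨_, ⟨k, _, rfl⟩, rfl⟩
    rw [hCq, mem_centralizer_singleton_iff]
    have h1 := (hT _).mp k.2
    simp only [coe_subtype]
    rw [← map_mul, ← map_mul, h1]
  refine ⟨?_, (quasisimple_subgroupOf_iff hle).mpr (image_quasisimple hK hB)⟩
  have hψ : ∀ τ : ↥T, (π.comp T.subtype) τ ∈ Cq := by
    intro τ
    rw [hCq, mem_centralizer_singleton_iff]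
    have h1 := (hT _).mp τ.2
    simp only [MonoidHom.comp_apply, coe_subtype]
    rw [← map_mul, ← map_mul, h1]
  let ψ : ↥T →* ↥Cq := (π.comp T.subtype).codRestrict Cq hψ
  have hsurj : Function.Surjective ψ := by
    rintro ⟨q, hq⟩
    obtain ⟨c, rfl⟩ := QuotientGroup.mk'_surjective _ q
    rw [hCq, mem_centralizer_singleton_iff] at hq
    obtain ⟨τ, hτ⟩ := exists_lift_centralizer hT hK hB ht (c := c) hq
    exact ⟨τ, Subtype.ext hτ⟩
  have heq : K.map ψ = ((K.map T.subtype).map π).subgroupOf Cq := by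
    ext ⟨q, hq⟩
    rw [mem_subgroupOf]
    constructor
    · rintro ⟨k, hk, e⟩
      have e2 : π ((k : X)) = q := congrArg Subtype.val e
      exact ⟨_, ⟨k, hk, rfl⟩, e2⟩
    · rintro ⟨_, ⟨k, hk, rfl⟩, e⟩
      exact ⟨k, hk, Subtype.ext e⟩
  rw [← heq]
  exact hK.1.map hsurj

omit hT

/-- The second statement: `[K, E] ≤ O(X)` for `K`-invariant odd order subgroups `E` of `C_X(t)`. -/
theorem commutator_le_oddCore (E : Subgroup X) (hE : E ≤ T) (hodd : Odd (Nat.card ↥E))
    (hN : ∀ j ∈ K.map T.subtype, ∀ e ∈ E, j * e * j⁻¹ ∈ E) :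
    ⁅K.map T.subtype, E⁆ ≤ oddCore X := by
  let πT := QuotientGroup.mk' (oddCore ↥T)
  let π := QuotientGroup.mk' (oddCore X)
  -- Step 1: `[K, E] ≤ O(C_X(t))`
  have hstep1 : ∀ k ∈ K, ∀ e : ↥T, (e : X) ∈ E → ⁅k, e⁆ ∈ oddCore ↥T := by
    let ET : Subgroup ↥T := E.subgroupOf T
    have hnorm : K.map πT ≤ normalizer ((ET.map πT : Subgroup _) : Set (↥T ⧸ oddCore ↥T)) := by
      have hfw : ∀ k ∈ K, ∀ e ∈ ET, k * e * k⁻¹ ∈ ET := by
        intro k hk e he
        rw [mem_subgroupOf] at he ⊢
        exact hN _ ⟨k, hk, rfl⟩ _ he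
      rintro _ ⟨k, hk, rfl⟩
      rw [mem_normalizer_iff]
      intro y
      constructor
      · rintro ⟨e, he, rfl⟩
        exact ⟨k * e * k⁻¹, hfw k hk e he, by simp⟩
      · rintro ⟨e, he, hey⟩
        refine ⟨k⁻¹ * e * k, ?_, ?_⟩
        · have := hfw k⁻¹ (K.inv_mem hk) e he
          simpa using this
        · rw [map_mul, map_mul, map_inv, hey]
          group
    rcases component_le_or_commutator_eq_bot_of_le_normalizer hK.2.1 hnorm with h1 | h1
    · exfalso
      apply not_coprime_of_isPComponent hK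
      have h2 : Nat.card ↥(K.map πT) ∣ Nat.card ↥(ET.map πT) := Subgroup.card_dvd_of_le h1
      have h3 : Nat.card ↥(ET.map πT) ∣ Nat.card ↥ET := Subgroup.card_map_dvd _ _
      have h4 : Nat.card ↥ET = Nat.card ↥E :=
        Nat.card_congr (subgroupOfEquivOfLe hE).toEquiv
      have h5 : (Nat.card ↥E).Coprime 2 := Nat.coprime_two_right.mpr hodd
      exact Nat.Coprime.coprime_dvd_left (h2.trans (h3.trans h4.dvd)) h5
    · intro k hk e he
      have h2 : ⁅πT k, πT e⁆ = 1 := by
        have h3 : ⁅πT k, πT e⁆ ∈ ⁅K.map πT, ET.map πT⁆ :=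
          commutator_mem_commutator ⟨k, hk, rfl⟩ ⟨e, he, rfl⟩
        rw [h1] at h3
        exact h3
      rw [← map_commutatorElement] at h2
      exact (QuotientGroup.eq_one_iff _).mp h2
  -- Step 2
  set F := (K.map T.subtype).map π with hF
  have hFF : ⁅F, F⁆ = F := commutator_self_of_quasisimple (image_quasisimple hK hB)
  have hstep2 : ⁅F, E.map π⁆ = ⊥ := by
    apply commutator_eq_bot_of_perfect hFF
    let R : Subgroup X := (oddCore ↥T).map T.subtype
    have h1 : ⁅K.map T.subtype, E⁆ ≤ R := by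
      rw [Subgroup.commutator_le]
      rintro _ ⟨k, hk, rfl⟩ e he
      exact ⟨⁅k, ⟨e, hE he⟩⁆, hstep1 k hk ⟨e, hE he⟩ he, rfl⟩
    have h2 : ⁅R, K.map T.subtype⁆ ≤ oddCore X := by
      rw [Subgroup.commutator_le]
      rintro _ ⟨o, ho, rfl⟩ _ ⟨k, hk, rfl⟩
      have h3 := core_comm hK hB hk ho
      have h4 : ⁅T.subtype o, T.subtype k⁆ = ((⁅k, o⁆ : ↥T) : X)⁻¹ := by
        rw [← commutatorElement_inv]
        rfl
      rw [h4]
      exact inv_mem h3
    rw [eq_bot_iff]
    have h3 : ⁅F, E.map π⁆ ≤ R.map π := by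
      rw [hF, ← Subgroup.map_commutator]
      exact Subgroup.map_mono h1
    refine (Subgroup.commutator_mono h3 le_rfl).trans ?_
    rw [hF, ← Subgroup.map_commutator]
    rw [Subgroup.map_le_iff_le_comap]
    intro w hw
    rw [mem_comap, mem_bot]
    exact (QuotientGroup.eq_one_iff _).mpr (h2 hw)
  rw [hF, ← Subgroup.map_commutator, Subgroup.map_eq_bot_iff, QuotientGroup.ker_mk'] at hstep2
  exact hstep2

end Core

end Cfsg.Agent.Lib.TI.LBalance
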