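import Mathlib.GroupTheory.Commutator.Basic
import Mathlib.Algebra.Group.Subgroup.Map
import Mathlib.Tactic.Group

/-!
Conjugates of a central involution in a `2`-group `Q = F*(C(z))` with `Φ(Q) ≤ ⟨z⟩`.

`Setup z Q` collects what we use: `z` is an involution, `Q` is normalized by `C(z)`, contains
`C_{C(z)}(Q)`, and has squares and commutators in `⟨z⟩`, with `z` the only central involution.

Main result `mem_of_conj`: if `g * z * g⁻¹ ∈ Q`, `g * z * g⁻¹ ≠ z`, then `z ∈ g Q g⁻¹`.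
Then `exists_action`: `⟨Q, g Q g⁻¹⟩` induces the full automorphism group on `⟨z, g z g⁻¹⟩`.
-/

set_option autoImplicit false

namespace Cfsg.Agent.Lib.TI.SympConj

open scoped commutatorElement

variable {G : Type*} [Group G]

/-- The setting. -/
structure Setup (z : G) (Q : Subgroup G) : Prop where
  z_sq : z * z = 1
  z_ne : z ≠ 1
  z_mem : z ∈ Q
  comm_z : ∀ x ∈ Q, x * z = z * x
  norm : ∀ a : G, a * z = z * a → ∀ x ∈ Q, a * x * a⁻¹ ∈ Q
  cent : ∀ a : G, a * z = z * a → (∀ x ∈ Q, a * x = x * a) → a ∈ Q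
  sq : ∀ x ∈ Q, x * x = 1 ∨ x * x = z
  comm : ∀ x ∈ Q, ∀ y ∈ Q, ⁅x, y⁆ = 1 ∨ ⁅x, y⁆ = z
  center : ∀ x ∈ Q, (∀ y ∈ Q, x * y = y * x) → x * x = 1 → x = 1 ∨ x = z

theorem conj_comm_iff (g a b : G) : (g * a * g⁻¹) * (g * b * g⁻¹) = (g * b * g⁻¹) * (g * a * g⁻¹) ↔
    a * b = b * a := by
  constructor
  · intro h
    have h1 : (g * a * g⁻¹) * (g * b * g⁻¹) = g * (a * b) * g⁻¹ := by group
    have h2 : (g * b * g⁻¹) * (g * a * g⁻¹) = g * (b * a) * g⁻¹ := by group
    rw [h1, h2] at h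
    exact mul_left_cancel (mul_right_cancel h)
  · intro h
    have h1 : (g * a * g⁻¹) * (g * b * g⁻¹) = g * (a * b) * g⁻¹ := by group
    have h2 : (g * b * g⁻¹) * (g * a * g⁻¹) = g * (b * a) * g⁻¹ := by group
    rw [h1, h2, h]

theorem mem_map_conj {Q : Subgroup G} {g x : G} :
    x ∈ Q.map (MulAut.conj g).toMonoidHom ↔ ∃ y ∈ Q, g * y * g⁻¹ = x := by
  rw [Subgroup.mem_map]
  rfl

/-- The setting is invariant under conjugation. -/
theorem Setup.conj {z : G} {Q : Subgroup G} (h : Setup z Q) (g : G) :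
    Setup (g * z * g⁻¹) (Q.map (MulAut.conj g).toMonoidHom) := by
  have hinv : ∀ {b : G}, b * (g * z * g⁻¹) = (g * z * g⁻¹) * b →
      (g⁻¹ * b * g) * z = z * (g⁻¹ * b * g) := by
    intro b hb
    rw [← conj_comm_iff g (g⁻¹ * b * g) z]
    have h1 : g * (g⁻¹ * b * g) * g⁻¹ = b := by group
    rw [h1]
    exact hb
  have hrep : ∀ b : G, g * (g⁻¹ * b * g) * g⁻¹ = b := fun b => by group
  refine ⟨?_, ?_, ?_, ?_, ?_, ?_, ?_, ?_, ?_⟩
  · calc g * z * g⁻¹ * (g * z * g⁻¹) = g * (z * z) * g⁻¹ := by group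
      _ = 1 := by rw [h.z_sq]; group
  · intro h1
    apply h.z_ne
    have h2 : z = g⁻¹ * (g * z * g⁻¹) * g := by group
    rw [h2, h1]; group
  · exact mem_map_conj.mpr ⟨z, h.z_mem, rfl⟩
  · intro x hx
    obtain ⟨y, hy, rfl⟩ := mem_map_conj.mp hx
    exact (conj_comm_iff g y z).mpr (h.comm_z y hy)
  · intro b hb x hx
    obtain ⟨y, hy, rfl⟩ := mem_map_conj.mp hx
    refine mem_map_conj.mpr ⟨_, h.norm _ (hinv hb) y hy, ?_⟩
    group
  · intro b hb hc
    have h1 : g⁻¹ * b * g ∈ Q := by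
      apply h.cent _ (hinv hb)
      intro x hx
      rw [← conj_comm_iff g (g⁻¹ * b * g) x, hrep]
      exact hc _ (mem_map_conj.mpr ⟨x, hx, rfl⟩)
    exact mem_map_conj.mpr ⟨_, h1, hrep b⟩
  · intro x hx
    obtain ⟨y, hy, rfl⟩ := mem_map_conj.mp hx
    have h1 : g * y * g⁻¹ * (g * y * g⁻¹) = g * (y * y) * g⁻¹ := by group
    rw [h1]
    rcases h.sq y hy with h2 | h2 <;> rw [h2]
    · left; group
    · exact Or.inr rfl
  · intro x hx y hy
    obtain ⟨x', hx', rfl⟩ := mem_map_conj.mp hx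
    obtain ⟨y', hy', rfl⟩ := mem_map_conj.mp hy
    rw [← conjugate_commutatorElement]
    rcases h.comm x' hx' y' hy' with h2 | h2 <;> rw [h2]
    · left; group
    · exact Or.inr rfl
  · intro x hx hc hxx
    obtain ⟨y, hy, rfl⟩ := mem_map_conj.mp hx
    have h1 : y * y = 1 := by
      have h2 : g * y * g⁻¹ * (g * y * g⁻¹) = g * (y * y) * g⁻¹ := by group
      rw [h2] at hxx
      have h3 : y * y = g⁻¹ * (g * (y * y) * g⁻¹) * g := by group
      rw [h3, hxx]; group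
    have h2 : ∀ u ∈ Q, y * u = u * y := by
      intro u hu
      rw [← conj_comm_iff g y u]
      exact hc _ (mem_map_conj.mpr ⟨u, hu, rfl⟩)
    rcases h.center y hy h2 h1 with h3 | h3
    · left; rw [h3]; group
    · right; rw [h3]

namespace Setup

variable {z z₁ : G} {Q Q₂ : Subgroup G}

theorem inv_z (h : Setup z Q) : z⁻¹ = z := by
  rw [inv_eq_iff_mul_eq_one]; exact h.z_sq

theorem comm_central (h : Setup z Q) {x y u : G} (hx : x ∈ Q) (hy : y ∈ Q) (hu : u ∈ Q) :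
    ⁅x, y⁆ * u = u * ⁅x, y⁆ := by
  rcases h.comm x hx y hy with e | e <;> rw [e]
  · simp
  · exact (h.comm_z u hu).symm

theorem comm_tau (h : Setup z Q) {x y τ : G} (hx : x ∈ Q) (hy : y ∈ Q) (hτ : τ * z = z * τ) :
    τ * ⁅x, y⁆ * τ⁻¹ = ⁅x, y⁆ := by
  rcases h.comm x hx y hy with e | e <;> rw [e]
  · simp
  · exact mul_inv_eq_of_eq_mul hτ

theorem comm_comm (h : Setup z Q) {x y a b : G} (hx : x ∈ Q) (hy : y ∈ Q) (ha : a ∈ Q) (hb : b ∈ Q) :
    ⁅x, y⁆ * ⁅a, b⁆ = ⁅a, b⁆ * ⁅x, y⁆ := by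
  rcases h.comm a ha b hb with e | e <;> rw [e]
  · simp
  · exact h.comm_central hx hy h.z_mem

theorem comm_mul_left (h : Setup z Q) {x₁ x₂ y : G} (hx₁ : x₁ ∈ Q) (hx₂ : x₂ ∈ Q) (hy : y ∈ Q) :
    ⁅x₁ * x₂, y⁆ = ⁅x₁, y⁆ * ⁅x₂, y⁆ := by
  have h1 : ⁅x₁ * x₂, y⁆ = x₁ * ⁅x₂, y⁆ * x₁⁻¹ * ⁅x₁, y⁆ := by
    simp only [commutatorElement_def]; group
  have h2 : x₁ * ⁅x₂, y⁆ * x₁⁻¹ = ⁅x₂, y⁆ := by
    rw [← h.comm_central hx₂ hy hx₁]; group
  rw [h1, h2]
  exact h.comm_comm hx₂ hy hx₁ hy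

theorem comm_mul_right (h : Setup z Q) {x y₁ y₂ : G} (hx : x ∈ Q) (hy₁ : y₁ ∈ Q) (hy₂ : y₂ ∈ Q) :
    ⁅x, y₁ * y₂⁆ = ⁅x, y₁⁆ * ⁅x, y₂⁆ := by
  have h1 : ⁅x, y₁ * y₂⁆ = ⁅x, y₁⁆ * (y₁ * ⁅x, y₂⁆ * y₁⁻¹) := by
    simp only [commutatorElement_def]; group
  have h2 : y₁ * ⁅x, y₂⁆ * y₁⁻¹ = ⁅x, y₂⁆ := by
    rw [← h.comm_central hx hy₂ hy₁]; group
  rw [h1, h2]

theorem comm_inv_left (h : Setup z Q) {x y : G} (hx : x ∈ Q) (hy : y ∈ Q) : ⁅x⁻¹, y⁆ = ⁅y, x⁆ := by
  have h1 : ⁅x⁻¹, y⁆ = x⁻¹ * ⁅y, x⁆ * x := by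
    simp only [commutatorElement_def]; group
  rw [h1, ← h.comm_central hy hx (inv_mem hx)]
  group

theorem comm_inv_right (h : Setup z Q) {x y : G} (hx : x ∈ Q) (hy : y ∈ Q) : ⁅x, y⁻¹⁆ = ⁅y, x⁆ := by
  have h1 : ⁅x, y⁻¹⁆ = y⁻¹ * ⁅y, x⁆ * y := by
    simp only [commutatorElement_def]; group
  rw [h1, ← h.comm_central hy hx (inv_mem hy)]
  group

theorem inv_comm (h : Setup z Q) {τ : G} (hτ : τ * z = z * τ) : τ⁻¹ * z = z * τ⁻¹ := by
  calc τ⁻¹ * z = τ⁻¹ * (z * τ) * τ⁻¹ := by group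
    _ = τ⁻¹ * (τ * z) * τ⁻¹ := by rw [hτ]
    _ = z * τ⁻¹ := by group

theorem norm_inv (h : Setup z Q) {τ x : G} (hτ : τ * z = z * τ) (hx : x ∈ Q) : τ⁻¹ * x * τ ∈ Q := by
  have := h.norm τ⁻¹ (h.inv_comm hτ) x hx
  simpa using this

/-- Adjointness. -/
theorem adjoint (h : Setup z Q) {τ x y : G} (hτ : τ * z = z * τ) (hx : x ∈ Q) (hy : y ∈ Q) :
    ⁅τ * x * τ⁻¹ * x⁻¹, y⁆ = ⁅x, τ⁻¹ * y * τ * y⁻¹⁆ := by
  have hx' : τ * x * τ⁻¹ ∈ Q := h.norm τ hτ x hx
  have hy' : τ⁻¹ * y * τ ∈ Q := h.norm_inv hτ hy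
  rw [h.comm_mul_left hx' (inv_mem hx) hy, h.comm_mul_right hx hy' (inv_mem hy),
    h.comm_inv_left hx hy, h.comm_inv_right hx hy]
  congr 1
  have h1 : ⁅τ * x * τ⁻¹, y⁆ = τ * ⁅x, τ⁻¹ * y * τ⁆ * τ⁻¹ := by
    simp only [commutatorElement_def]; group
  rw [h1, h.comm_tau hx hy' hτ]

/-- A noncentral involution is moved by `z`. -/
theorem exists_swap (h : Setup z Q) {w : G} (hw : w ∈ Q) (hww : w * w = 1) (hw1 : w ≠ 1) (hwz : w ≠ z) :
    ∃ r ∈ Q, r * w * r⁻¹ = z * w := by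
  by_contra hcon
  push Not at hcon
  have hc : ∀ y ∈ Q, w * y = y * w := by
    intro y hy
    by_contra hne
    rcases h.comm y hy w hw with e | e
    · exact hne (commutatorElement_eq_one_iff_mul_comm.mp e).symm
    · apply hcon y hy
      rw [← e, commutatorElement_def]
      group
  rcases h.center w hw hc hww with e | e
  · exact hw1 e
  · exact hwz e

theorem swap_cases (h : Setup z Q) {w r x : G} (hr : r ∈ Q) (hw : w ∈ Q) (hrw : r * w * r⁻¹ = z * w)
    (hx : x ∈ Q) : x * w = w * x ∨ (r⁻¹ * x) * w = w * (r⁻¹ * x) := by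
  rcases h.comm x hx w hw with e | e
  · left; exact commutatorElement_eq_one_iff_mul_comm.mp e
  · right
    have h1 : x * w * x⁻¹ = r * w * r⁻¹ := by
      rw [hrw, ← e, commutatorElement_def]; group
    have h2 : r⁻¹ * (x * w * x⁻¹) * r = w := by
      rw [h1]; group
    calc r⁻¹ * x * w = (r⁻¹ * (x * w * x⁻¹) * r) * (r⁻¹ * x) := by group
      _ = w * (r⁻¹ * x) := by rw [h2]

/-- An element commuting with `r` and with `C_Q(w)` is central in `Q`. -/
theorem central_of_comm (h : Setup z Q) {w r v : G} (hr : r ∈ Q) (hw : w ∈ Q)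
    (hrw : r * w * r⁻¹ = z * w) (hvr : v * r = r * v)
    (hvq : ∀ q ∈ Q, q * w = w * q → v * q = q * v) : ∀ y ∈ Q, v * y = y * v := by
  intro y hy
  rcases h.swap_cases hr hw hrw hy with e | e
  · exact hvq y hy e
  · have h1 := hvq _ (mul_mem (inv_mem hr) hy) e
    have h2 : y = r * (r⁻¹ * y) := by group
    rw [h2, ← mul_assoc, hvr, mul_assoc, h1]
    group

section Main

variable (h : Setup z Q) (h' : Setup z₁ Q₂) (hz₁Q : z₁ ∈ Q) (hzQ₂ : z ∉ Q₂)

include h h' hz₁Q hzQ₂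

/-- `Q ∩ Q₂ = ⟨z₁⟩` if `z ∉ Q₂`. -/
theorem inter_eq {r t : G} (hr : r ∈ Q) (hrz : r * z₁ * r⁻¹ = z * z₁) (ht : t ∈ Q) (ht' : t ∈ Q₂) :
    t = 1 ∨ t = z₁ := by
  have hcq : ∀ q ∈ Q, q * z₁ = z₁ * q → t * q = q * t := by
    intro q hq hqz
    rcases h.comm t ht q hq with e | e
    · exact commutatorElement_eq_one_iff_mul_comm.mp e
    · exfalso
      apply hzQ₂
      rw [← e, commutatorElement_def, mul_assoc, mul_assoc]
      refine mul_mem ht' ?_
      rw [← mul_assoc]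
      exact h'.norm q hqz _ (inv_mem ht')
  have key : ∀ v : G, v ∈ Q → v ∈ Q₂ → v * r = r * v → (∀ q ∈ Q, q * z₁ = z₁ * q → v * q = q * v) →
      v = 1 := by
    intro v hv hv' hvr hvq
    have hc := h.central_of_comm hr hz₁Q hrz hvr hvq
    have hvv : v * v = 1 := by
      rcases h.sq v hv with e | e
      · exact e
      · exfalso
        apply hzQ₂
        rw [← e]
        exact mul_mem hv' hv'
    rcases h.center v hv hc hvv with e | e
    · exact e
    · exfalso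
      apply hzQ₂
      rw [← e]
      exact hv'
  rcases h.comm r hr t ht with e | e
  · left
    exact key t ht ht' (commutatorElement_eq_one_iff_mul_comm.mp e).symm hcq
  · right
    have htz : t * z = z * t := h.comm_z t ht
    have hz₁inv : z₁⁻¹ = z₁ := by
      rw [inv_eq_iff_mul_eq_one]; exact h'.z_sq
    have h1 : r * t * r⁻¹ = z * t := by
      rw [← e, commutatorElement_def]; group
    have h2 : t * z₁ = 1 := by
      apply key (t * z₁) (mul_mem ht hz₁Q) (mul_mem ht' h'.z_mem)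
      · have h3 : r * (t * z₁) * r⁻¹ = t * z₁ := by
          calc r * (t * z₁) * r⁻¹ = (r * t * r⁻¹) * (r * z₁ * r⁻¹) := by group
            _ = (z * t) * (z * z₁) := by rw [h1, hrz]
            _ = t * (z * z) * z₁ := by
                rw [← htz]; group
            _ = t * z₁ := by rw [h.z_sq]; group
        exact (mul_inv_eq_iff_eq_mul.mp h3).symm
      · intro q hq hqz
        have h3 := hcq q hq hqz
        calc t * z₁ * q = t * (z₁ * q) := by group
          _ = t * (q * z₁) := by rw [hqz]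
          _ = (t * q) * z₁ := by group
          _ = (q * t) * z₁ := by rw [h3]
          _ = q * (t * z₁) := by group
    rw [← hz₁inv]
    exact eq_inv_of_mul_eq_one_left h2

/-- Cross commutators of `C_{Q₂}(z)` and `C_Q(z₁)` lie in `⟨z₁⟩`. -/
theorem cross {r y q : G} (hr : r ∈ Q) (hrz : r * z₁ * r⁻¹ = z * z₁) (hy : y ∈ Q₂)
    (hyz : y * z = z * y) (hq : q ∈ Q) (hqz : q * z₁ = z₁ * q) :
    y * q * y⁻¹ * q⁻¹ = 1 ∨ y * q * y⁻¹ * q⁻¹ = z₁ := by
  apply inter_eq h h' hz₁Q hzQ₂ hr hrz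
  · exact mul_mem (h.norm y hyz q hq) (inv_mem hq)
  · rw [mul_assoc, mul_assoc]
    refine mul_mem hy ?_
    rw [← mul_assoc]
    exact h'.norm q hqz _ (inv_mem hy)

/-- The key conjugation argument: `z` does not move an element of `Q₂` by `z₁`. -/
theorem no_z₁ {g r y : G} (hg : z₁ = g * z * g⁻¹) (hQ₂ : ∀ x ∈ Q, g * x * g⁻¹ ∈ Q₂) (hr : r ∈ Q)
    (hrz : r * z₁ * r⁻¹ = z * z₁) (hy : y ∈ Q₂) : z * y * z⁻¹ * y⁻¹ ≠ z₁ := by
  intro hdy
  have hzi : z⁻¹ = z := h.inv_z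
  have hz₁z : z₁ * z = z * z₁ := h.comm_z z₁ hz₁Q
  have hz₁i : z₁⁻¹ = z₁ := by
    rw [inv_eq_iff_mul_eq_one]; exact h'.z_sq
  -- `y z y⁻¹ = z z₁`
  have h1 : y * z * y⁻¹ = z * z₁ := by
    have h2 : z * (y * z * y⁻¹) = z₁ := by
      rw [← hdy, hzi]; group
    calc y * z * y⁻¹ = z * (z * (y * z * y⁻¹)) := by
          rw [← mul_assoc, h.z_sq, one_mul]
      _ = z * z₁ := by rw [h2]
  -- `a = y⁻¹ r g` centralizes `z`
  set a := y⁻¹ * r * g with ha
  have haz : a * z = z * a := by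
    have h2 : a * z * a⁻¹ = z := by
      have h3 : a * z * a⁻¹ = y⁻¹ * (r * (g * z * g⁻¹) * r⁻¹) * y := by
        rw [ha]; group
      rw [h3, ← hg, hrz, ← h1]
      group
    exact mul_inv_eq_iff_eq_mul.mp h2
  have hzy : y * z₁ = z₁ * y := h'.comm_z y hy
  have hxQ : z * z₁ ∈ Q := mul_mem h.z_mem hz₁Q
  have hx' : a⁻¹ * (z * z₁) * a ∈ Q := h.norm_inv haz hxQ
  have h2 := hQ₂ _ hx'
  have h3 : g * (a⁻¹ * (z * z₁) * a) * g⁻¹ = r⁻¹ * (y * (z * z₁) * y⁻¹) * r := by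
    rw [ha]; group
  have h4 : y * (z * z₁) * y⁻¹ = z := by
    have h5 : y * (z * z₁) * y⁻¹ = (y * z * y⁻¹) * (y * z₁ * y⁻¹) := by group
    have h6 : y * z₁ * y⁻¹ = z₁ := mul_inv_eq_of_eq_mul hzy
    rw [h5, h1, h6, mul_assoc, h'.z_sq, mul_one]
  have hrzc : r⁻¹ * z * r = z := by
    have := h.comm_z r hr
    calc r⁻¹ * z * r = r⁻¹ * (z * r) := by group
      _ = r⁻¹ * (r * z) := by rw [this]
      _ = z := by group
  rw [h3, h4, hrzc] at h2
  exact hzQ₂ h2

variable {g r : G} (hg : z₁ = g * z * g⁻¹) (hQ₂ : ∀ x ∈ Q, g * x * g⁻¹ ∈ Q₂) (hr : r ∈ Q)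
    (hrz : r * z₁ * r⁻¹ = z * z₁)

include hg hQ₂ hr hrz

/-- The elements `d y = z y z⁻¹ y⁻¹` square to `1` and commute with `z`. -/
theorem d_props {y : G} (hy : y ∈ Q₂) :
    z * y * z⁻¹ * y⁻¹ ∈ Q₂ ∧ (z * y * z⁻¹ * y⁻¹) * (z * y * z⁻¹ * y⁻¹) = 1 ∧
      (z * y * z⁻¹ * y⁻¹) * z = z * (z * y * z⁻¹ * y⁻¹) := by
  have hzi : z⁻¹ = z := h.inv_z
  have hz₁z : z * z₁ = z₁ * z := (h.comm_z z₁ hz₁Q).symm
  have hmem : z * y * z⁻¹ * y⁻¹ ∈ Q₂ := mul_mem (h'.norm z hz₁z y hy) (inv_mem hy)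
  set w := z * y * z⁻¹ * y⁻¹ with hw
  have hzw : z * w * z⁻¹ = w⁻¹ := by
    rw [hw, hzi]
    have h5 : (z * y * z * y⁻¹)⁻¹ = y * z⁻¹ * y⁻¹ * z⁻¹ := by group
    rw [h5, hzi]
    calc z * (z * y * z * y⁻¹) * z = (z * z) * y * z * y⁻¹ * z := by group
      _ = y * z * y⁻¹ * z := by rw [h.z_sq, one_mul]
  have hd : z * w * z⁻¹ * w⁻¹ = (w * w)⁻¹ := by
    rw [hzw]; group
  have hww : w * w = 1 := by
    rcases h'.sq w hmem with e | e
    · exact e
    · exfalso
      apply no_z₁ h h' hz₁Q hzQ₂ hg hQ₂ hr hrz hmem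
      rw [hd, e]
      rw [inv_eq_iff_mul_eq_one]; exact h'.z_sq
  refine ⟨hmem, hww, ?_⟩
  have hwi : w⁻¹ = w := by
    rw [inv_eq_iff_mul_eq_one]; exact hww
  rw [hwi] at hzw
  exact (mul_inv_eq_iff_eq_mul.mp hzw).symm

/-- An element of `Q₂` commuting with `C_{Q₂}(z)` commutes with `z`. -/
theorem comm_z_of_comm_Y {y₁ : G} (hy₁ : y₁ ∈ Q₂) (hc : ∀ y₀ ∈ Q₂, y₀ * z = z * y₀ → y₁ * y₀ = y₀ * y₁) :
    y₁ * z = z * y₁ := by
  have hzi : z⁻¹ = z := h.inv_z
  have hz₁z : z * z₁ = z₁ * z := (h.comm_z z₁ hz₁Q).symm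
  obtain ⟨hmem, hww, -⟩ := d_props h h' hz₁Q hzQ₂ hg hQ₂ hr hrz hy₁
  have hcent : ∀ y ∈ Q₂, (z * y₁ * z⁻¹ * y₁⁻¹) * y = y * (z * y₁ * z⁻¹ * y₁⁻¹) := by
    intro y hy
    rw [← commutatorElement_eq_one_iff_mul_comm, h'.adjoint hz₁z hy₁ hy, hzi,
      commutatorElement_eq_one_iff_mul_comm]
    obtain ⟨hm2, -, hz2⟩ := d_props h h' hz₁Q hzQ₂ hg hQ₂ hr hrz hy
    rw [hzi] at hm2 hz2
    exact hc _ hm2 hz2
  rcases h'.center _ hmem hcent hww with e | e
  · have h1 : z * y₁ * z⁻¹ = y₁ := mul_inv_eq_one.mp e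
    exact (mul_inv_eq_iff_eq_mul.mp h1).symm
  · exact absurd e (no_z₁ h h' hz₁Q hzQ₂ hg hQ₂ hr hrz hy₁)

/-- If all `d y` lie in `⟨z₁⟩`, we get a contradiction. -/
theorem false_of_d {_x : G} (hd : ∀ y ∈ Q₂, z * y * z⁻¹ * y⁻¹ = 1 ∨ z * y * z⁻¹ * y⁻¹ = z₁) : False := by
  have hz₁z : z * z₁ = z₁ * z := (h.comm_z z₁ hz₁Q).symm
  apply hzQ₂
  apply h'.cent z hz₁z
  intro y hy
  rcases hd y hy with e | e
  · have h1 : z * y * z⁻¹ = y := mul_inv_eq_one.mp e
    exact mul_inv_eq_iff_eq_mul.mp h1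
  · exact absurd e (no_z₁ h h' hz₁Q hzQ₂ hg hQ₂ hr hrz hy)

/-- The case of a square: `z = q * q` with `q ∈ C_Q(z₁)`. -/
theorem false_of_square {q : G} (hq : q ∈ Q) (hqz : q * z₁ = z₁ * q) (hqq : q * q = z) : False := by
  have hz₁i : z₁⁻¹ = z₁ := by
    rw [inv_eq_iff_mul_eq_one]; exact h'.z_sq
  have hq' : q⁻¹ ∈ Q := inv_mem hq
  have hqz' : q⁻¹ * z₁ = z₁ * q⁻¹ := h'.inv_comm hqz
  refine false_of_d (_x := q) h h' hz₁Q hzQ₂ hg hQ₂ hr hrz ?_
  intro y hy
  have hem : q * y * q⁻¹ * y⁻¹ ∈ Q₂ := mul_mem (h'.norm q hqz y hy) (inv_mem hy)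
  set e := q * y * q⁻¹ * y⁻¹ with he
  have hez : e * z = z * e := by
    apply comm_z_of_comm_Y h h' hz₁Q hzQ₂ hg hQ₂ hr hrz hem
    intro y₀ hy₀ hy₀z
    rw [← commutatorElement_eq_one_iff_mul_comm, he, h'.adjoint hqz hy hy₀]
    have hc := cross h h' hz₁Q hzQ₂ hr hrz hy₀ hy₀z hq' hqz'
    have hc2 : q⁻¹ * y₀ * q * y₀⁻¹ = 1 ∨ q⁻¹ * y₀ * q * y₀⁻¹ = z₁ := by
      have h3 : q⁻¹ * y₀ * q * y₀⁻¹ = (y₀ * q⁻¹ * y₀⁻¹ * q⁻¹⁻¹)⁻¹ := by group
      rw [h3]
      rcases hc with h4 | h4 <;> rw [h4]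
      · left; group
      · right; exact hz₁i
    rcases hc2 with h4 | h4 <;> rw [h4]
    · simp
    · rw [commutatorElement_eq_one_iff_mul_comm]
      exact h'.comm_z y hy
  have hqe : q * e * q⁻¹ * e⁻¹ = 1 ∨ q * e * q⁻¹ * e⁻¹ = z₁ := by
    have h3 : q * e * q⁻¹ * e⁻¹ = (e * q * e⁻¹ * q⁻¹)⁻¹ := by group
    rw [h3]
    rcases cross h h' hz₁Q hzQ₂ hr hrz hem hez hq hqz with h4 | h4 <;> rw [h4]
    · left; group
    · right; exact hz₁i
  have hform : z * y * z⁻¹ * y⁻¹ = (q * e * q⁻¹ * e⁻¹) * (e * e) := by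
    rw [← hqq, he]; group
  rw [hform]
  rcases hqe with h4 | h4 <;> rcases h'.sq e hem with h5 | h5 <;> rw [h4, h5]
  · left; group
  · right; group
  · right; group
  · left; exact h'.z_sq

end Main

/-- The structure of `Q` if `C_Q(w)` has exponent two: every commuting pair `x, u` of `Q` has `x ∈ ⟨z⟩`
or `u ∈ ⟨x, z⟩`. -/
theorem d8_claim (h : Setup z Q) {w r : G} (hw : w ∈ Q) (hww : w * w = 1) (hr : r ∈ Q)
    (hrw : r * w * r⁻¹ = z * w) (hq : ∀ q ∈ Q, q * w = w * q → q * q = 1) {x u : G} (hx : x ∈ Q)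
    (hu : u ∈ Q) (hxu : x * u = u * x) :
    x = 1 ∨ x = z ∨ u = 1 ∨ u = z ∨ u = x ∨ u = z * x := by
  have hwi : w⁻¹ = w := by
    rw [inv_eq_iff_mul_eq_one]; exact hww
  have hzw : w * z = z * w := h.comm_z w hw
  have hzz : z * z = 1 := h.z_sq
  have hcz : ∀ v ∈ Q, v * z = z * v := h.comm_z
  -- `C_Q(w)` is abelian
  have hab : ∀ a ∈ Q, a * w = w * a → ∀ b ∈ Q, b * w = w * b → a * b = b * a := by
    intro a ha haw b hb hbw
    have h1 := hq a ha haw
    have h2 := hq b hb hbw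
    have h3 := hq (a * b) (mul_mem ha hb) (by
      calc a * b * w = a * (b * w) := by group
        _ = a * (w * b) := by rw [hbw]
        _ = (a * w) * b := by group
        _ = (w * a) * b := by rw [haw]
        _ = w * (a * b) := by group)
    have h4 : a⁻¹ = a := by rw [inv_eq_iff_mul_eq_one]; exact h1
    have h5 : b⁻¹ = b := by rw [inv_eq_iff_mul_eq_one]; exact h2
    have h6 : a * b = (a * b)⁻¹ := by
      rw [eq_inv_iff_mul_eq_one]; exact h3
    rw [h6, mul_inv_rev, h4, h5]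
  -- the elements of `C_Q(w)`
  have hQ₁ : ∀ v ∈ Q, v * w = w * v → v = 1 ∨ v = z ∨ v = w ∨ v = z * w := by
    intro v hv hvw
    have hvz : v * z = z * v := hcz v hv
    have hvv := hq v hv hvw
    rcases h.comm r hr v hv with e | e
    · have hc := h.central_of_comm hr hw hrw
        (commutatorElement_eq_one_iff_mul_comm.mp e).symm
        (fun q hq' hqw => hab v hv hvw q hq' hqw)
      rcases h.center v hv hc hvv with e2 | e2
      · exact Or.inl e2
      · exact Or.inr (Or.inl e2)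
    · have hrv : r * v * r⁻¹ = z * v := by
        rw [← e, commutatorElement_def]; group
      have hc := h.central_of_comm (v := v * w) hr hw hrw
        (by
          have h3 : r * (v * w) * r⁻¹ = v * w := by
            calc r * (v * w) * r⁻¹ = (r * v * r⁻¹) * (r * w * r⁻¹) := by group
              _ = (z * v) * (z * w) := by rw [hrv, hrw]
              _ = v * (z * z) * w := by rw [← hvz]; group
              _ = v * w := by rw [hzz]; group
          exact (mul_inv_eq_iff_eq_mul.mp h3).symm)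
        (fun q hq' hqw => by
          have h1 := hab v hv hvw q hq' hqw
          calc v * w * q = v * (w * q) := by group
            _ = v * (q * w) := by rw [hqw]
            _ = (v * q) * w := by group
            _ = (q * v) * w := by rw [h1]
            _ = q * (v * w) := by group)
      have hvw2 : (v * w) * (v * w) = 1 := by
        calc (v * w) * (v * w) = v * (w * v) * w := by group
          _ = v * (v * w) * w := by rw [hvw]
          _ = (v * v) * (w * w) := by group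
          _ = 1 := by rw [hvv, hww, one_mul]
      rcases h.center _ (mul_mem hv hw) hc hvw2 with e2 | e2
      · right; right; left
        rw [← hwi]
        exact eq_inv_of_mul_eq_one_left e2
      · right; right; right
        calc v = v * (w * w) := by rw [hww, mul_one]
          _ = (v * w) * w := by group
          _ = z * w := by rw [e2]
  have hzwc : ∀ v : G, v * (z * w) = (z * w) * v → v ∈ Q → v * w = w * v := by
    intro v hv hvQ
    have hvz := hcz v hvQ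
    have h1 : z * (v * w) = z * (w * v) := by
      calc z * (v * w) = (z * v) * w := by group
        _ = (v * z) * w := by rw [hvz]
        _ = v * (z * w) := by group
        _ = (z * w) * v := by rw [hv]
        _ = _ := by group
    exact mul_left_cancel h1
  by_cases hxw : x * w = w * x
  · rcases hQ₁ x hx hxw with e | e | e | e
    · exact Or.inl e
    · exact Or.inr (Or.inl e)
    · subst e
      right; right
      have := hQ₁ u hu hxu.symm
      rcases this with e2 | e2 | e2 | e2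
      · exact Or.inl e2
      · exact Or.inr (Or.inl e2)
      · exact Or.inr (Or.inr (Or.inl e2))
      · exact Or.inr (Or.inr (Or.inr e2))
    · subst e
      right; right
      have := hQ₁ u hu (hzwc u hxu.symm hu)
      rcases this with e2 | e2 | e2 | e2
      · exact Or.inl e2
      · exact Or.inr (Or.inl e2)
      · right; right; right
        rw [e2, ← mul_assoc, hzz, one_mul]
      · exact Or.inr (Or.inr (Or.inl e2))
  · right; right
    -- an element of `C_Q(w)` commuting with `x` lies in `⟨z⟩`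
    have hsub : ∀ v ∈ Q, v * w = w * v → x * v = v * x → v = 1 ∨ v = z := by
      intro v hv hvw hxv
      rcases hQ₁ v hv hvw with e | e | e | e
      · exact Or.inl e
      · exact Or.inr e
      · subst e
        exact absurd hxv hxw
      · subst e
        exact absurd (hzwc x hxv hx) hxw
    by_cases huw : u * w = w * u
    · rcases hsub u hu huw hxu with e | e
      · exact Or.inl e
      · exact Or.inr (Or.inl e)
    · -- `x⁻¹ u ∈ C_Q(w)`
      have h1 : x * w * x⁻¹ = z * w := by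
        rcases h.comm x hx w hw with e | e
        · exact absurd (commutatorElement_eq_one_iff_mul_comm.mp e) hxw
        · rw [← e, commutatorElement_def]; group
      have h2 : u * w * u⁻¹ = z * w := by
        rcases h.comm u hu w hw with e | e
        · exact absurd (commutatorElement_eq_one_iff_mul_comm.mp e) huw
        · rw [← e, commutatorElement_def]; group
      have h3 : (x⁻¹ * u) * w = w * (x⁻¹ * u) := by
        have h4 : x⁻¹ * (u * w * u⁻¹) * x = w := by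
          rw [h2, ← h1]; group
        calc x⁻¹ * u * w = (x⁻¹ * (u * w * u⁻¹) * x) * (x⁻¹ * u) := by group
          _ = w * (x⁻¹ * u) := by rw [h4]
      have h5 : x * (x⁻¹ * u) = (x⁻¹ * u) * x := by
        calc x * (x⁻¹ * u) = u := by group
          _ = x⁻¹ * (x * u) := by group
          _ = x⁻¹ * (u * x) := by rw [hxu]
          _ = _ := by group
      rcases hsub _ (mul_mem (inv_mem hx) hu) h3 h5 with e | e
      · right; right; left
        have : u = x * (x⁻¹ * u) := by group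
        rw [this, e, mul_one]
      · right; right; right
        have : u = x * (x⁻¹ * u) := by group
        rw [this, e]
        exact hcz x hx

/-- The case `Q = D₈`. -/
theorem false_of_exponent_two (h : Setup z Q) (h' : Setup z₁ Q₂) (hz₁Q : z₁ ∈ Q) (hzQ₂ : z ∉ Q₂)
    {g r : G} (hg : z₁ = g * z * g⁻¹) (hQ₂ : ∀ x ∈ Q₂, ∃ a ∈ Q, x = g * a * g⁻¹)
    (hQ₂' : ∀ x ∈ Q, g * x * g⁻¹ ∈ Q₂) (hr : r ∈ Q)
    (hrz : r * z₁ * r⁻¹ = z * z₁) (hq : ∀ q ∈ Q, q * z₁ = z₁ * q → q * q = 1) : False := by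
  have hzi : z⁻¹ = z := h.inv_z
  have hz₁z : z * z₁ = z₁ * z := (h.comm_z z₁ hz₁Q).symm
  have hz₁z₁ := h'.z_sq
  -- the structure of `Q₂`
  have hclaim : ∀ y ∈ Q₂, ∀ u ∈ Q₂, y * u = u * y →
      y = 1 ∨ y = z₁ ∨ u = 1 ∨ u = z₁ ∨ u = y ∨ u = z₁ * y := by
    intro y hy u hu hyu
    obtain ⟨a, ha, rfl⟩ := hQ₂ y hy
    obtain ⟨b, hb, rfl⟩ := hQ₂ u hu
    have hab : a * b = b * a := (conj_comm_iff g a b).mp hyu
    have hone : ∀ c : G, c = 1 → g * c * g⁻¹ = 1 := by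
      intro c hc; rw [hc]; group
    have hzz' : g * z * g⁻¹ = z₁ := hg.symm
    rcases d8_claim h hz₁Q hz₁z₁ hr hrz hq ha hb hab with e | e | e | e | e | e
    · exact Or.inl (hone a e)
    · right; left; rw [e, hzz']
    · right; right; left; exact hone b e
    · right; right; right; left; rw [e, hzz']
    · right; right; right; right; left; rw [e]
    · right; right; right; right; right
      rw [e, hg]; group
  refine false_of_d (_x := g) h h' hz₁Q hzQ₂ hg hQ₂' hr hrz ?_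
  intro y hy
  obtain ⟨hmem, hww, hwz⟩ := d_props h h' hz₁Q hzQ₂ hg hQ₂' hr hrz hy
  have hyy : y * y = 1 ∨ y * y = z₁ := h'.sq y hy
  set w := z * y * z⁻¹ * y⁻¹ with hw
  have hsy : z * y * z⁻¹ = w * y := by rw [hw]; group
  -- `y` and `w` commute
  have hyw : y * w = w * y := by
    have h1 : (w * y) * (w * y) = y * y := by
      rw [← hsy]
      have h2 : z * y * z⁻¹ * (z * y * z⁻¹) = z * (y * y) * z⁻¹ := by group
      rw [h2]
      rcases hyy with e | e <;> rw [e]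
      · group
      · exact mul_inv_eq_of_eq_mul hz₁z
    have h2 : w * y * w = y := by
      have h3 : (w * y * w) * y = y * y := by
        rw [← h1]; group
      exact mul_right_cancel h3
    calc y * w = (w * y * w) * w := by rw [h2]
      _ = w * y * (w * w) := by group
      _ = w * y := by rw [hww, mul_one]
  have hfix : ∀ v : G, (z * y * z⁻¹ = v) → (v = 1 ∨ v = z₁) → w = 1 := by
    intro v hv hv2
    have h1 : y = z * v * z⁻¹ := by
      rw [← hv, hzi]
      calc y = (z * z) * y * (z * z) := by rw [h.z_sq]; group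
        _ = _ := by group
    have h2 : z * v * z⁻¹ = v := by
      rcases hv2 with e | e <;> rw [e]
      · group
      · exact mul_inv_eq_of_eq_mul hz₁z
    rw [h2] at h1
    rw [hw, hv, h1]
    group
  rcases hclaim y hy w hmem hyw with e | e | e | e | e | e
  · left
    rw [hw, e]; group
  · left
    rw [hw, e]
    have : z * z₁ * z⁻¹ = z₁ := mul_inv_eq_of_eq_mul hz₁z
    rw [this]; group
  · exact Or.inl e
  · exact Or.inr e
  · left
    apply hfix (y * y)
    · rw [hsy, e]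
    · exact hyy
  · left
    apply hfix (z₁ * (y * y))
    · rw [hsy, e]; group
    · rcases hyy with e2 | e2 <;> rw [e2]
      · right; simp
      · left; exact hz₁z₁

/-- **Main theorem.** -/
theorem mem_of_conj (h : Setup z Q) {g : G} (hin : g * z * g⁻¹ ∈ Q) (hne : g * z * g⁻¹ ≠ z) :
    z ∈ Q.map (MulAut.conj g).toMonoidHom := by
  have h' := h.conj g
  by_contra hzQ₂
  have hz₁z₁ := h'.z_sq
  have hz₁1 := h'.z_ne
  have hQ₂ : ∀ x ∈ Q.map (MulAut.conj g).toMonoidHom, ∃ a ∈ Q, x = g * a * g⁻¹ := by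
    intro x hx
    obtain ⟨a, ha, rfl⟩ := mem_map_conj.mp hx
    exact ⟨a, ha, rfl⟩
  have hQ₂' : ∀ x ∈ Q, g * x * g⁻¹ ∈ Q.map (MulAut.conj g).toMonoidHom := fun x hx =>
    mem_map_conj.mpr ⟨x, hx, rfl⟩
  obtain ⟨r, hr, hrz⟩ := h.exists_swap hin hz₁z₁ hz₁1 hne
  by_cases hex : ∃ q ∈ Q, q * (g * z * g⁻¹) = (g * z * g⁻¹) * q ∧ q * q = z
  · obtain ⟨q, hq, hqz, hqq⟩ := hex
    exact false_of_square h h' hin hzQ₂ rfl hQ₂' hr hrz hq hqz hqq
  · push Not at hex
    refine false_of_exponent_two h h' hin hzQ₂ rfl hQ₂ hQ₂' hr hrz ?_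
    intro q hq hqz
    rcases h.sq q hq with e | e
    · exact e
    · exact absurd e (hex q hq hqz)

/-- `⟨Q, g Q g⁻¹⟩` induces the full automorphism group on `⟨z, g z g⁻¹⟩`. -/
theorem exists_action (h : Setup z Q) {g : G} (hin : g * z * g⁻¹ ∈ Q) (hne : g * z * g⁻¹ ≠ z) :
    ∀ u ∈ Subgroup.closure ({z, g * z * g⁻¹} : Set G), ∀ v ∈ Subgroup.closure ({z, g * z * g⁻¹} : Set G),
      u ≠ 1 → v ≠ 1 → u ≠ v → ∃ x ∈ Q ⊔ Q.map (MulAut.conj g).toMonoidHom,
        x * z * x⁻¹ = u ∧ x * (g * z * g⁻¹) * x⁻¹ = v := by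
  have h' := h.conj g
  have hzQ₂ := mem_of_conj h hin hne
  generalize hz₁ : g * z * g⁻¹ = z₁ at *
  generalize hQ₂ : Q.map (MulAut.conj g).toMonoidHom = Q₂ at *
  have hz₁z₁ := h'.z_sq
  have hz₁1 := h'.z_ne
  have hzz := h.z_sq
  have hcomm : z₁ * z = z * z₁ := h.comm_z z₁ hin
  have hz₁i : z₁⁻¹ = z₁ := by
    rw [inv_eq_iff_mul_eq_one]; exact hz₁z₁
  have hzi : z⁻¹ = z := h.inv_z
  obtain ⟨r, hr, e2⟩ := h.exists_swap hin hz₁z₁ hz₁1 hne
  obtain ⟨r', hr', e3'⟩ := h'.exists_swap hzQ₂ hzz h.z_ne hne.symm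
  have e1 : r * z * r⁻¹ = z := mul_inv_eq_of_eq_mul (h.comm_z r hr)
  have e3 : r' * z * r'⁻¹ = z * z₁ := by rw [e3', hcomm]
  have e4 : r' * z₁ * r'⁻¹ = z₁ := mul_inv_eq_of_eq_mul (h'.comm_z r' hr')
  have e5 : r * (z * z₁) * r⁻¹ = z₁ := by
    calc r * (z * z₁) * r⁻¹ = (r * z * r⁻¹) * (r * z₁ * r⁻¹) := by group
      _ = z * (z * z₁) := by rw [e1, e2]
      _ = (z * z) * z₁ := by group
      _ = z₁ := by rw [hzz, one_mul]
  have e6 : r' * (z * z₁) * r'⁻¹ = z := by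
    calc r' * (z * z₁) * r'⁻¹ = (r' * z * r'⁻¹) * (r' * z₁ * r'⁻¹) := by group
      _ = (z * z₁) * z₁ := by rw [e3, e4]
      _ = z * (z₁ * z₁) := by group
      _ = z := by rw [hz₁z₁, mul_one]
  have hcj : ∀ a b w : G, (a * b) * w * (a * b)⁻¹ = a * (b * w * b⁻¹) * a⁻¹ := fun a b w => by group
  have hrm : r ∈ Q ⊔ Q₂ := Subgroup.mem_sup_left hr
  have hrm' : r' ∈ Q ⊔ Q₂ := Subgroup.mem_sup_right hr'
  have hcl : ∀ u ∈ Subgroup.closure ({z, z₁} : Set G), u = 1 ∨ u = z ∨ u = z₁ ∨ u = z * z₁ := by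
    intro u hu
    induction hu using Subgroup.closure_induction with
    | mem x hx =>
      rcases hx with rfl | hx
      · exact Or.inr (Or.inl rfl)
      · exact Or.inr (Or.inr (Or.inl hx))
    | one => exact Or.inl rfl
    | mul a b _ _ ha hb =>
      rcases ha with ha | ha | ha | ha <;> rcases hb with hb | hb | hb | hb <;> rw [ha, hb]
      · left; simp
      · right; left; simp
      · right; right; left; simp
      · right; right; right; simp
      · right; left; simp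
      · left; exact hzz
      · right; right; right; rfl
      · right; right; left; rw [← mul_assoc, hzz, one_mul]
      · right; right; left; simp
      · right; right; right; exact hcomm
      · left; exact hz₁z₁
      · right; left
        calc z₁ * (z * z₁) = (z₁ * z) * z₁ := by group
          _ = (z * z₁) * z₁ := by rw [hcomm]
          _ = z * (z₁ * z₁) := by group
          _ = z := by rw [hz₁z₁, mul_one]
      · right; right; right; simp
      · right; right; left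
        calc z * z₁ * z = z * (z₁ * z) := by group
          _ = z * (z * z₁) := by rw [hcomm]
          _ = (z * z) * z₁ := by group
          _ = z₁ := by rw [hzz, one_mul]
      · right; left
        rw [mul_assoc, hz₁z₁, mul_one]
      · left
        calc z * z₁ * (z * z₁) = z * (z₁ * z) * z₁ := by group
          _ = z * (z * z₁) * z₁ := by rw [hcomm]
          _ = (z * z) * (z₁ * z₁) := by group
          _ = 1 := by rw [hzz, hz₁z₁, one_mul]
    | inv a _ ha =>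
      rcases ha with ha | ha | ha | ha <;> rw [ha]
      · left; simp
      · right; left; exact hzi
      · right; right; left; exact hz₁i
      · right; right; right
        rw [mul_inv_rev, hzi, hz₁i, hcomm]
  intro u hu v hv hu1 hv1 huv
  rcases hcl u hu with rfl | rfl | rfl | rfl
  · exact absurd rfl hu1
  · rcases hcl v hv with rfl | rfl | rfl | rfl
    · exact absurd rfl hv1
    · exact absurd rfl huv
    · exact ⟨1, one_mem _, by simp, by simp⟩
    · exact ⟨r, hrm, e1, e2⟩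
  · rcases hcl v hv with rfl | rfl | rfl | rfl
    · exact absurd rfl hv1
    · exact ⟨r * r' * r, mul_mem (mul_mem hrm hrm') hrm, by
        rw [hcj, hcj, e1, e3, e5], by
        rw [hcj, hcj, e2, e6, e1]⟩
    · exact absurd rfl huv
    · exact ⟨r * r', mul_mem hrm hrm', by
        rw [hcj, e3, e5], by
        rw [hcj, e4, e2]⟩
  · rcases hcl v hv with rfl | rfl | rfl | rfl
    · exact absurd rfl hv1
    · exact ⟨r' * r, mul_mem hrm' hrm, by
        rw [hcj, e1, e3], by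
        rw [hcj, e2, e6]⟩
    · exact ⟨r', hrm', e3, e4⟩
    · exact absurd rfl huv

end Setup

end Cfsg.Agent.Lib.TI.SympConj
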