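import Cfsg.Agent.S1757
import Cfsg.Agent.Lib.TI.Basic
import Cfsg.Agent.Lib.PGroups.Basic

/-!
An elementary abelian TI `2`-subgroup `V` with `F*(N(V)) = O₂(N(V))`, `V` maximal abelian normal in
`N(V)`, and a conjugate `V^g ≠ V` in `O₂(N(V))`.

This file: the abstract setting `Setup V Q` and the structure of `P = C_Q(V)`.
-/

set_option autoImplicit false

namespace Cfsg.Agent.Lib.TI.TwoTI

open scoped commutatorElement
open Cfsg.Agent.Lib.TI.Basic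

variable {G : Type*} [Group G]

/-- Conjugate of a subgroup. -/
abbrev cj (g : G) (A : Subgroup G) : Subgroup G := A.map (MulAut.conj g).toMonoidHom

/-- The normalizer of a subgroup. -/
abbrev NN (V : Subgroup G) : Subgroup G := Subgroup.normalizer (V : Set G)

/-- `C_Q(V)`. -/
abbrev cP (V Q : Subgroup G) : Subgroup G := Q ⊓ Subgroup.centralizer (V : Set G)

theorem mem_cj {g x : G} {A : Subgroup G} : x ∈ cj g A ↔ g⁻¹ * x * g ∈ A := mem_conj_iff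

theorem conj_mem_cj {g a : G} {A : Subgroup G} (ha : a ∈ A) : g * a * g⁻¹ ∈ cj g A := conj_mem ha

theorem mem_cP {V Q : Subgroup G} {x : G} : x ∈ cP V Q ↔ x ∈ Q ∧ ∀ v ∈ V, x * v = v * x := by
  rw [Subgroup.mem_inf, Subgroup.mem_centralizer_iff]
  constructor
  · rintro ⟨h1, h2⟩
    exact ⟨h1, fun v hv => (h2 v hv).symm⟩
  · rintro ⟨h1, h2⟩
    exact ⟨h1, fun v hv => (h2 v hv).symm⟩

theorem mem_NN_iff {V : Subgroup G} {m : G} : m ∈ NN V ↔ ∀ h, h ∈ V ↔ m * h * m⁻¹ ∈ V :=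
  Subgroup.mem_normalizer_iff

theorem NN_conj {V : Subgroup G} {m v : G} (hm : m ∈ NN V) (hv : v ∈ V) : m * v * m⁻¹ ∈ V :=
  (mem_NN_iff.mp hm v).mp hv

theorem NN_of_conj {V : Subgroup G} {m : G} (h : ∀ v ∈ V, m * v * m⁻¹ ∈ V)
    (h' : ∀ v ∈ V, m⁻¹ * v * m ∈ V) : m ∈ NN V := by
  rw [mem_NN_iff]
  intro x
  constructor
  · exact h x
  · intro hx
    have := h' _ hx
    simpa [mul_assoc] using this

theorem mem_NN_cj {V : Subgroup G} {g m : G} : m ∈ NN (cj g V) ↔ g⁻¹ * m * g ∈ NN V := by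
  constructor
  · intro hm
    apply NN_of_conj
    · intro v hv
      have h1 : m * (g * v * g⁻¹) * m⁻¹ ∈ cj g V := NN_conj hm (conj_mem_cj hv)
      rw [mem_cj] at h1
      have h2 : g⁻¹ * m * g * v * (g⁻¹ * m * g)⁻¹ = g⁻¹ * (m * (g * v * g⁻¹) * m⁻¹) * g := by group
      rw [h2]; exact h1
    · intro v hv
      have h1 : m⁻¹ * (g * v * g⁻¹) * m⁻¹⁻¹ ∈ cj g V := NN_conj (Subgroup.inv_mem _ hm) (conj_mem_cj hv)
      rw [mem_cj] at h1
      have h2 : (g⁻¹ * m * g)⁻¹ * v * (g⁻¹ * m * g) = g⁻¹ * (m⁻¹ * (g * v * g⁻¹) * m⁻¹⁻¹) * g := by group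
      rw [h2]; exact h1
  · intro hm
    apply NN_of_conj
    · intro v hv
      rw [mem_cj] at hv ⊢
      have h1 := NN_conj hm hv
      have h2 : g⁻¹ * (m * v * m⁻¹) * g = g⁻¹ * m * g * (g⁻¹ * v * g) * (g⁻¹ * m * g)⁻¹ := by group
      rw [h2]; exact h1
    · intro v hv
      rw [mem_cj] at hv ⊢
      have h1 := NN_conj (Subgroup.inv_mem _ hm) hv
      have h2 : g⁻¹ * (m⁻¹ * v * m) * g = (g⁻¹ * m * g)⁻¹ * (g⁻¹ * v * g) * (g⁻¹ * m * g)⁻¹⁻¹ := by group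
      rw [h2]; exact h1

theorem isPGroup_cj {A : Subgroup G} (g : G) (hA : IsPGroup 2 A) : IsPGroup 2 (cj g A) := by
  rintro ⟨x, hx⟩
  obtain ⟨k, hk⟩ := hA ⟨g⁻¹ * x * g, mem_cj.mp hx⟩
  refine ⟨k, ?_⟩
  apply Subtype.ext
  have h1 : (g⁻¹ * x * g) ^ (2 ^ k) = 1 := by
    have := congrArg Subtype.val hk
    simpa using this
  have h2 : g⁻¹ * x ^ (2 ^ k) * g = 1 := by
    have h3 : (g⁻¹ * x * g) ^ (2 ^ k) = g⁻¹ * x ^ (2 ^ k) * g := by
      have := conj_pow (a := g⁻¹) (b := x) (i := 2 ^ k)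
      simpa using this
    rw [← h3]; exact h1
  have h3 : x ^ (2 ^ k) = 1 := by
    have h4 : x ^ (2 ^ k) = g * (g⁻¹ * x ^ (2 ^ k) * g) * g⁻¹ := by group
    rw [h4, h2]; group
  simpa using h3

theorem card_cj (g : G) (A : Subgroup G) : Nat.card (cj g A) = Nat.card A :=
  Subgroup.card_map_of_injective (MulAut.conj g).injective

theorem cj_cj (g h : G) (A : Subgroup G) : cj h (cj g A) = cj (h * g) A := map_conj_map_conj A g h

theorem cj_one (A : Subgroup G) : cj 1 A = A := by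
  ext x
  simp [mem_cj]

/-- The setting. -/
structure Setup (V Q : Subgroup G) : Prop where
  sq : ∀ v ∈ V, v * v = 1
  Q_le : Q ≤ NN V
  Q_norm : ∀ m ∈ NN V, ∀ z ∈ Q, m * z * m⁻¹ ∈ Q
  V_le : V ≤ Q
  two : IsPGroup 2 Q
  cent : ∀ m ∈ NN V, (∀ z ∈ Q, m * z = z * m) → m ∈ Q
  max : ∀ K : Subgroup G, K ≤ NN V → (∀ m ∈ NN V, ∀ k ∈ K, m * k * m⁻¹ ∈ K) → IsPGroup 2 K → K ≤ Q
  h2 : ∀ A : Subgroup G, V ≤ A → A ≤ NN V → (∀ a ∈ A, ∀ b ∈ A, a * b = b * a) →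
    (∀ m ∈ NN V, ∀ a ∈ A, m * a * m⁻¹ ∈ A) → A ≤ V
  ti : ∀ x : G, cj x V = V ∨ cj x V ⊓ V = ⊥

namespace Setup

variable {V Q : Subgroup G}

/-- The setting is invariant under conjugation. -/
theorem conj (S : Setup V Q) (g : G) : Setup (cj g V) (cj g Q) := by
  have hrep : ∀ b : G, g * (g⁻¹ * b * g) * g⁻¹ = b := fun b => by group
  have hrep' : ∀ b : G, g⁻¹ * (g * b * g⁻¹) * g = b := fun b => by group
  refine ⟨?_, ?_, ?_, ?_, ?_, ?_, ?_, ?_, ?_⟩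
  · intro v hv
    have h1 := S.sq _ (mem_cj.mp hv)
    have h2 : v * v = g * ((g⁻¹ * v * g) * (g⁻¹ * v * g)) * g⁻¹ := by group
    rw [h2, h1]; group
  · intro z hz
    rw [mem_NN_cj]
    exact S.Q_le (mem_cj.mp hz)
  · intro m hm z hz
    rw [mem_cj] at hz ⊢
    have h1 := S.Q_norm _ (mem_NN_cj.mp hm) _ hz
    have h2 : g⁻¹ * (m * z * m⁻¹) * g = g⁻¹ * m * g * (g⁻¹ * z * g) * (g⁻¹ * m * g)⁻¹ := by group
    rw [h2]; exact h1
  · exact Subgroup.map_mono S.V_le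
  · exact isPGroup_cj g S.two
  · intro m hm hc
    rw [mem_cj]
    apply S.cent _ (mem_NN_cj.mp hm)
    intro z hz
    have h1 := hc (g * z * g⁻¹) (conj_mem_cj hz)
    have h2 : g⁻¹ * m * g * z = g⁻¹ * (m * (g * z * g⁻¹)) * g := by group
    rw [h2, h1]; group
  · intro K hK hn hp
    have h1 := S.max (cj g⁻¹ K)
      (by
        intro k hk
        rw [mem_cj] at hk
        have h2 := hK hk
        rw [mem_NN_cj] at h2
        simpa only [inv_inv, hrep'] using h2)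
      (by
        intro m hm k hk
        rw [mem_cj] at hk ⊢
        have h2 := hn (g * m * g⁻¹) (mem_NN_cj.mpr (by
          have h3 : g⁻¹ * (g * m * g⁻¹) * g = m := by group
          rw [h3]; exact hm)) _ hk
        have h3 : g⁻¹⁻¹ * (m * k * m⁻¹) * g⁻¹ = g * m * g⁻¹ * (g⁻¹⁻¹ * k * g⁻¹) * (g * m * g⁻¹)⁻¹ := by
          group
        rw [h3]; exact h2)
      (isPGroup_cj g⁻¹ hp)
    intro k hk
    rw [mem_cj]
    apply h1
    rw [mem_cj]
    simpa only [inv_inv, hrep] using hk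
  · intro A hVA hAN hc hn a ha
    have h1 := S.h2 (cj g⁻¹ A)
      (by
        intro v hv
        rw [mem_cj]
        apply hVA
        rw [mem_cj]
        simpa only [inv_inv, hrep'] using hv)
      (by
        intro k hk
        rw [mem_cj] at hk
        have h2 := hAN hk
        rw [mem_NN_cj] at h2
        simpa only [inv_inv, hrep'] using h2)
      (by
        intro a ha b hb
        rw [mem_cj] at ha hb
        have h2 := hc _ ha _ hb
        have h3 : a = g⁻¹⁻¹⁻¹ * (g⁻¹⁻¹ * a * g⁻¹) * g⁻¹⁻¹ := by group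
        have h4 : b = g⁻¹⁻¹⁻¹ * (g⁻¹⁻¹ * b * g⁻¹) * g⁻¹⁻¹ := by group
        rw [h3, h4]
        have h5 : ∀ s t : G, g⁻¹⁻¹⁻¹ * s * g⁻¹⁻¹ * (g⁻¹⁻¹⁻¹ * t * g⁻¹⁻¹) = g⁻¹⁻¹⁻¹ * (s * t) * g⁻¹⁻¹ := by
          intro s t; group
        rw [h5, h5, h2])
      (by
        intro m hm k hk
        rw [mem_cj] at hk ⊢
        have h2 := hn (g * m * g⁻¹) (mem_NN_cj.mpr (by
          have h3 : g⁻¹ * (g * m * g⁻¹) * g = m := by group
          rw [h3]; exact hm)) _ hk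
        have h3 : g⁻¹⁻¹ * (m * k * m⁻¹) * g⁻¹ = g * m * g⁻¹ * (g⁻¹⁻¹ * k * g⁻¹) * (g * m * g⁻¹)⁻¹ := by
          group
        rw [h3]; exact h2)
    rw [mem_cj]
    apply h1
    rw [mem_cj]
    simpa only [inv_inv, hrep] using ha
  · exact ti_conj S.ti g

theorem V_comm (S : Setup V Q) {v w : G} (hv : v ∈ V) (hw : w ∈ V) : v * w = w * v := by
  have h1 := S.sq _ (V.mul_mem hv hw)
  have h2 := S.sq _ hv
  have h3 := S.sq _ hw
  have hvi : v⁻¹ = v := inv_eq_of_mul_eq_one_left h2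
  have hwi : w⁻¹ = w := inv_eq_of_mul_eq_one_left h3
  have h4 : (v * w)⁻¹ = v * w := inv_eq_of_mul_eq_one_left h1
  rw [mul_inv_rev, hvi, hwi] at h4
  exact h4.symm

theorem inv_V (S : Setup V Q) {v : G} (hv : v ∈ V) : v⁻¹ = v :=
  inv_eq_of_mul_eq_one_left (S.sq v hv)

theorem V_le_cP (S : Setup V Q) : V ≤ cP V Q := by
  intro v hv
  exact mem_cP.mpr ⟨S.V_le hv, fun w hw => S.V_comm hv hw⟩

theorem cP_le (S : Setup V Q) : cP V Q ≤ NN V := fun _ hx => S.Q_le (mem_cP.mp hx).1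

theorem V_central (S : Setup V Q) {x v : G} (hx : x ∈ cP V Q) (hv : v ∈ V) : x * v = v * x :=
  (mem_cP.mp hx).2 v hv

theorem cP_norm (S : Setup V Q) {m x : G} (hm : m ∈ NN V) (hx : x ∈ cP V Q) :
    m * x * m⁻¹ ∈ cP V Q := by
  rw [mem_cP] at hx ⊢
  refine ⟨S.Q_norm m hm x hx.1, fun v hv => ?_⟩
  have h1 := hx.2 _ (NN_conj (Subgroup.inv_mem _ hm) hv)
  simp only [inv_inv] at h1
  have h2 : m * x * m⁻¹ * v = m * (x * (m⁻¹ * v * m)) * m⁻¹ := by group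
  rw [h2, h1]; group

/-- The TI property, in a form for elements. -/
theorem ti_eq (S : Setup V Q) {a b w : G} (hw : w ≠ 1) (h1 : w ∈ cj a V) (h2 : w ∈ cj b V) :
    cj a V = cj b V := by
  rw [mem_cj] at h1 h2
  rcases S.ti (a⁻¹ * b) with h | h
  · have := congrArg (cj a) h
    rw [cj_cj] at this
    rw [← this]
    simp
  · exfalso
    have h3 : a⁻¹ * w * a ∈ cj (a⁻¹ * b) V ⊓ V := by
      refine ⟨mem_cj.mpr ?_, h1⟩
      have h4 : (a⁻¹ * b)⁻¹ * (a⁻¹ * w * a) * (a⁻¹ * b) = b⁻¹ * w * b := by group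
      rw [h4]; exact h2
    rw [h, Subgroup.mem_bot] at h3
    apply hw
    have h4 : w = a * (a⁻¹ * w * a) * a⁻¹ := by group
    rw [h4, h3]; group

theorem inter_eq_one (S : Setup V Q) {h u : G} (hne : cj h V ≠ V) (hu : u ∈ cj h V) (hv : u ∈ V) :
    u = 1 := by
  by_contra h1
  apply hne
  have h2 := S.ti_eq (a := h) (b := 1) h1 hu (by rw [cj_one]; exact hv)
  rw [h2, cj_one]

variable [Finite G]

/-- Conjugates of `V` in `Q` other than `V` centralize `V`. -/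
theorem comm_of_conj (S : Setup V Q) {h : G} (hne : cj h V ≠ V) (hle : cj h V ≤ Q) {u v : G}
    (hu : u ∈ cj h V) (hv : v ∈ V) : u * v = v * u := by
  have hF : Fact (Nat.Prime 2) := ⟨Nat.prime_two⟩
  have hV2 : IsPGroup 2 V := S.two.to_le S.V_le
  have := Cfsg.Agent.S1757.commute_of_normalizes V (cj h V)
    (fun x _ => ti_conj S.ti h x)
    (by rw [card_cj])
    (by
      rw [eq_bot_iff]
      rintro x ⟨hx1, hx2⟩
      exact S.inter_eq_one hne hx2 hx1)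
    (le_trans hle S.Q_le) v hv u hu
  exact this

theorem conj_le_cP (S : Setup V Q) {h : G} (hne : cj h V ≠ V) (hle : cj h V ≤ Q) :
    cj h V ≤ cP V Q := fun _ hu =>
  mem_cP.mpr ⟨hle hu, fun _ hv => S.comm_of_conj hne hle hu hv⟩

end Setup

end Cfsg.Agent.Lib.TI.TwoTI
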