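import Cfsg.Agent.Lib.TI.TwoTI

/-!
Structure of `P = C_Q(V)`: class two with `V` containing all squares, and the bilinear pairing
between conjugates of `V` in `P`.
-/

set_option autoImplicit false

namespace Cfsg.Agent.Lib.TI.TwoTI

open scoped commutatorElement
open Cfsg.Agent.Lib.TI.Basic Cfsg.Agent.Lib.PGroups.Basic

variable {G : Type*} [Group G]

theorem exists_central_mod {X : Type*} [Group X] [Finite X] (hX : IsPGroup 2 X) (A D : Subgroup X)
    [A.Normal] [D.Normal] (h : ¬ D ≤ A) : ∃ k ∈ D, k ∉ A ∧ ∀ x, x * k * x⁻¹ * k⁻¹ ∈ A := by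
  have hF : Fact (Nat.Prime 2) := ⟨Nat.prime_two⟩
  obtain ⟨k₀, hk₀, hk₀A⟩ := Set.not_subset.mp h
  let N : Subgroup (X ⧸ A) := D.map (QuotientGroup.mk' A)
  have hNn : N.Normal := Subgroup.Normal.map inferInstance _ (QuotientGroup.mk'_surjective A)
  have hNne : N ≠ ⊥ := by
    intro h1
    have h2 : QuotientGroup.mk' A k₀ ∈ N := ⟨k₀, hk₀, rfl⟩
    rw [h1, Subgroup.mem_bot] at h2
    exact hk₀A ((QuotientGroup.eq_one_iff k₀).mp h2)
  obtain ⟨zb, hzbN, hzbZ, hzbo⟩ := exists_central_orderOf_eq (hX.to_quotient A) N hNne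
  obtain ⟨k, hkD, rfl⟩ := hzbN
  refine ⟨k, hkD, ?_, ?_⟩
  · intro h1
    have h2 : QuotientGroup.mk' A k = 1 := (QuotientGroup.eq_one_iff k).mpr h1
    rw [h2, orderOf_one] at hzbo
    norm_num at hzbo
  · intro x
    rw [← QuotientGroup.eq_one_iff]
    have h1 := Subgroup.mem_center_iff.mp hzbZ (QuotientGroup.mk' A x)
    change (QuotientGroup.mk' A x) * (QuotientGroup.mk' A k) * (QuotientGroup.mk' A x)⁻¹ *
      (QuotientGroup.mk' A k)⁻¹ = 1
    rw [h1]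
    group

namespace Setup

variable {V Q : Subgroup G}

/-- `Z(R) = V` for the `N(V)`-invariant subgroups between `V` and `P`. -/
theorem center_le (S : Setup V Q) (R : Subgroup G) (hVR : V ≤ R) (hRP : R ≤ cP V Q)
    (hinv : ∀ m ∈ NN V, ∀ r ∈ R, m * r * m⁻¹ ∈ R) {t : G} (ht : t ∈ R)
    (hc : ∀ r ∈ R, t * r = r * t) : t ∈ V := by
  refine S.h2 (R ⊓ Subgroup.centralizer (R : Set G)) ?_ ?_ ?_ ?_
    ⟨ht, Subgroup.mem_centralizer_iff.mpr fun r hr => (hc r hr).symm⟩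
  · intro v hv
    refine ⟨hVR hv, Subgroup.mem_centralizer_iff.mpr fun r hr => ?_⟩
    exact S.V_central (hRP hr) hv
  · exact fun x hx => S.cP_le (hRP hx.1)
  · intro a ha b hb
    exact Subgroup.mem_centralizer_iff.mp hb.2 a ha.1
  · intro m hm a ha
    refine ⟨hinv m hm a ha.1, Subgroup.mem_centralizer_iff.mpr fun r hr => ?_⟩
    have h1 := hinv m⁻¹ (Subgroup.inv_mem _ hm) r hr
    have h2 := Subgroup.mem_centralizer_iff.mp ha.2 _ h1
    simp only [inv_inv] at h2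
    have h3 : r * (m * a * m⁻¹) = m * (m⁻¹ * r * m * a) * m⁻¹ := by group
    rw [h3, h2]
    group

theorem center_le_cP (S : Setup V Q) {t : G} (ht : t ∈ cP V Q) (hc : ∀ r ∈ cP V Q, t * r = r * t) :
    t ∈ V :=
  S.center_le (cP V Q) S.V_le_cP le_rfl (fun _ hm _ hr => S.cP_norm hm hr) ht hc

variable [Finite G]

/-- All squares of `P` lie in `V`. -/
theorem sq_mem (S : Setup V Q) {x : G} (hx : x ∈ cP V Q) : x * x ∈ V := by
  classical
  let T : Set G := {y | y ∈ V ∨ ∃ x ∈ cP V Q, y = x * x}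
  let D : Subgroup G := Subgroup.closure T
  have hVD : V ≤ D := fun v hv => Subgroup.subset_closure (Or.inl hv)
  have hDP : D ≤ cP V Q := by
    rw [Subgroup.closure_le]
    rintro y (hy | ⟨x, hx, rfl⟩)
    · exact S.V_le_cP hy
    · exact (cP V Q).mul_mem hx hx
  have hDinv : ∀ m ∈ NN V, ∀ r ∈ D, m * r * m⁻¹ ∈ D := by
    intro m hm r hr
    induction hr using Subgroup.closure_induction with
    | mem y hy =>
      rcases hy with hy | ⟨x, hx, rfl⟩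
      · exact hVD (NN_conj hm hy)
      · apply Subgroup.subset_closure
        refine Or.inr ⟨m * x * m⁻¹, S.cP_norm hm hx, ?_⟩
        group
    | one => simp [D.one_mem]
    | mul a b _ _ ha hb =>
      have : m * (a * b) * m⁻¹ = m * a * m⁻¹ * (m * b * m⁻¹) := by group
      rw [this]
      exact D.mul_mem ha hb
    | inv a _ ha =>
      have : m * a⁻¹ * m⁻¹ = (m * a * m⁻¹)⁻¹ := by group
      rw [this]
      exact D.inv_mem ha
  by_contra hxV
  have hDV : ¬ D ≤ V := fun h => hxV (h (Subgroup.subset_closure (Or.inr ⟨x, hx, rfl⟩)))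
  -- pass to `P`
  have hPp : IsPGroup 2 (cP V Q) := S.two.to_le inf_le_left
  have hA : (V.subgroupOf (cP V Q)).Normal := ⟨by
    intro n hn g
    rw [Subgroup.mem_subgroupOf] at hn ⊢
    exact NN_conj (S.cP_le g.2) hn⟩
  have hD : (D.subgroupOf (cP V Q)).Normal := ⟨by
    intro n hn g
    rw [Subgroup.mem_subgroupOf] at hn ⊢
    exact hDinv _ (S.cP_le g.2) _ hn⟩
  obtain ⟨k, hkD, hkV, hk⟩ := exists_central_mod hPp (V.subgroupOf (cP V Q)) (D.subgroupOf (cP V Q))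
    (by
      intro h
      apply hDV
      intro d hd
      have := h (Subgroup.mem_subgroupOf.mpr (show ((⟨d, hDP hd⟩ : cP V Q) : G) ∈ D from hd))
      exact Subgroup.mem_subgroupOf.mp this)
  rw [Subgroup.mem_subgroupOf] at hkD hkV
  -- squares commute with `k`
  have hsq : ∀ y ∈ cP V Q, (y * y) * k.1 = k.1 * (y * y) := by
    intro y hy
    set a := y * k.1 * y⁻¹ * k.1⁻¹ with ha
    have haV : a ∈ V := by
      have := hk ⟨y, hy⟩
      rw [Subgroup.mem_subgroupOf] at this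
      simpa using this
    have h1 : y * k.1 * y⁻¹ = a * k.1 := by rw [ha]; group
    have h2 : y * a = a * y := S.V_central hy haV
    have h3 : y * (a * k.1) * y⁻¹ = a * (y * k.1 * y⁻¹) := by
      calc y * (a * k.1) * y⁻¹ = (y * a) * k.1 * y⁻¹ := by group
        _ = a * (y * k.1 * y⁻¹) := by rw [h2]; group
    have h4 : y * (y * k.1 * y⁻¹) * y⁻¹ = k.1 := by
      rw [h1, h3, h1, ← mul_assoc, S.sq a haV, one_mul]
    calc (y * y) * k.1 = (y * (y * k.1 * y⁻¹) * y⁻¹) * (y * y) := by group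
      _ = k.1 * (y * y) := by rw [h4]
  have hkc : ∀ r ∈ D, k.1 * r = r * k.1 := by
    intro r hr
    induction hr using Subgroup.closure_induction with
    | mem y hy =>
      rcases hy with hy | ⟨x, hx, rfl⟩
      · exact S.V_central k.2 hy
      · exact (hsq x hx).symm
    | one => simp
    | mul a b _ _ ha hb =>
      rw [← mul_assoc, ha, mul_assoc, hb, mul_assoc]
    | inv a _ ha =>
      exact (show Commute k.1 a from ha).inv_right
  exact hkV (S.center_le D hVD hDP hDinv hkD hkc)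

theorem comm_mem (S : Setup V Q) {x y : G} (hx : x ∈ cP V Q) (hy : y ∈ cP V Q) : ⁅x, y⁆ ∈ V := by
  have h1 : ⁅x, y⁆ = ((x * y) * (x * y)) * ((y⁻¹ * x⁻¹ * y) * (y⁻¹ * x⁻¹ * y)) * (y⁻¹ * y⁻¹) := by
    rw [commutatorElement_def]
    group
  rw [h1]
  have hP := cP V Q
  exact V.mul_mem (V.mul_mem (S.sq_mem ((cP V Q).mul_mem hx hy))
    (S.sq_mem ((cP V Q).mul_mem ((cP V Q).mul_mem ((cP V Q).inv_mem hy) ((cP V Q).inv_mem hx)) hy)))
    (S.sq_mem ((cP V Q).inv_mem hy))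

theorem comm_central (S : Setup V Q) {x y z : G} (hx : x ∈ cP V Q) (hy : y ∈ cP V Q)
    (hz : z ∈ cP V Q) : z * ⁅x, y⁆ = ⁅x, y⁆ * z :=
  S.V_central hz (S.comm_mem hx hy)

theorem comm_mul_left (S : Setup V Q) {x y z : G} (hx : x ∈ cP V Q) (hy : y ∈ cP V Q)
    (hz : z ∈ cP V Q) : ⁅x * y, z⁆ = ⁅x, z⁆ * ⁅y, z⁆ := by
  have h1 : ⁅x * y, z⁆ = (x * ⁅y, z⁆ * x⁻¹) * ⁅x, z⁆ := by
    simp only [commutatorElement_def]
    group
  rw [h1, S.comm_central hy hz hx]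
  have h2 := S.V_comm (S.comm_mem hy hz) (S.comm_mem hx hz)
  rw [mul_inv_cancel_right, h2]

theorem comm_mul_right (S : Setup V Q) {x y z : G} (hx : x ∈ cP V Q) (hy : y ∈ cP V Q)
    (hz : z ∈ cP V Q) : ⁅x, y * z⁆ = ⁅x, y⁆ * ⁅x, z⁆ := by
  have h1 : ⁅x, y * z⁆ = ⁅x, y⁆ * (y * ⁅x, z⁆ * y⁻¹) := by
    simp only [commutatorElement_def]
    group
  rw [h1, S.comm_central hx hz hy, mul_inv_cancel_right]

theorem comm_swap (S : Setup V Q) {x y : G} (hx : x ∈ cP V Q) (hy : y ∈ cP V Q) :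
    ⁅y, x⁆ = ⁅x, y⁆ := by
  rw [← commutatorElement_inv]
  exact S.inv_V (S.comm_mem hx hy)

theorem comm_inv_left (S : Setup V Q) {x y : G} (hx : x ∈ cP V Q) (hy : y ∈ cP V Q) :
    ⁅x⁻¹, y⁆ = ⁅x, y⁆ := by
  have h1 := S.comm_mul_left ((cP V Q).inv_mem hx) hx hy
  rw [inv_mul_cancel, commutatorElement_one_left] at h1
  have h2 : ⁅x⁻¹, y⁆ = ⁅x, y⁆⁻¹ := eq_inv_of_mul_eq_one_left h1.symm
  rw [h2, S.inv_V (S.comm_mem hx hy)]

theorem comm_inv_right (S : Setup V Q) {x y : G} (hx : x ∈ cP V Q) (hy : y ∈ cP V Q) :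
    ⁅x, y⁻¹⁆ = ⁅x, y⁆ := by
  rw [← S.comm_swap hx ((cP V Q).inv_mem hy), S.comm_inv_left hy hx, S.comm_swap hx hy]

omit [Finite G] in
/-- The conjugation formula. -/
theorem conj_eq_comm_mul (x y : G) : x * y * x⁻¹ = ⁅x, y⁆ * y := by
  rw [commutatorElement_def]
  group

omit [Finite G] in
theorem comm_eq_one {x y : G} : ⁅x, y⁆ = 1 ↔ x * y = y * x := commutatorElement_eq_one_iff_mul_comm

/-- `C_P(u) = C_P(U)`. -/
theorem comm_eq_one_of (S : Setup V Q) {h x u u' : G} (hne : cj h V ≠ V) (hle : cj h V ≤ Q)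
    (hx : x ∈ cP V Q) (hu : u ∈ cj h V) (hu1 : u ≠ 1) (hc : ⁅x, u⁆ = 1) (hu' : u' ∈ cj h V) :
    ⁅x, u'⁆ = 1 := by
  have hxu : x * u = u * x := comm_eq_one.mp hc
  have h1 : u ∈ cj (x * h) V := by
    have h2 : x * u * x⁻¹ ∈ cj x (cj h V) := conj_mem_cj hu
    rw [cj_cj] at h2
    rwa [hxu, mul_inv_cancel_right] at h2
  have h2 : cj (x * h) V = cj h V := S.ti_eq hu1 h1 hu
  have h3 : x * u' * x⁻¹ ∈ cj h V := by
    rw [← h2, ← cj_cj]
    exact conj_mem_cj hu'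
  have h4 : ⁅x, u'⁆ ∈ cj h V := by
    rw [commutatorElement_def]
    exact (cj h V).mul_mem h3 ((cj h V).inv_mem hu')
  exact S.inter_eq_one hne h4 (S.comm_mem hx (S.conj_le_cP hne hle hu'))

theorem comm_hom_inj (S : Setup V Q) {h x u u' u₀ : G} (hne : cj h V ≠ V) (hle : cj h V ≤ Q)
    (hx : x ∈ cP V Q) (hu₀ : u₀ ∈ cj h V) (hxu₀ : ⁅x, u₀⁆ ≠ 1) (hu : u ∈ cj h V) (hu' : u' ∈ cj h V)
    (heq : ⁅x, u⁆ = ⁅x, u'⁆) : u = u' := by
  by_contra hne'
  apply hxu₀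
  have hP := S.conj_le_cP hne hle
  have h1 : ⁅x, u * u'⁻¹⁆ = 1 := by
    rw [S.comm_mul_right hx (hP hu) ((cP V Q).inv_mem (hP hu')), S.comm_inv_right hx (hP hu'), heq,
      S.sq _ (S.comm_mem hx (hP hu'))]
  exact S.comm_eq_one_of hne hle hx ((cj h V).mul_mem hu ((cj h V).inv_mem hu'))
    (fun h2 => hne' (mul_inv_eq_one.mp h2)) h1 hu₀

/-- If `x ∈ P` does not centralize `U`, then `u ↦ [x, u]` is onto `V`. -/
theorem exists_comm_eq (S : Setup V Q) {h x u₀ v : G} (hne : cj h V ≠ V) (hle : cj h V ≤ Q)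
    (hx : x ∈ cP V Q) (hu₀ : u₀ ∈ cj h V) (hxu₀ : ⁅x, u₀⁆ ≠ 1) (hv : v ∈ V) :
    ∃ u ∈ cj h V, ⁅x, u⁆ = v := by
  have hP := S.conj_le_cP hne hle
  let f : cj h V → V := fun u => ⟨⁅x, u.1⁆, S.comm_mem hx (hP u.2)⟩
  have hf : Function.Injective f := by
    intro a b hab
    apply Subtype.ext
    exact S.comm_hom_inj hne hle hx hu₀ hxu₀ a.2 b.2 (congrArg Subtype.val hab)
  have hbij : Function.Bijective f := (Nat.bijective_iff_injective_and_card f).mpr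
    ⟨hf, card_cj h V⟩
  obtain ⟨u, hu⟩ := hbij.2 ⟨v, hv⟩
  exact ⟨u.1, u.2, congrArg Subtype.val hu⟩

/-- An element of a conjugate `U ≠ V` is not central modulo the conjugates. -/
theorem exists_noncomm (S : Setup V Q) {g u : G} (hne : cj g V ≠ V) (hle : cj g V ≤ Q)
    (hu : u ∈ cj g V) (hu1 : u ≠ 1) :
    ∃ h, cj h V ≠ V ∧ cj h V ≤ Q ∧ ∃ t ∈ cj h V, ⁅u, t⁆ ≠ 1 := by
  classical
  let T : Set G := {y | ∃ h, y ∈ cj h V ∧ cj h V ≤ Q}
  let L : Subgroup G := Subgroup.closure T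
  have hVL : V ≤ L := fun v hv => Subgroup.subset_closure
    ⟨1, by rw [cj_one]; exact hv, by rw [cj_one]; exact S.V_le⟩
  have huP := S.conj_le_cP hne hle hu
  have hLP : L ≤ cP V Q := by
    rw [Subgroup.closure_le]
    rintro y ⟨h, hy, hh⟩
    by_cases hV : cj h V = V
    · rw [hV] at hy
      exact S.V_le_cP hy
    · exact S.conj_le_cP hV hh hy
  have hLinv : ∀ m ∈ NN V, ∀ r ∈ L, m * r * m⁻¹ ∈ L := by
    intro m hm r hr
    induction hr using Subgroup.closure_induction with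
    | mem y hy =>
      obtain ⟨h, hy, hh⟩ := hy
      apply Subgroup.subset_closure
      refine ⟨m * h, ?_, ?_⟩
      · rw [← cj_cj]
        exact conj_mem_cj hy
      · rw [← cj_cj]
        intro z hz
        rw [mem_cj] at hz
        have h1 := S.Q_norm m hm _ (hh hz)
        simpa [mul_assoc] using h1
    | one => simp [L.one_mem]
    | mul a b _ _ ha hb =>
      have : m * (a * b) * m⁻¹ = m * a * m⁻¹ * (m * b * m⁻¹) := by group
      rw [this]
      exact L.mul_mem ha hb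
    | inv a _ ha =>
      have : m * a⁻¹ * m⁻¹ = (m * a * m⁻¹)⁻¹ := by group
      rw [this]
      exact L.inv_mem ha
  have huL : u ∈ L := Subgroup.subset_closure ⟨g, hu, hle⟩
  have huV : u ∉ V := fun h => hu1 (S.inter_eq_one hne hu h)
  by_contra hcon
  push Not at hcon
  apply huV
  apply S.center_le L hVL hLP hLinv huL
  intro r hr
  induction hr using Subgroup.closure_induction with
  | mem y hy =>
    obtain ⟨h, hy, hh⟩ := hy
    by_cases hV : cj h V = V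
    · rw [hV] at hy
      exact S.V_central huP hy
    · exact comm_eq_one.mp (hcon h hV hh y hy)
  | one => simp
  | mul a b _ _ ha hb =>
    rw [← mul_assoc, ha, mul_assoc, hb, mul_assoc]
  | inv a _ ha =>
    exact (show Commute u a from ha).inv_right

/-- Surjectivity of `x ↦ [x, u]` for `1 ≠ u ∈ V^g`. -/
theorem surj (S : Setup V Q) {g u v : G} (hne : cj g V ≠ V) (hle : cj g V ≤ Q)
    (hu : u ∈ cj g V) (hu1 : u ≠ 1) (hv : v ∈ V) : ∃ x ∈ cP V Q, ⁅x, u⁆ = v := by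
  obtain ⟨h, hh, hhle, t, ht, hut⟩ := S.exists_noncomm hne hle hu hu1
  have huP := S.conj_le_cP hne hle hu
  obtain ⟨w, hw, hwv⟩ := S.exists_comm_eq hh hhle huP ht hut hv
  have hwP := S.conj_le_cP hh hhle hw
  refine ⟨w, hwP, ?_⟩
  rw [S.comm_swap huP hwP, hwv]

omit [Finite G] in
theorem exists_ne_one_conj {g : G} (hne : cj g V ≠ V) : ∃ u ∈ cj g V, u ≠ 1 := by
  by_contra hcon
  push Not at hcon
  apply hne
  have h1 : cj g V = ⊥ := by
    rw [eq_bot_iff]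
    intro u hu
    exact hcon u hu
  have h2 : Nat.card V = 1 := by
    rw [← card_cj g V, h1]
    simp
  have h3 : V = ⊥ := (Subgroup.card_eq_one).mp h2
  rw [h1, h3]

/-- The double centralizer: `C_P(C_P(V^g)) ≤ V V^g`. -/
theorem double_centralizer (S : Setup V Q) {g t : G} (hne : cj g V ≠ V) (hle : cj g V ≤ Q)
    (htP : t ∈ cP V Q)
    (hc : ∀ q ∈ cP V Q, (∀ u ∈ cj g V, q * u = u * q) → t * q = q * t) :
    ∃ v ∈ V, ∃ u ∈ cj g V, t = v * u := by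
  obtain ⟨u₀, hu₀, hu₀1⟩ := exists_ne_one_conj hne
  obtain ⟨h, hh, hhle, t₂, ht₂, hut₂⟩ := S.exists_noncomm hne hle hu₀ hu₀1
  have hP := S.conj_le_cP hne hle
  have hP₂ := S.conj_le_cP hh hhle
  have hu₀P := hP hu₀
  have ht₂P := hP₂ ht₂
  have hut₂' : ⁅t₂, u₀⁆ ≠ 1 := by rwa [S.comm_swap hu₀P ht₂P]
  have ht₂1 : t₂ ≠ 1 := by
    rintro rfl
    simp at hut₂
  -- `P = U₂ A`
  have hdec : ∀ y ∈ cP V Q, ∃ x ∈ cj h V, ∃ q ∈ cP V Q, (∀ u ∈ cj g V, q * u = u * q) ∧ y = x * q := by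
    intro y hy
    obtain ⟨x, hx, hxe⟩ := S.exists_comm_eq hh hhle hu₀P ht₂ hut₂ (S.comm_mem hy hu₀P)
    have hxP := hP₂ hx
    refine ⟨x, hx, x⁻¹ * y, (cP V Q).mul_mem ((cP V Q).inv_mem hxP) hy, ?_, by group⟩
    intro u hu
    have h1 : ⁅x⁻¹ * y, u₀⁆ = 1 := by
      rw [S.comm_mul_left ((cP V Q).inv_mem hxP) hy hu₀P, S.comm_inv_left hxP hu₀P,
        S.comm_swap hu₀P hxP, hxe, S.sq _ (S.comm_mem hy hu₀P)]
    exact comm_eq_one.mp (S.comm_eq_one_of hne hle ((cP V Q).mul_mem ((cP V Q).inv_mem hxP) hy)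
      hu₀ hu₀1 h1 hu)
  obtain ⟨u, hu, hue⟩ := S.exists_comm_eq hne hle ht₂P hu₀ hut₂' (S.comm_mem ht₂P htP)
  have huP := hP hu
  have ha₂P : u⁻¹ * t ∈ cP V Q := (cP V Q).mul_mem ((cP V Q).inv_mem huP) htP
  have h1 : ⁅t₂, u⁻¹ * t⁆ = 1 := by
    rw [S.comm_mul_right ht₂P ((cP V Q).inv_mem huP) htP, S.comm_inv_right ht₂P huP, hue,
      S.sq _ (S.comm_mem ht₂P htP)]
  have h2 : ⁅u⁻¹ * t, t₂⁆ = 1 := by rwa [S.comm_swap ht₂P ha₂P] 
  have h3 : ∀ w ∈ cj h V, ⁅u⁻¹ * t, w⁆ = 1 := fun w hw =>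
    S.comm_eq_one_of hh hhle ha₂P ht₂ ht₂1 h2 hw
  have ha₂V : u⁻¹ * t ∈ V := by
    apply S.center_le_cP ha₂P
    intro r hr
    obtain ⟨x, hx, q, hq, hqc, rfl⟩ := hdec r hr
    have h4 : (u⁻¹ * t) * x = x * (u⁻¹ * t) := comm_eq_one.mp (h3 x hx)
    have h5 : (u⁻¹ * t) * q = q * (u⁻¹ * t) := by
      have h6 : t * q = q * t := hc q hq hqc
      have h7 : q * u⁻¹ = u⁻¹ * q := hqc _ ((cj g V).inv_mem hu)
      calc (u⁻¹ * t) * q = u⁻¹ * (t * q) := by group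
        _ = u⁻¹ * (q * t) := by rw [h6]
        _ = (u⁻¹ * q) * t := by group
        _ = (q * u⁻¹) * t := by rw [h7]
        _ = q * (u⁻¹ * t) := by group
    rw [← mul_assoc, h4, mul_assoc, h5, mul_assoc]
  refine ⟨u⁻¹ * t, ha₂V, u, hu, ?_⟩
  have h6 : u * (u⁻¹ * t) = (u⁻¹ * t) * u := S.V_central huP ha₂V
  rw [← h6]
  group

omit [Finite G] in
theorem eq_one_of_odd_step_aux {r z d : G} (h : r * z * r⁻¹ = d * z) (hd : r * d = d * r) (n : ℕ) :
    r ^ n * z * (r ^ n)⁻¹ = d ^ n * z := by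
  induction n with
  | zero => simp
  | succ n ih =>
    have h1 : r * d ^ n = d ^ n * r := ((show Commute r d from hd).pow_right n).eq
    calc r ^ (n + 1) * z * (r ^ (n + 1))⁻¹ = r * (r ^ n * z * (r ^ n)⁻¹) * r⁻¹ := by
          rw [pow_succ']; group
      _ = r * (d ^ n * z) * r⁻¹ := by rw [ih]
      _ = (r * d ^ n) * z * r⁻¹ := by group
      _ = d ^ n * (r * z * r⁻¹) := by rw [h1]; group
      _ = d ^ (n + 1) * z := by rw [h, pow_succ]; group

omit [Finite G] in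
theorem eq_one_of_odd_step {r z d : G} (h : r * z * r⁻¹ = d * z) (hd : r * d = d * r)
    (hr : (orderOf r).Coprime 2) {k : ℕ} (hk : d ^ (2 ^ k) = 1) : d = 1 := by
  have h1 := eq_one_of_odd_step_aux h hd (orderOf r)
  rw [pow_orderOf_eq_one] at h1
  have h2 : d ^ orderOf r = 1 := by
    simpa using h1.symm
  have h3 : orderOf d ∣ orderOf r := orderOf_dvd_of_pow_eq_one h2
  have h4 : orderOf d ∣ 2 ^ k := orderOf_dvd_of_pow_eq_one hk
  have h5 : Nat.Coprime (orderOf r) (2 ^ k) := Nat.Coprime.pow_right k hr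
  have h6 : orderOf d = 1 := Nat.eq_one_of_dvd_coprimes h5 h3 h4
  exact orderOf_eq_one_iff.mp h6

/-- An odd element acting trivially on `P/V` is trivial. -/
theorem odd_trivial (S : Setup V Q) {g r : G} (hne : cj g V ≠ V) (hle : cj g V ≤ Q) (hrN : r ∈ NN V)
    (hr : ∀ x ∈ cP V Q, ⁅r, x⁆ ∈ V) (hodd : (orderOf r).Coprime 2) : r = 1 := by
  obtain ⟨u₀, hu₀, hu₀1⟩ := exists_ne_one_conj hne
  have hu₀P := S.conj_le_cP hne hle hu₀
  -- `r` centralizes `V`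
  have hrV : ∀ v ∈ V, r * v = v * r := by
    intro v hv
    obtain ⟨x, hx, rfl⟩ := S.surj hne hle hu₀ hu₀1 hv
    have hb₁ := hr x hx
    have hb₂ := hr u₀ hu₀P
    have h1 : r * ⁅x, u₀⁆ * r⁻¹ = ⁅x, u₀⁆ := by
      rw [conjugate_commutatorElement, conj_eq_comm_mul r x, conj_eq_comm_mul r u₀]
      have hb₁P := S.V_le_cP hb₁
      have hb₂P := S.V_le_cP hb₂
      rw [S.comm_mul_left hb₁P hx ((cP V Q).mul_mem hb₂P hu₀P),
        S.comm_mul_right hx hb₂P hu₀P, S.comm_mul_right hb₁P hb₂P hu₀P]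
      have h2 : ⁅⁅r, x⁆, ⁅r, u₀⁆⁆ = 1 := comm_eq_one.mpr (S.V_comm hb₁ hb₂)
      have h3 : ⁅⁅r, x⁆, u₀⁆ = 1 := comm_eq_one.mpr (S.V_central hu₀P hb₁).symm
      have h4 : ⁅x, ⁅r, u₀⁆⁆ = 1 := comm_eq_one.mpr (S.V_central hx hb₂)
      rw [h2, h3, h4]
      simp
    exact mul_inv_eq_iff_eq_mul.mp h1
  -- `r` centralizes `P`
  have hrP : ∀ x ∈ cP V Q, r * x = x * r := by
    intro x hx
    have h1 : ⁅r, x⁆ = 1 := by
      apply eq_one_of_odd_step (z := x) (k := 1) (conj_eq_comm_mul r x) (hrV _ (hr x hx)) hodd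
      rw [pow_one, pow_two]
      exact S.sq _ (hr x hx)
    exact comm_eq_one.mp h1
  -- `r` centralizes `Q`
  have hrQ : ∀ z ∈ Q, r * z = z * r := by
    intro z hz
    have hdQ : ⁅r, z⁆ ∈ Q := by
      rw [commutatorElement_def]
      exact Q.mul_mem (S.Q_norm r hrN z hz) (Q.inv_mem hz)
    have hdP : ⁅r, z⁆ ∈ cP V Q := by
      refine mem_cP.mpr ⟨hdQ, fun v hv => ?_⟩
      have hzN := S.Q_le hz
      have hw : z⁻¹ * v * z ∈ V := by
        have := NN_conj (Subgroup.inv_mem _ hzN) hv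
        simpa using this
      have h1 : r * (z⁻¹ * v * z) = (z⁻¹ * v * z) * r := hrV _ hw
      have h2 : r⁻¹ * (z⁻¹ * v * z) = (z⁻¹ * v * z) * r⁻¹ := (show Commute r _ from h1).inv_left
      have h3 : r * v = v * r := hrV v hv
      rw [commutatorElement_def]
      calc r * z * r⁻¹ * z⁻¹ * v = r * z * (r⁻¹ * (z⁻¹ * v * z)) * z⁻¹ := by group
        _ = r * z * ((z⁻¹ * v * z) * r⁻¹) * z⁻¹ := by rw [h2]
        _ = (r * v) * z * r⁻¹ * z⁻¹ := by group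
        _ = (v * r) * z * r⁻¹ * z⁻¹ := by rw [h3]
        _ = v * (r * z * r⁻¹ * z⁻¹) := by group
    obtain ⟨k, hk⟩ := S.two ⟨_, hdQ⟩
    have hk' : ⁅r, z⁆ ^ (2 ^ k) = 1 := by
      have := congrArg Subtype.val hk
      simpa using this
    have h1 : ⁅r, z⁆ = 1 := eq_one_of_odd_step (conj_eq_comm_mul r z) (hrP _ hdP) hodd hk'
    exact comm_eq_one.mp h1
  have hrQ' := S.cent r hrN hrQ
  obtain ⟨k, hk⟩ := S.two ⟨r, hrQ'⟩
  have hk' : r ^ (2 ^ k) = 1 := by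
    have := congrArg Subtype.val hk
    simpa using this
  have h4 : orderOf r ∣ 2 ^ k := orderOf_dvd_of_pow_eq_one hk'
  have h5 : orderOf r = 1 := Nat.Coprime.eq_one_of_dvd (Nat.Coprime.pow_right k hodd) h4
  exact orderOf_eq_one_iff.mp h5

/-- The kernel of the action on `P/V` lies in `Q`. -/
theorem K_le (S : Setup V Q) {g m : G} (hne : cj g V ≠ V) (hle : cj g V ≤ Q) (hm : m ∈ NN V)
    (hmP : ∀ x ∈ cP V Q, ⁅m, x⁆ ∈ V) : m ∈ Q := by
  let K : Subgroup G :=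
    { carrier := {m | m ∈ NN V ∧ ∀ x ∈ cP V Q, ⁅m, x⁆ ∈ V}
      mul_mem' := by
        rintro a b ⟨ha, ha'⟩ ⟨hb, hb'⟩
        refine ⟨(NN V).mul_mem ha hb, fun x hx => ?_⟩
        have h1 : ⁅a * b, x⁆ = (a * ⁅b, x⁆ * a⁻¹) * ⁅a, x⁆ := by
          simp only [commutatorElement_def]
          group
        rw [h1]
        exact V.mul_mem (NN_conj ha (hb' x hx)) (ha' x hx)
      one_mem' := ⟨(NN V).one_mem, fun x _ => by simp [V.one_mem]⟩
      inv_mem' := by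
        rintro a ⟨ha, ha'⟩
        refine ⟨(NN V).inv_mem ha, fun x hx => ?_⟩
        have hy : a⁻¹ * x * a ∈ cP V Q := by
          have := S.cP_norm ((NN V).inv_mem ha) hx
          simpa using this
        have h1 : ⁅a⁻¹, x⁆ = ⁅a, a⁻¹ * x * a⁆⁻¹ := by
          simp only [commutatorElement_def]
          group
        rw [h1]
        exact V.inv_mem (ha' _ hy) }
  have hKmem : ∀ x, x ∈ K ↔ (x ∈ NN V ∧ ∀ y ∈ cP V Q, ⁅x, y⁆ ∈ V) := fun x => Iff.rfl
  have hKn : ∀ b ∈ NN V, ∀ k ∈ K, b * k * b⁻¹ ∈ K := by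
    rintro b hb k ⟨hk, hk'⟩
    refine ⟨(NN V).mul_mem ((NN V).mul_mem hb hk) ((NN V).inv_mem hb), fun x hx => ?_⟩
    have hy : b⁻¹ * x * b ∈ cP V Q := by
      have := S.cP_norm ((NN V).inv_mem hb) hx
      simpa using this
    have h1 : ⁅b * k * b⁻¹, x⁆ = b * ⁅k, b⁻¹ * x * b⁆ * b⁻¹ := by
      simp only [commutatorElement_def]
      group
    rw [h1]
    exact NN_conj hb (hk' _ hy)
  have hKp : IsPGroup 2 K := by
    rintro ⟨x, hx⟩
    have hx0 : orderOf x ≠ 0 := (orderOf_pos x).ne'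
    obtain ⟨a, n, hn, hxn⟩ := Nat.exists_eq_pow_mul_and_not_dvd hx0 2 (by norm_num)
    have hordy : orderOf (x ^ (2 ^ a)) = n := by
      rw [orderOf_pow_of_dvd (pow_ne_zero _ (by norm_num)) ⟨n, hxn⟩]
      rw [hxn]
      exact Nat.mul_div_cancel_left n (pow_pos (by norm_num) a)
    have hy : x ^ (2 ^ a) ∈ K := K.pow_mem hx _
    have hco : (orderOf (x ^ (2 ^ a))).Coprime 2 := by
      rw [hordy]
      exact ((Nat.Prime.coprime_iff_not_dvd Nat.prime_two).mpr hn).symm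
    have h1 := S.odd_trivial hne hle hy.1 hy.2 hco
    exact ⟨a, Subtype.ext (by simpa using h1)⟩
  exact S.max K (fun x hx => hx.1) hKn hKp ⟨hm, hmP⟩

end Setup

end Cfsg.Agent.Lib.TI.TwoTI
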