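import Cfsg.Agent.Lib.TI.TwoTIMain
import Cfsg.Agent.Lib.TI.JordanMul
import Cfsg.Agent.Lib.TI.SL2Recog
import Cfsg.Agent.Lib.TI.SympExp4

/-!
The second part: `P = Q`, `Φ(Q) = Z(Q) = Q' = V`, the structure of `W = V V^g` and the identification
of `⟨P, P^g⟩` on `W` with `SL₂(F)`.
-/

set_option autoImplicit false

namespace Cfsg.Agent.Lib.TI.TwoTI

open scoped commutatorElement
open Cfsg.Agent.Lib.TI.Basic

variable {G : Type*} [Group G]

theorem cj_inv_cj (g : G) (A : Subgroup G) : cj g⁻¹ (cj g A) = A := by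
  rw [cj_cj, inv_mul_cancel, cj_one]

theorem cP_cj (g : G) (V Q : Subgroup G) : (cP V Q).map (MulAut.conj g).toMonoidHom =
    cP (cj g V) (cj g Q) := by
  ext x
  rw [mem_conj_iff, mem_cP, mem_cP, mem_cj]
  constructor
  · rintro ⟨h1, h2⟩
    refine ⟨h1, fun v hv => ?_⟩
    have h3 := h2 _ (mem_cj.mp hv)
    have h4 : x * v = g * ((g⁻¹ * x * g) * (g⁻¹ * v * g)) * g⁻¹ := by group
    rw [h4, h3]
    group
  · rintro ⟨h1, h2⟩
    refine ⟨h1, fun v hv => ?_⟩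
    have h3 := h2 _ (conj_mem_cj (g := g) hv)
    have h4 : (g⁻¹ * x * g) * v = g⁻¹ * (x * (g * v * g⁻¹)) * g := by group
    rw [h4, h3]
    group

namespace Setup

variable {V Q : Subgroup G} {g : G} [Finite G]

section pair

variable (S : Setup V Q) (hne : cj g V ≠ V) (hle : cj g V ≤ Q)

omit [Finite G] in
include hne in
theorem hne₂ : cj g⁻¹ (cj g V) ≠ cj g V := by
  rw [cj_inv_cj]
  exact hne.symm

include S hne hle in
theorem hle₂ : cj g⁻¹ (cj g V) ≤ cj g Q := by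
  rw [cj_inv_cj]
  exact S.le_conj_Q hne hle

include S hne hle in
theorem V_le_P' : V ≤ cP (cj g V) (cj g Q) := by
  have h1 := (S.conj g).conj_le_cP (hne₂ hne) (hle₂ S hne hle)
  rwa [cj_inv_cj] at h1

include S hne hle in
theorem surj₂ {v u : G} (hv : v ∈ V) (hv1 : v ≠ 1) (hu : u ∈ cj g V) :
    ∃ y ∈ cP (cj g V) (cj g Q), ⁅y, v⁆ = u :=
  (S.conj g).surj (hne₂ hne) (hle₂ S hne hle) (by rw [cj_inv_cj]; exact hv) hv1 hu

omit [Finite G] in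
include S hne in
theorem decomp_unique {v₁ v₂ u₁ u₂ : G} (hv₁ : v₁ ∈ V) (hv₂ : v₂ ∈ V) (hu₁ : u₁ ∈ cj g V)
    (hu₂ : u₂ ∈ cj g V) (h : v₁ * u₁ = v₂ * u₂) : v₁ = v₂ ∧ u₁ = u₂ := by
  have h1 : v₂⁻¹ * v₁ = u₂ * u₁⁻¹ := by
    rw [inv_mul_eq_iff_eq_mul, ← mul_assoc, ← h]
    group
  have h2 : v₂⁻¹ * v₁ = 1 := by
    apply S.inter_eq_one hne (h := g)
    · rw [h1]
      exact (cj g V).mul_mem hu₂ ((cj g V).inv_mem hu₁)
    · exact V.mul_mem (V.inv_mem hv₂) hv₁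
  have h3 : v₂ = v₁ := inv_mul_eq_one.mp h2
  subst h3
  exact ⟨rfl, mul_left_cancel h⟩

include S hne hle in
theorem exists_swap {v u : G} (hv : v ∈ V) (hv1 : v ≠ 1) (hu : u ∈ cj g V) (hu1 : u ≠ 1) :
    ∃ n : G, n * u * n⁻¹ = v ∧ n * v * n⁻¹ = u := by
  have S' := S.conj g
  obtain ⟨x, hx, hxu⟩ := S.surj hne hle hu hu1 hv
  obtain ⟨y, hy, hyv⟩ := S.surj₂ hne hle hv hv1 hu
  have huv : u * v = v * u := S.comm_of_conj hne hle hu hv
  have huu : u * u = 1 := S'.sq u hu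
  have hvv : v * v = 1 := S.sq v hv
  have h1 : x * u * x⁻¹ = v * u := by rw [conj_eq_comm_mul, hxu]
  have h2 : x * v * x⁻¹ = v := by rw [S.V_central hx hv, mul_inv_cancel_right]
  have h3 : y * v * y⁻¹ = u * v := by rw [conj_eq_comm_mul, hyv]
  have h4 : y * u * y⁻¹ = u := by rw [S'.V_central hy hu, mul_inv_cancel_right]
  refine ⟨x * y * x, ?_, ?_⟩
  · calc x * y * x * u * (x * y * x)⁻¹ = x * (y * (x * u * x⁻¹) * y⁻¹) * x⁻¹ := by group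
      _ = x * ((y * v * y⁻¹) * (y * u * y⁻¹)) * x⁻¹ := by rw [h1]; group
      _ = x * (v * (u * u)) * x⁻¹ := by rw [h3, h4, huv]; group
      _ = v := by rw [huu, mul_one, h2]
  · calc x * y * x * v * (x * y * x)⁻¹ = x * (y * (x * v * x⁻¹) * y⁻¹) * x⁻¹ := by group
      _ = x * (u * v) * x⁻¹ := by rw [h2, h3]
      _ = (x * u * x⁻¹) * (x * v * x⁻¹) := by group
      _ = (v * v) * u := by
        rw [h1, h2, mul_assoc v u v, huv, ← mul_assoc]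
      _ = u := by rw [hvv, one_mul]

include S hne hle in
theorem exists_trans {v₁ v₂ : G} (hv₁ : v₁ ∈ V) (hv₁1 : v₁ ≠ 1) (hv₂ : v₂ ∈ V) (hv₂1 : v₂ ≠ 1) :
    ∃ m ∈ NN V, m * v₁ * m⁻¹ = v₂ := by
  obtain ⟨u₀, hu₀, hu₀1⟩ := exists_ne_one_conj hne
  obtain ⟨n₁, _, h1⟩ := S.exists_swap hne hle hv₁ hv₁1 hu₀ hu₀1
  obtain ⟨n₂, h2, _⟩ := S.exists_swap hne hle hv₂ hv₂1 hu₀ hu₀1
  have h3 : n₂ * n₁ * v₁ * (n₂ * n₁)⁻¹ = v₂ := by
    calc n₂ * n₁ * v₁ * (n₂ * n₁)⁻¹ = n₂ * (n₁ * v₁ * n₁⁻¹) * n₂⁻¹ := by group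
      _ = v₂ := by rw [h1, h2]
  refine ⟨n₂ * n₁, ?_, h3⟩
  apply mem_normalizer_of_map_conj_eq
  have h4 : v₂ ∈ cj (n₂ * n₁) V := by
    rw [← h3]
    exact conj_mem_cj hv₁
  have h5 := S.ti_eq (a := n₂ * n₁) (b := 1) hv₂1 h4 (by rw [cj_one]; exact hv₂)
  rw [cj_one] at h5
  exact h5

include S hne hle in
/-- `Q` centralizes `V`. -/
theorem Q_comm {z v : G} (hz : z ∈ Q) (hv : v ∈ V) : z * v = v * z := by
  classical
  have hF : Fact (Nat.Prime 2) := ⟨Nat.prime_two⟩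
  by_cases hv1 : v = 1
  · simp [hv1]
  have hN : (V.subgroupOf Q).Normal := ⟨by
    intro n hn w
    rw [Subgroup.mem_subgroupOf] at hn ⊢
    exact NN_conj (S.Q_le w.2) hn⟩
  have hN0 : V.subgroupOf Q ≠ ⊥ := by
    intro h
    have h1 : (⟨v, S.V_le hv⟩ : Q) ∈ V.subgroupOf Q := Subgroup.mem_subgroupOf.mpr hv
    rw [h, Subgroup.mem_bot] at h1
    exact hv1 (congrArg Subtype.val h1)
  obtain ⟨z₀, hz₀N, hz₀c, hz₀o⟩ :=
    Cfsg.Agent.Lib.PGroups.Basic.exists_central_orderOf_eq S.two (V.subgroupOf Q) hN0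
  have hz₀V : z₀.1 ∈ V := Subgroup.mem_subgroupOf.mp hz₀N
  have hz₀1 : z₀.1 ≠ 1 := by
    intro h
    have : z₀ = 1 := Subtype.ext h
    rw [this, orderOf_one] at hz₀o
    norm_num at hz₀o
  obtain ⟨m, hm, rfl⟩ := S.exists_trans hne hle hz₀V hz₀1 hv hv1
  have hw : m⁻¹ * z * m ∈ Q := by
    have := S.Q_norm _ ((NN V).inv_mem hm) z hz
    simpa using this
  have h1 : (⟨m⁻¹ * z * m, hw⟩ : Q) * z₀ = z₀ * ⟨m⁻¹ * z * m, hw⟩ :=
    (Subgroup.mem_center_iff.mp hz₀c _)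
  have h2 : m⁻¹ * z * m * z₀.1 = z₀.1 * (m⁻¹ * z * m) := congrArg Subtype.val h1
  calc z * (m * z₀.1 * m⁻¹) = m * (m⁻¹ * z * m * z₀.1) * m⁻¹ := by group
    _ = m * (z₀.1 * (m⁻¹ * z * m)) * m⁻¹ := by rw [h2]
    _ = m * z₀.1 * m⁻¹ * z := by group

include S hne hle in
theorem cP_eq : cP V Q = Q := by
  apply le_antisymm inf_le_left
  intro z hz
  exact mem_cP.mpr ⟨hz, fun v hv => S.Q_comm hne hle hz hv⟩

include S hne hle in
/-- Membership in `W`. -/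
theorem mem_W {w : G} : w ∈ V ⊔ cj g V ↔ ∃ v ∈ V, ∃ u ∈ cj g V, w = v * u := by
  constructor
  · intro hw
    let K : Subgroup G :=
      { carrier := {w | ∃ v ∈ V, ∃ u ∈ cj g V, w = v * u}
        mul_mem' := by
          rintro _ _ ⟨v₁, h1, u₁, h2, rfl⟩ ⟨v₂, h3, u₂, h4, rfl⟩
          refine ⟨v₁ * v₂, V.mul_mem h1 h3, u₁ * u₂, (cj g V).mul_mem h2 h4, ?_⟩
          have h5 : u₁ * v₂ = v₂ * u₁ := S.comm_of_conj hne hle h2 h3
          calc v₁ * u₁ * (v₂ * u₂) = v₁ * (u₁ * v₂) * u₂ := by group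
            _ = v₁ * (v₂ * u₁) * u₂ := by rw [h5]
            _ = v₁ * v₂ * (u₁ * u₂) := by group
        one_mem' := ⟨1, V.one_mem, 1, (cj g V).one_mem, by simp⟩
        inv_mem' := by
          rintro _ ⟨v₁, h1, u₁, h2, rfl⟩
          refine ⟨v₁⁻¹, V.inv_mem h1, u₁⁻¹, (cj g V).inv_mem h2, ?_⟩
          have h5 : u₁⁻¹ * v₁⁻¹ = v₁⁻¹ * u₁⁻¹ :=
            S.comm_of_conj hne hle ((cj g V).inv_mem h2) (V.inv_mem h1)
          rw [mul_inv_rev, h5] }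
    have hK : V ⊔ cj g V ≤ K := by
      apply sup_le
      · intro v hv
        exact ⟨v, hv, 1, (cj g V).one_mem, by simp⟩
      · intro u hu
        exact ⟨1, V.one_mem, u, hu, by simp⟩
    exact hK hw
  · rintro ⟨v, hv, u, hu, rfl⟩
    exact Subgroup.mul_mem_sup hv hu

include S hne hle in
/-- `(b1)`: every nontrivial element of `W` lies in a unique conjugate of `V` in `W`. -/
theorem exists_unique_conj {w : G} (hw : w ∈ V ⊔ cj g V) (hw1 : w ≠ 1) :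
    ∃! U : Subgroup G, (∃ x : G, U = cj x V) ∧ U ≤ V ⊔ cj g V ∧ w ∈ U := by
  obtain ⟨v, hv, u, hu, rfl⟩ := (S.mem_W hne hle).mp hw
  have hex : ∃ x : G, cj x V ≤ V ⊔ cj g V ∧ v * u ∈ cj x V := by
    by_cases hu1 : u = 1
    · refine ⟨1, by rw [cj_one]; exact le_sup_left, ?_⟩
      rw [cj_one, hu1, mul_one]
      exact hv
    by_cases hv1 : v = 1
    · refine ⟨g, le_sup_right, ?_⟩
      rw [hv1, one_mul]
      exact hu
    obtain ⟨x, hx, hxu⟩ := S.surj hne hle hu hu1 hv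
    refine ⟨x * g, ?_, ?_⟩
    · rw [← cj_cj]
      rintro _ ⟨w, hw, rfl⟩
      change x * w * x⁻¹ ∈ _
      rw [conj_eq_comm_mul]
      exact Subgroup.mul_mem_sup (S.comm_mem hx (S.conj_le_cP hne hle hw)) hw
    · rw [← cj_cj, ← hxu, ← conj_eq_comm_mul]
      exact conj_mem_cj hu
  obtain ⟨x, hx1, hx2⟩ := hex
  refine ⟨cj x V, ⟨⟨x, rfl⟩, hx1, hx2⟩, ?_⟩
  rintro U ⟨⟨y, rfl⟩, _, hy⟩
  exact S.ti_eq hw1 hy hx2

include S hne hle in
/-- `(b2)`: `⟨P, P^g⟩` normalizes `W`. -/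
theorem H_le : cP V Q ⊔ (cP V Q).map (MulAut.conj g).toMonoidHom ≤ NN (V ⊔ cj g V) := by
  have S' := S.conj g
  have hP := S.conj_le_cP hne hle
  have hP' := S.V_le_P' hne hle
  have hmemW := fun {w : G} => S.mem_W (g := g) hne hle (w := w)
  have key₁ : ∀ x ∈ cP V Q, ∀ w ∈ V ⊔ cj g V, x * w * x⁻¹ ∈ V ⊔ cj g V := by
    intro x hx w hw
    obtain ⟨v, hv, u, hu, rfl⟩ := hmemW.mp hw
    have h1 : x * (v * u) * x⁻¹ = (v * ⁅x, u⁆) * u := by
      have h2 : x * v = v * x := S.V_central hx hv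
      calc x * (v * u) * x⁻¹ = (x * v) * u * x⁻¹ := by group
        _ = v * (x * u * x⁻¹) := by rw [h2]; group
        _ = (v * ⁅x, u⁆) * u := by rw [conj_eq_comm_mul]; group
    rw [h1]
    exact Subgroup.mul_mem_sup (V.mul_mem hv (S.comm_mem hx (hP hu))) hu
  have key₂ : ∀ y ∈ cP (cj g V) (cj g Q), ∀ w ∈ V ⊔ cj g V, y * w * y⁻¹ ∈ V ⊔ cj g V := by
    intro y hy w hw
    obtain ⟨v, hv, u, hu, rfl⟩ := hmemW.mp hw
    have h1 : y * (v * u) * y⁻¹ = v * (⁅y, v⁆ * u) := by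
      have h2 : y * u = u * y := S'.V_central hy hu
      have h3 : ⁅y, v⁆ * v = v * ⁅y, v⁆ := S.comm_of_conj hne hle (S'.comm_mem hy (hP' hv)) hv
      calc y * (v * u) * y⁻¹ = (y * v * y⁻¹) * (y * u * y⁻¹) := by group
        _ = (⁅y, v⁆ * v) * u := by rw [conj_eq_comm_mul, h2, mul_inv_cancel_right]
        _ = v * (⁅y, v⁆ * u) := by rw [h3]; group
    rw [h1]
    exact Subgroup.mul_mem_sup hv ((cj g V).mul_mem (S'.comm_mem hy (hP' hv)) hu)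
  apply sup_le
  · intro x hx
    exact NN_of_conj (key₁ x hx) (fun v hv => by
      have := key₁ x⁻¹ ((cP V Q).inv_mem hx) v hv
      simpa using this)
  · intro x hx
    rw [cP_cj] at hx
    exact NN_of_conj (key₂ x hx) (fun v hv => by
      have := key₂ x⁻¹ ((cP _ _).inv_mem hx) v hv
      simpa using this)

include S hne hle in
/-- The maps `[x, ·]`, `[y, ·]` are inverse to each other as soon as they are at one point. -/
theorem inverse_of_pair {x y u₀ v₀ : G} (hx : x ∈ cP V Q) (hy : y ∈ cP (cj g V) (cj g Q))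
    (hu₀ : u₀ ∈ cj g V) (hv₀ : v₀ ∈ V) (hu₀1 : u₀ ≠ 1) (hxu : ⁅x, u₀⁆ = v₀) (hyv : ⁅y, v₀⁆ = u₀) :
    (∀ u ∈ cj g V, ⁅y, ⁅x, u⁆⁆ = u) ∧ (∀ v ∈ V, ⁅x, ⁅y, v⁆⁆ = v) := by
  have S' := S.conj g
  have hP := S.conj_le_cP hne hle
  have hP' := S.V_le_P' hne hle
  have hw1 : v₀ * u₀ ≠ 1 := by
    intro h
    have h1 : u₀ = v₀⁻¹ := eq_inv_of_mul_eq_one_right h
    exact hu₀1 (S.inter_eq_one hne hu₀ (by rw [h1]; exact V.inv_mem hv₀))
  have hw2 : v₀ * u₀ ∈ cj (x * g) V := by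
    rw [← cj_cj, ← hxu, ← conj_eq_comm_mul]
    exact conj_mem_cj hu₀
  have hw3 : v₀ * u₀ ∈ cj y V := by
    have h1 : y * v₀ * y⁻¹ = v₀ * u₀ := by
      rw [conj_eq_comm_mul, hyv]
      exact S.comm_of_conj hne hle hu₀ hv₀
    rw [← h1]
    exact conj_mem_cj hv₀
  have hti : cj y V = cj x (cj g V) := by
    rw [cj_cj]
    exact S.ti_eq hw1 hw3 hw2
  constructor
  · intro u hu
    have h1 : x * u * x⁻¹ ∈ cj y V := by
      rw [hti]
      exact conj_mem_cj hu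
    rw [mem_cj] at h1
    set v₁ := y⁻¹ * (x * u * x⁻¹) * y with hv₁
    have h2 : y * v₁ * y⁻¹ = x * u * x⁻¹ := by rw [hv₁]; group
    rw [conj_eq_comm_mul, conj_eq_comm_mul] at h2
    have h3 : ⁅y, v₁⁆ * v₁ = v₁ * ⁅y, v₁⁆ := S.comm_of_conj hne hle (S'.comm_mem hy (hP' h1)) h1
    rw [h3] at h2
    obtain ⟨h4, h5⟩ := S.decomp_unique hne h1 (S.comm_mem hx (hP hu)) (S'.comm_mem hy (hP' h1)) hu h2
    rw [← h4, h5]
  · intro v hv
    have h1 : y * v * y⁻¹ ∈ cj x (cj g V) := by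
      rw [← hti]
      exact conj_mem_cj hv
    rw [mem_cj] at h1
    set u₁ := x⁻¹ * (y * v * y⁻¹) * x with hu₁
    have h2 : x * u₁ * x⁻¹ = y * v * y⁻¹ := by rw [hu₁]; group
    rw [conj_eq_comm_mul, conj_eq_comm_mul] at h2
    have h3 : ⁅y, v⁆ * v = v * ⁅y, v⁆ := S.comm_of_conj hne hle (S'.comm_mem hy (hP' hv)) hv
    rw [h3] at h2
    obtain ⟨h4, h5⟩ := S.decomp_unique hne (S.comm_mem hx (hP h1)) hv h1 (S'.comm_mem hy (hP' hv)) h2
    rw [← h5, h4]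

include S hne hle in
/-- `(b3)`: `⟨P, P^g⟩` induces `SL₂(F)` on `W`. -/
theorem sl2_main
    [hN : ((Subgroup.centralizer ((V ⊔ cj g V : Subgroup G) : Set G)).subgroupOf
      (cP V Q ⊔ (cP V Q).map (MulAut.conj g).toMonoidHom)).Normal] :
    ∃ (F : Type) (_ : Field F) (_ : Fintype F), Fintype.card F = Nat.card V ∧
      Nonempty (↥(cP V Q ⊔ (cP V Q).map (MulAut.conj g).toMonoidHom) ⧸
        (Subgroup.centralizer ((V ⊔ cj g V : Subgroup G) : Set G)).subgroupOf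
          (cP V Q ⊔ (cP V Q).map (MulAut.conj g).toMonoidHom) ≃*
        Matrix.SpecialLinearGroup (Fin 2) F) := by
  classical
  have S' := S.conj g
  have hP := S.conj_le_cP hne hle
  have hP' := S.V_le_P' hne hle
  letI cgV : CommGroup V :=
    { (inferInstance : Group V) with mul_comm := fun a b => Subtype.ext (S.V_comm a.2 b.2) }
  letI cgU : CommGroup (cj g V) :=
    { (inferInstance : Group (cj g V)) with mul_comm := fun a b => Subtype.ext (S'.V_comm a.2 b.2) }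
  let phi : ∀ x ∈ cP V Q, (cj g V) →* V := fun x hx =>
    { toFun := fun u => ⟨⁅x, u.1⁆, S.comm_mem hx (hP u.2)⟩
      map_one' := Subtype.ext (by simp)
      map_mul' := fun a b => Subtype.ext (S.comm_mul_right hx (hP a.2) (hP b.2)) }
  have hphi : ∀ x hx (u : cj g V), (phi x hx u).1 = ⁅x, u.1⁆ := fun _ _ _ => rfl
  let psi : ∀ y ∈ cP (cj g V) (cj g Q), V →* (cj g V) := fun y hy =>
    { toFun := fun v => ⟨⁅y, v.1⁆, S'.comm_mem hy (hP' v.2)⟩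
      map_one' := Subtype.ext (by simp)
      map_mul' := fun a b => Subtype.ext (S'.comm_mul_right hy (hP' a.2) (hP' b.2)) }
  have hpsi : ∀ y hy (v : V), (psi y hy v).1 = ⁅y, v.1⁆ := fun _ _ _ => rfl
  let Φ : Subgroup ((cj g V) →* V) :=
    { carrier := {f | ∃ x ∈ cP V Q, ∀ u : cj g V, (f u).1 = ⁅x, u.1⁆}
      mul_mem' := by
        rintro f₁ f₂ ⟨x₁, h₁, e₁⟩ ⟨x₂, h₂, e₂⟩
        refine ⟨x₁ * x₂, (cP V Q).mul_mem h₁ h₂, fun u => ?_⟩
        rw [S.comm_mul_left h₁ h₂ (hP u.2), ← e₁, ← e₂]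
        rfl
      one_mem' := ⟨1, (cP V Q).one_mem, fun u => by
        rw [commutatorElement_one_left]
        rfl⟩
      inv_mem' := by
        rintro f ⟨x, h, e⟩
        refine ⟨x, h, fun u => ?_⟩
        rw [← e]
        exact S.inv_V (f u).2 }
  have hΦmem : ∀ f, f ∈ Φ ↔ ∃ x ∈ cP V Q, ∀ u : cj g V, (f u).1 = ⁅x, u.1⁆ := fun _ => Iff.rfl
  let Ψ : Subgroup (V →* (cj g V)) :=
    { carrier := {f | ∃ y ∈ cP (cj g V) (cj g Q), ∀ v : V, (f v).1 = ⁅y, v.1⁆}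
      mul_mem' := by
        rintro f₁ f₂ ⟨x₁, h₁, e₁⟩ ⟨x₂, h₂, e₂⟩
        refine ⟨x₁ * x₂, (cP _ _).mul_mem h₁ h₂, fun u => ?_⟩
        rw [S'.comm_mul_left h₁ h₂ (hP' u.2), ← e₁, ← e₂]
        rfl
      one_mem' := ⟨1, (cP _ _).one_mem, fun u => by
        rw [commutatorElement_one_left]
        rfl⟩
      inv_mem' := by
        rintro f ⟨x, h, e⟩
        refine ⟨x, h, fun u => ?_⟩
        rw [← e]
        exact S'.inv_V (f u).2 }
  have hΨmem : ∀ f, f ∈ Ψ ↔ ∃ y ∈ cP (cj g V) (cj g Q), ∀ v : V, (f v).1 = ⁅y, v.1⁆ :=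
    fun _ => Iff.rfl
  obtain ⟨u₀, hu₀, hu₀1⟩ := exists_ne_one_conj hne
  have hV1 : ∃ v₀ ∈ V, v₀ ≠ 1 := by
    refine ⟨g⁻¹ * u₀ * g, mem_cj.mp hu₀, ?_⟩
    intro h
    apply hu₀1
    have h2 : u₀ = g * (g⁻¹ * u₀ * g) * g⁻¹ := by group
    rw [h2, h]
    group
  obtain ⟨v₀, hv₀, hv₀1⟩ := hV1
  obtain ⟨F, hF, hFt, θ₂, θ₁, hθ₂, hθ₁, hadd₂, hadd₁, hcard, hp1, hp2, hp3, hp4⟩ :=
    Cfsg.Agent.Lib.TI.JordanField.exists_field_mul (A := cj g V) (B := V)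
      (fun a => Subtype.ext (S'.sq a.1 a.2)) (fun a => Subtype.ext (S.sq a.1 a.2)) Φ Ψ
      (by
        rintro f ⟨x, hx, e⟩ hf
        have h1 : ∃ u : cj g V, f u ≠ 1 := by
          by_contra hcon
          push Not at hcon
          exact hf (MonoidHom.ext hcon)
        obtain ⟨u, hu⟩ := h1
        have hu1 : u.1 ≠ 1 := by
          intro h
          have : u = 1 := Subtype.ext h
          rw [this, map_one] at hu
          exact hu rfl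
        have hv1 : (f u).1 ≠ 1 := fun h => hu (Subtype.ext h)
        obtain ⟨y, hy, hyv⟩ := S.surj₂ hne hle (f u).2 hv1 u.2
        obtain ⟨h5, h6⟩ := S.inverse_of_pair hne hle hx hy u.2 (f u).2 hu1 (e u).symm hyv
        refine ⟨psi y hy, ⟨y, hy, fun v => rfl⟩, fun a => ?_, fun b => ?_⟩
        · apply Subtype.ext
          change ⁅y, (f a).1⁆ = a.1
          rw [e]
          exact h5 a.1 a.2
        · apply Subtype.ext
          change (f (psi y hy b)).1 = b.1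
          rw [e]
          exact h6 b.1 b.2)
      (by
        rintro f ⟨y, hy, e⟩ hf
        have h1 : ∃ v : V, f v ≠ 1 := by
          by_contra hcon
          push Not at hcon
          exact hf (MonoidHom.ext hcon)
        obtain ⟨v, hv⟩ := h1
        have hv1 : v.1 ≠ 1 := by
          intro h
          have : v = 1 := Subtype.ext h
          rw [this, map_one] at hv
          exact hv rfl
        have hu1 : (f v).1 ≠ 1 := fun h => hv (Subtype.ext h)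
        obtain ⟨x, hx, hxu⟩ := S.surj hne hle (f v).2 hu1 v.2
        obtain ⟨h5, h6⟩ := S.inverse_of_pair hne hle hx hy (f v).2 v.2 hu1 hxu (e v).symm
        refine ⟨phi x hx, ⟨x, hx, fun v => rfl⟩, fun a => ?_, fun b => ?_⟩
        · apply Subtype.ext
          change (f (phi x hx a)).1 = a.1
          rw [e]
          exact h5 a.1 a.2
        · apply Subtype.ext
          change ⁅x, (f b).1⁆ = b.1
          rw [e]
          exact h6 b.1 b.2)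
      (by
        obtain ⟨x, hx, hxu⟩ := S.surj hne hle hu₀ hu₀1 hv₀
        refine ⟨phi x hx, ⟨x, hx, fun v => rfl⟩, ?_⟩
        intro h
        have h1 : (phi x hx ⟨u₀, hu₀⟩).1 = ((1 : (cj g V) →* V) ⟨u₀, hu₀⟩).1 := by rw [h]
        apply hv₀1
        rw [← hxu]
        exact h1)
      (by
        intro a ha b
        have ha1 : a.1 ≠ 1 := fun h => ha (Subtype.ext h)
        obtain ⟨x, hx, hxu⟩ := S.surj hne hle a.2 ha1 b.2
        exact ⟨phi x hx, ⟨x, hx, fun v => rfl⟩, Subtype.ext hxu⟩)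
  refine ⟨F, hF, hFt, ?_, ?_⟩
  · rw [hcard, card_cj]
  let σ : (Fin 2 → F) → G := fun w => (θ₁ (w 0)).1 * (θ₂ (w 1)).1
  have hσ : ∀ w, σ w = (θ₁ (w 0)).1 * (θ₂ (w 1)).1 := fun _ => rfl
  have hσinj : Function.Injective σ := by
    intro a b hab
    obtain ⟨h1, h2⟩ := S.decomp_unique hne (θ₁ (a 0)).2 (θ₁ (b 0)).2 (θ₂ (a 1)).2 (θ₂ (b 1)).2 hab
    have h3 : a 0 = b 0 := hθ₁.1 (Subtype.ext h1)
    have h4 : a 1 = b 1 := hθ₂.1 (Subtype.ext h2)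
    funext i
    fin_cases i
    · exact h3
    · exact h4
  have hact₁ : ∀ x ∈ cP V Q, ∀ b : F, (∀ c, ⁅x, (θ₂ c).1⁆ = (θ₁ (b * c)).1) →
      ∀ w, x * σ w * x⁻¹ = σ ((Cfsg.Agent.Lib.TI.SL2Recog.E12 b).1.mulVec w) := by
    intro x hx b hb w
    rw [hσ, hσ, Cfsg.Agent.Lib.TI.SL2Recog.E12_mulVec_zero,
      Cfsg.Agent.Lib.TI.SL2Recog.E12_mulVec_one, hadd₁]
    have h1 : x * (θ₁ (w 0)).1 = (θ₁ (w 0)).1 * x := S.V_central hx (θ₁ _).2
    have h2 : (θ₁ (w 0) * θ₁ (b * w 1)).1 = (θ₁ (w 0)).1 * (θ₁ (b * w 1)).1 := rfl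
    rw [h2]
    calc x * ((θ₁ (w 0)).1 * (θ₂ (w 1)).1) * x⁻¹ = (x * (θ₁ (w 0)).1) * (θ₂ (w 1)).1 * x⁻¹ := by group
      _ = (θ₁ (w 0)).1 * (x * (θ₂ (w 1)).1 * x⁻¹) := by rw [h1]; group
      _ = (θ₁ (w 0)).1 * (⁅x, (θ₂ (w 1)).1⁆ * (θ₂ (w 1)).1) := by rw [conj_eq_comm_mul]
      _ = (θ₁ (w 0)).1 * (θ₁ (b * w 1)).1 * (θ₂ (w 1)).1 := by rw [hb]; group
  have hact₂ : ∀ y ∈ cP (cj g V) (cj g Q), ∀ e : F, (∀ a, ⁅y, (θ₁ a).1⁆ = (θ₂ (e * a)).1) →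
      ∀ w, y * σ w * y⁻¹ = σ ((Cfsg.Agent.Lib.TI.SL2Recog.E21 e).1.mulVec w) := by
    intro y hy e he w
    rw [hσ, hσ, Cfsg.Agent.Lib.TI.SL2Recog.E21_mulVec_zero,
      Cfsg.Agent.Lib.TI.SL2Recog.E21_mulVec_one, hadd₂]
    have h1 : y * (θ₂ (w 1)).1 = (θ₂ (w 1)).1 * y := S'.V_central hy (θ₂ _).2
    have h2 : (θ₂ (e * w 0) * θ₂ (w 1)).1 = (θ₂ (e * w 0)).1 * (θ₂ (w 1)).1 := rfl
    have h3 : (θ₂ (e * w 0)).1 * (θ₁ (w 0)).1 = (θ₁ (w 0)).1 * (θ₂ (e * w 0)).1 :=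
      S.comm_of_conj hne hle (θ₂ _).2 (θ₁ _).2
    rw [h2]
    calc y * ((θ₁ (w 0)).1 * (θ₂ (w 1)).1) * y⁻¹
        = (y * (θ₁ (w 0)).1 * y⁻¹) * (y * (θ₂ (w 1)).1 * y⁻¹) := by group
      _ = (⁅y, (θ₁ (w 0)).1⁆ * (θ₁ (w 0)).1) * (θ₂ (w 1)).1 := by
        rw [conj_eq_comm_mul y (θ₁ (w 0)).1, h1, mul_inv_cancel_right]
      _ = ((θ₂ (e * w 0)).1 * (θ₁ (w 0)).1) * (θ₂ (w 1)).1 := by rw [he]
      _ = (θ₁ (w 0)).1 * ((θ₂ (e * w 0)).1 * (θ₂ (w 1)).1) := by rw [h3]; group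
  refine Cfsg.Agent.Lib.TI.SL2Recog.nonempty_quotient_equiv σ hσinj (V ⊔ cj g V) ?_ _ _ _ rfl
    ?_ ?_ ?_ ?_
  · intro w
    rw [S.mem_W hne hle]
    constructor
    · rintro ⟨v, hv, u, hu, rfl⟩
      obtain ⟨a, ha⟩ := hθ₁.2 ⟨v, hv⟩
      obtain ⟨c, hc⟩ := hθ₂.2 ⟨u, hu⟩
      refine ⟨![a, c], ?_⟩
      rw [hσ]
      simp [ha, hc]
    · rintro ⟨a, rfl⟩
      exact ⟨_, (θ₁ _).2, _, (θ₂ _).2, rfl⟩
  · intro x hx
    obtain ⟨b, hb⟩ := hp1 (phi x hx) ⟨x, hx, fun v => rfl⟩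
    exact ⟨b, hact₁ x hx b fun c => congrArg Subtype.val (hb c)⟩
  · intro y hy
    rw [cP_cj] at hy
    obtain ⟨b, hb⟩ := hp3 (psi y hy) ⟨y, hy, fun v => rfl⟩
    exact ⟨b, hact₂ y hy b fun c => congrArg Subtype.val (hb c)⟩
  · intro b
    obtain ⟨f, ⟨x, hx, e⟩, hf⟩ := hp2 b
    refine ⟨x, hx, hact₁ x hx b fun c => ?_⟩
    rw [← e, hf]
  · intro b
    obtain ⟨f, ⟨y, hy, e⟩, hf⟩ := hp4 b
    refine ⟨y, ?_, hact₂ y hy b fun c => ?_⟩
    · rw [cP_cj]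
      exact hy
    · rw [← e, hf]

include S hne hle in
theorem center_eq : (Subgroup.center Q).map Q.subtype = V := by
  have hPQ := S.cP_eq hne hle
  apply le_antisymm
  · rintro _ ⟨z, hz, rfl⟩
    apply S.center_le_cP (by rw [hPQ]; exact z.2)
    intro r hr
    rw [hPQ] at hr
    exact (congrArg Subtype.val (Subgroup.mem_center_iff.mp hz ⟨r, hr⟩)).symm
  · intro v hv
    refine ⟨⟨v, S.V_le hv⟩, Subgroup.mem_center_iff.mpr fun z => ?_, rfl⟩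
    exact Subtype.ext (S.Q_comm hne hle z.2 hv)

include S hne hle in
theorem commutator_eq : (commutator Q).map Q.subtype = V := by
  have hPQ := S.cP_eq hne hle
  apply le_antisymm
  · have h1 : commutator Q ≤ V.subgroupOf Q := by
      rw [commutator_def, Subgroup.commutator_le]
      intro a _ b _
      rw [Subgroup.mem_subgroupOf]
      exact S.comm_mem (by rw [hPQ]; exact a.2) (by rw [hPQ]; exact b.2)
    rintro _ ⟨z, hz, rfl⟩
    exact Subgroup.mem_subgroupOf.mp (h1 hz)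
  · intro v hv
    obtain ⟨u₀, hu₀, hu₀1⟩ := exists_ne_one_conj hne
    obtain ⟨x, hx, hxu⟩ := S.surj hne hle hu₀ hu₀1 hv
    rw [hPQ] at hx
    refine ⟨⁅(⟨x, hx⟩ : Q), ⟨u₀, hle hu₀⟩⁆, ?_, ?_⟩
    · exact Subgroup.commutator_mem_commutator (Subgroup.mem_top _) (Subgroup.mem_top _)
    · rw [← hxu]
      rfl

include S hne hle in
theorem frattini_eq : (frattini Q).map Q.subtype = V := by
  have hF : Fact (Nat.Prime 2) := ⟨Nat.prime_two⟩
  have hPQ := S.cP_eq hne hle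
  apply le_antisymm
  · have hN : (V.subgroupOf Q).Normal := ⟨by
      intro n hn w
      rw [Subgroup.mem_subgroupOf] at hn ⊢
      exact NN_conj (S.Q_le w.2) hn⟩
    have h1 : frattini Q ≤ V.subgroupOf Q := by
      apply Cfsg.Agent.Lib.TI.SympExp4.frattini_le_of_squares
      intro x
      rw [Subgroup.mem_subgroupOf, pow_two]
      exact S.sq_mem (by rw [hPQ]; exact x.2)
    rintro _ ⟨z, hz, rfl⟩
    exact Subgroup.mem_subgroupOf.mp (h1 hz)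
  · rw [← S.commutator_eq hne hle]
    exact Subgroup.map_mono (Cfsg.Agent.Lib.PGroups.Basic.commutator_le_frattini S.two)

end pair

end Setup

end Cfsg.Agent.Lib.TI.TwoTI
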