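import Cfsg.Agent.Lib.TI.TwoTIClass

/-!
`V ≤ Q^g`: the first main step.
-/

set_option autoImplicit false

namespace Cfsg.Agent.Lib.TI.TwoTI

open scoped commutatorElement
open Cfsg.Agent.Lib.TI.Basic

variable {G : Type*} [Group G]

theorem NN_of_centralizes {W : Subgroup G} {a : G} (h : ∀ u ∈ W, a * u = u * a) : a ∈ NN W := by
  apply NN_of_conj
  · intro v hv
    rw [h v hv, mul_inv_cancel_right]
    exact hv
  · intro v hv
    have h1 : a⁻¹ * v = v * a⁻¹ := (show Commute a v from h v hv).inv_left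
    rw [h1, inv_mul_cancel_right]
    exact hv

theorem cj_ne {g : G} {A B : Subgroup G} (h : A ≠ B) : cj g A ≠ cj g B := fun h1 =>
  h (Subgroup.map_injective (MulAut.conj g).injective h1)

namespace Setup

variable {V Q : Subgroup G} {g : G} [Finite G]

section partA

variable (S : Setup V Q) (hne : cj g V ≠ V) (hle : cj g V ≤ Q) (hnot : ¬ V ≤ cj g Q)

include S hne hle in
theorem VV'_comm {v u : G} (hv : v ∈ V) (hu : u ∈ cj g V) : v * u = u * v :=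
  (S.comm_of_conj hne hle hu hv).symm

include S hne hle in
/-- Elements of `V` normalize `P'`. -/
theorem V_NN' {v : G} (hv : v ∈ V) : v ∈ NN (cj g V) :=
  NN_of_centralizes fun _ hu => S.VV'_comm hne hle hv hu

include S hne hle hnot in
/-- (i) -/
theorem claim_i {a y : G} (ha : a ∈ V) (ha1 : a ≠ 1) (hy : y ∈ cP (cj g V) (cj g Q))
    (hc : ⁅y, a⁆ ∈ cj g V) : ⁅y, a⁆ = 1 := by
  by_contra hu
  set u := ⁅y, a⁆ with hudef
  obtain ⟨x, hx, hxu⟩ := S.surj hne hle hc hu ha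
  have hua : u * a = a * u := (S.VV'_comm hne hle ha hc).symm
  have hw1 : u * a ≠ 1 := by
    intro h
    have h1 : u = a⁻¹ := eq_inv_of_mul_eq_one_left h
    exact hu (S.inter_eq_one hne hc (by rw [h1]; exact V.inv_mem ha))
  have hw2 : u * a ∈ cj y V := by
    have h1 : y * a * y⁻¹ = u * a := Setup.conj_eq_comm_mul y a
    rw [← h1]
    exact conj_mem_cj ha
  have hw3 : u * a ∈ cj (x * g) V := by
    have h1 : x * u * x⁻¹ = a * u := by
      rw [Setup.conj_eq_comm_mul x u, hxu]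
    rw [hua, ← h1, ← cj_cj]
    exact conj_mem_cj hc
  have hti : cj y V = cj (x * g) V := S.ti_eq hw1 hw2 hw3
  -- the coset
  have hn : (x * g)⁻¹ * y ∈ NN V := by
    apply mem_normalizer_of_map_conj_eq
    have h1 := congrArg (cj (x * g)⁻¹) hti
    rw [cj_cj, cj_cj, inv_mul_cancel, cj_one] at h1
    exact h1
  -- `W`
  have hW : cj (x * g) V ≤ V ⊔ cj g V := by
    rw [← cj_cj]
    rintro _ ⟨w, hw, rfl⟩
    have h1 : (MulAut.conj x).toMonoidHom w = ⁅x, w⁆ * w := by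
      change x * w * x⁻¹ = _
      exact Setup.conj_eq_comm_mul x w
    rw [h1]
    exact Subgroup.mul_mem_sup (S.comm_mem hx (S.conj_le_cP hne hle hw)) hw
  have hyW : cj y (V ⊔ cj g V) ≤ V ⊔ cj g V := by
    rw [cj, Subgroup.map_sup]
    apply sup_le
    · change cj y V ≤ _
      rw [hti]
      exact hW
    · rintro _ ⟨w, hw, rfl⟩
      have h1 : (MulAut.conj y).toMonoidHom w = w := by
        change y * w * y⁻¹ = w
        rw [(S.conj g).V_central hy hw, mul_inv_cancel_right]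
      rw [h1]
      exact (le_sup_right : cj g V ≤ V ⊔ cj g V) hw
  have hyW' : cj y (V ⊔ cj g V) = V ⊔ cj g V :=
    Subgroup.eq_of_le_of_card_ge hyW (by rw [card_cj])
  have hWQ : V ⊔ cj g V ≤ Q := sup_le S.V_le hle
  apply hnot
  intro v hv
  have hvW : v ∈ cj y (V ⊔ cj g V) := by
    rw [hyW']
    exact (le_sup_left : V ≤ V ⊔ cj g V) hv
  rw [mem_cj] at hvW
  have h1 : y⁻¹ * v * y ∈ Q := hWQ hvW
  rw [mem_cj]
  have h2 := S.Q_norm _ hn _ h1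
  have h3 : ((x * g)⁻¹ * y) * (y⁻¹ * v * y) * ((x * g)⁻¹ * y)⁻¹ = g⁻¹ * (x⁻¹ * v * x) * g := by group
  rw [h3] at h2
  have h4 : x⁻¹ * v * x = v := by
    rw [mul_assoc, ← S.V_central hx hv, inv_mul_cancel_left]
  rwa [h4] at h2

include S hne hle hnot in
/-- (ii) -/
theorem claim_ii {v : G} (hv : v ∈ V) (hvP : v ∈ cP (cj g V) (cj g Q)) : v = 1 := by
  by_contra hv1
  have S' := S.conj g
  have h1 : v ∈ cj g V := by
    apply S'.center_le_cP hvP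
    intro r hr
    have h2 := S.claim_i hne hle hnot hv hv1 hr (S'.comm_mem hr hvP)
    exact (Setup.comm_eq_one.mp h2).symm
  exact hv1 (S.inter_eq_one hne h1 hv)

include S hne hle hnot in
/-- (iii) -/
theorem claim_iii {t : G} (ht : t ∈ cP V Q) (ht' : t ∈ cP (cj g V) (cj g Q)) : t ∈ cj g V := by
  have S' := S.conj g
  obtain ⟨v, hv, u, hu, rfl⟩ := S.double_centralizer hne hle ht (by
    intro q hq hqc
    have hqN : q ∈ NN (cj g V) := NN_of_centralizes hqc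
    have h1 : ⁅t, q⁆ ∈ V := S.comm_mem ht hq
    have h2 : ⁅t, q⁆ ∈ cP (cj g V) (cj g Q) := by
      have h3 : ⁅t, q⁆ = t * (q * t⁻¹ * q⁻¹) := by
        rw [commutatorElement_def]
        group
      rw [h3]
      exact (cP _ _).mul_mem ht' (S'.cP_norm hqN ((cP _ _).inv_mem ht'))
    exact Setup.comm_eq_one.mp (S.claim_ii hne hle hnot h1 h2))
  have h1 : v ∈ cP (cj g V) (cj g Q) := by
    have h2 : v = v * u * u⁻¹ := by group
    rw [h2]
    exact (cP _ _).mul_mem ht' ((cP _ _).inv_mem (S'.V_le_cP hu))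
  rw [S.claim_ii hne hle hnot hv h1, one_mul]
  exact hu

include S hne hle hnot in
/-- (iv) -/
theorem claim_iv {a y : G} (ha : a ∈ V) (ha1 : a ≠ 1) (hy : y ∈ cP (cj g V) (cj g Q))
    (hc : y * a = a * y) : ∀ v ∈ V, y * v = v * y := by
  have S' := S.conj g
  have h1 : a ∈ cj y V := by
    have h2 := conj_mem_cj (g := y) ha
    rwa [hc, mul_inv_cancel_right] at h2
  have h2 : cj y V = cj 1 V := S.ti_eq ha1 h1 (by rw [cj_one]; exact ha)
  rw [cj_one] at h2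
  have hyN : y ∈ NN V := mem_normalizer_of_map_conj_eq h2
  intro v hv
  have h3 : ⁅y, v⁆ ∈ V := by
    rw [commutatorElement_def]
    exact V.mul_mem (NN_conj hyN hv) (V.inv_mem hv)
  have h4 : ⁅y, v⁆ ∈ cP (cj g V) (cj g Q) := by
    have h5 : ⁅y, v⁆ = y * (v * y⁻¹ * v⁻¹) := by
      rw [commutatorElement_def]
      group
    rw [h5]
    exact (cP _ _).mul_mem hy (S'.cP_norm (S.V_NN' hne hle hv) ((cP _ _).inv_mem hy))
  exact Setup.comm_eq_one.mp (S.claim_ii hne hle hnot h3 h4)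

include S hne hle hnot in
/-- (iv), second part. -/
theorem claim_iv2 {y q : G} (hy : y ∈ cP (cj g V) (cj g Q)) (hyV : ∀ v ∈ V, y * v = v * y)
    (hq : q ∈ cP V Q) (hqc : ∀ u ∈ cj g V, q * u = u * q) : ⁅y, q⁆ ∈ cj g V := by
  have S' := S.conj g
  apply S.claim_iii hne hle hnot
  · rw [commutatorElement_def]
    exact (cP _ _).mul_mem (S.cP_norm (NN_of_centralizes hyV) hq) ((cP _ _).inv_mem hq)
  · have h5 : ⁅y, q⁆ = y * (q * y⁻¹ * q⁻¹) := by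
      rw [commutatorElement_def]
      group
    rw [h5]
    exact (cP _ _).mul_mem hy (S'.cP_norm (NN_of_centralizes hqc) ((cP _ _).inv_mem hy))

include S hne hle hnot in
/-- (v) -/
theorem claim_v {a y : G} (ha : a ∈ V) (ha1 : a ≠ 1) (hy : y ∈ cP (cj g V) (cj g Q)) :
    ⁅a, y⁆ ∈ cP (cj g V) (cj g Q) ∧ ∀ v ∈ V, ⁅a, y⁆ * v = v * ⁅a, y⁆ := by
  have S' := S.conj g
  have hw : ⁅a, y⁆ ∈ cP (cj g V) (cj g Q) := by
    rw [commutatorElement_def]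
    exact (cP _ _).mul_mem (S'.cP_norm (S.V_NN' hne hle ha) hy) ((cP _ _).inv_mem hy)
  refine ⟨hw, ?_⟩
  have hai : a⁻¹ = a := S.inv_V ha
  have h2 : a * ⁅a, y⁆ * a⁻¹ = ⁅a, y⁆⁻¹ := by
    rw [commutatorElement_def]
    calc a * (a * y * a⁻¹ * y⁻¹) * a⁻¹ = (a * a) * y * a⁻¹ * y⁻¹ * a⁻¹ := by group
      _ = y * a⁻¹ * y⁻¹ * a⁻¹ := by rw [S.sq a ha, one_mul]
      _ = y * a * y⁻¹ * a⁻¹ := by rw [hai]
      _ = (a * y * a⁻¹ * y⁻¹)⁻¹ := by group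
  have h1 : ⁅⁅a, y⁆, a⁆ = ⁅a, y⁆ * ⁅a, y⁆ := by
    have h3 : ⁅⁅a, y⁆, a⁆ = ⁅a, y⁆ * (a * ⁅a, y⁆ * a⁻¹)⁻¹ := by
      rw [commutatorElement_def ⁅a, y⁆ a]
      group
    rw [h3, h2, inv_inv]
  have h5 : ⁅⁅a, y⁆, a⁆ ∈ cj g V := by
    rw [h1]
    exact S'.sq_mem hw
  have h6 := S.claim_i hne hle hnot ha ha1 hw h5
  exact S.claim_iv hne hle hnot ha ha1 hw (Setup.comm_eq_one.mp h6)

include S hne hle in
/-- Elements fixed by `a` are orthogonal to the image of `[a, ·]`, so the form is adjoint. -/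
theorem claim_v_fix {a t y : G} (ha : a ∈ V) (ht : t ∈ cP (cj g V) (cj g Q)) (hta : t * a = a * t)
    (hy : y ∈ cP (cj g V) (cj g Q)) : ⁅t, ⁅a, y⁆⁆ = 1 := by
  have S' := S.conj g
  have haN := S.V_NN' hne hle ha
  have hwP : ⁅a, y⁆ ∈ cP (cj g V) (cj g Q) := by
    rw [commutatorElement_def]
    exact (cP _ _).mul_mem (S'.cP_norm haN hy) ((cP _ _).inv_mem hy)
  have h1 : a * ⁅t, y⁆ * a⁻¹ = ⁅t, y⁆ := by
    have h2 : a * ⁅t, y⁆ = ⁅t, y⁆ * a := S.VV'_comm hne hle ha (S'.comm_mem ht hy)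
    rw [h2, mul_inv_cancel_right]
  rw [conjugate_commutatorElement, Setup.conj_eq_comm_mul a y] at h1
  have h3 : a * t * a⁻¹ = t := by
    rw [← hta, mul_inv_cancel_right]
  rw [h3, S'.comm_mul_right ht hwP hy] at h1
  exact mul_eq_right.mp h1

include S hne hle hnot in
/-- The adjoint identity. -/
theorem claim_v_adj {a y₁ y₂ : G} (ha : a ∈ V) (ha1 : a ≠ 1) (hy₁ : y₁ ∈ cP (cj g V) (cj g Q))
    (hy₂ : y₂ ∈ cP (cj g V) (cj g Q)) : ⁅⁅a, y₁⁆, y₂⁆ = ⁅y₁, ⁅a, y₂⁆⁆ := by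
  have S' := S.conj g
  have haN := S.V_NN' hne hle ha
  obtain ⟨hw₁, hw₁c⟩ := S.claim_v hne hle hnot ha ha1 hy₁
  obtain ⟨hw₂, hw₂c⟩ := S.claim_v hne hle hnot ha ha1 hy₂
  have hfix : ⁅⁅a, y₁⁆, ⁅a, y₂⁆⁆ = 1 :=
    S.claim_v_fix hne hle ha hw₁ (hw₁c a ha) hy₂
  have h1 : a * ⁅y₁, y₂⁆ * a⁻¹ = ⁅y₁, y₂⁆ := by
    have h2 : a * ⁅y₁, y₂⁆ = ⁅y₁, y₂⁆ * a := S.VV'_comm hne hle ha (S'.comm_mem hy₁ hy₂)
    rw [h2, mul_inv_cancel_right]
  rw [conjugate_commutatorElement, Setup.conj_eq_comm_mul a y₁, Setup.conj_eq_comm_mul a y₂,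
    S'.comm_mul_left hw₁ hy₁ ((cP _ _).mul_mem hw₂ hy₂), S'.comm_mul_right hw₁ hw₂ hy₂,
    S'.comm_mul_right hy₁ hw₂ hy₂, hfix, one_mul] at h1
  -- `⁅w₁, y₂⁆ * (⁅y₁, w₂⁆ * ⁅y₁, y₂⁆) = ⁅y₁, y₂⁆`
  have h2 : ⁅⁅a, y₁⁆, y₂⁆ * ⁅y₁, ⁅a, y₂⁆⁆ = 1 := by
    rw [← mul_assoc] at h1
    exact mul_eq_right.mp h1
  have h3 : ⁅⁅a, y₁⁆, y₂⁆ = ⁅y₁, ⁅a, y₂⁆⁆⁻¹ := eq_inv_of_mul_eq_one_left h2
  rw [h3, S'.inv_V (S'.comm_mem hy₁ hw₂)]

include S hne hle hnot in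
/-- `C_{P'}(Y) ≤ Y`. -/
theorem claim_v3 {a t : G} (ha : a ∈ V) (ha1 : a ≠ 1) (ht : t ∈ cP (cj g V) (cj g Q))
    (htc : ∀ y ∈ cP (cj g V) (cj g Q), (∀ v ∈ V, y * v = v * y) → t * y = y * t) :
    ∀ v ∈ V, t * v = v * t := by
  have S' := S.conj g
  obtain ⟨hw, _⟩ := S.claim_v hne hle hnot ha ha1 ht
  have h1 : ⁅a, t⁆ ∈ cj g V := by
    apply S'.center_le_cP hw
    intro r hr
    obtain ⟨hw₂, hw₂c⟩ := S.claim_v hne hle hnot ha ha1 hr
    have h2 : ⁅t, ⁅a, r⁆⁆ = 1 := Setup.comm_eq_one.mpr (htc _ hw₂ hw₂c)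
    rw [← S.claim_v_adj hne hle hnot ha ha1 ht hr] at h2
    exact Setup.comm_eq_one.mp h2
  have h2 : ⁅t, a⁆ ∈ cj g V := by
    rw [← commutatorElement_inv]
    exact (cj g V).inv_mem h1
  have h3 := S.claim_i hne hle hnot ha ha1 ht h2
  exact S.claim_iv hne hle hnot ha ha1 ht (Setup.comm_eq_one.mp h3)

include S hne hle hnot in
/-- (vi), first part. -/
theorem claim_vi_e {a q y : G} (ha : a ∈ V) (ha1 : a ≠ 1) (hq : q ∈ cP V Q)
    (hqc : ∀ u ∈ cj g V, q * u = u * q) (hy : y ∈ cP (cj g V) (cj g Q)) :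
    ⁅q, y⁆ ∈ cP (cj g V) (cj g Q) ∧ ∀ v ∈ V, ⁅q, y⁆ * v = v * ⁅q, y⁆ := by
  have S' := S.conj g
  have hqN : q ∈ NN (cj g V) := NN_of_centralizes hqc
  have he : ⁅q, y⁆ ∈ cP (cj g V) (cj g Q) := by
    rw [commutatorElement_def]
    exact (cP _ _).mul_mem (S'.cP_norm hqN hy) ((cP _ _).inv_mem hy)
  refine ⟨he, S.claim_v3 hne hle hnot ha ha1 he ?_⟩
  intro y₀ hy₀ hy₀V
  have h1 : q * ⁅y, y₀⁆ * q⁻¹ = ⁅y, y₀⁆ := by
    have h2 : q * ⁅y, y₀⁆ = ⁅y, y₀⁆ * q := hqc _ (S'.comm_mem hy hy₀)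
    rw [h2, mul_inv_cancel_right]
  have h3 : ⁅q, y₀⁆ ∈ cj g V := by
    rw [← commutatorElement_inv]
    exact (cj g V).inv_mem (S.claim_iv2 hne hle hnot hy₀ hy₀V hq hqc)
  have h3P : ⁅q, y₀⁆ ∈ cP (cj g V) (cj g Q) := S'.V_le_cP h3
  rw [conjugate_commutatorElement, Setup.conj_eq_comm_mul q y, Setup.conj_eq_comm_mul q y₀,
    S'.comm_mul_right ((cP _ _).mul_mem he hy) h3P hy₀] at h1
  have h4 : ⁅⁅q, y⁆ * y, ⁅q, y₀⁆⁆ = 1 :=
    Setup.comm_eq_one.mpr (S'.V_central ((cP _ _).mul_mem he hy) h3)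
  rw [h4, one_mul, S'.comm_mul_left he hy hy₀] at h1
  exact Setup.comm_eq_one.mp (mul_eq_right.mp h1)

include S hne hle hnot in
/-- (vi) -/
theorem claim_vi {q : G} (hq : q ∈ cP V Q) (hqc : ∀ u ∈ cj g V, q * u = u * q) : q * q = 1 := by
  have S' := S.conj g
  have hne' : cj g (cj g V) ≠ cj g V := cj_ne hne
  have hle' : cj g (cj g V) ≤ cj g Q := Subgroup.map_mono hle
  by_contra ha1
  set a := q * q with ha
  have haV : a ∈ V := S.sq_mem hq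
  have hqN : q ∈ NN (cj g V) := NN_of_centralizes hqc
  have h1 : ∀ y ∈ cP (cj g V) (cj g Q), ⁅a, y⁆ ∈ cj g V := by
    intro y hy
    obtain ⟨he, hec⟩ := S.claim_vi_e hne hle hnot haV ha1 hq hqc hy
    have h2 : ⁅q * q, y⁆ = ⁅q, ⁅q, y⁆⁆ * (⁅q, y⁆ * ⁅q, y⁆) := by
      simp only [commutatorElement_def]
      group
    rw [ha, h2]
    refine (cj g V).mul_mem ?_ (S'.sq_mem he)
    rw [← commutatorElement_inv]
    exact (cj g V).inv_mem (S.claim_iv2 hne hle hnot he hec hq hqc)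
  have h2 : ∀ y ∈ cP (cj g V) (cj g Q), y * a = a * y := by
    intro y hy
    have h3 : ⁅y, a⁆ ∈ cj g V := by
      rw [← commutatorElement_inv]
      exact (cj g V).inv_mem (h1 y hy)
    exact Setup.comm_eq_one.mp (S.claim_i hne hle hnot haV ha1 hy h3)
  apply hnot
  intro v hv
  apply S'.K_le (g := g) hne' hle' (S.V_NN' hne hle hv)
  intro x hx
  have h3 : x * v = v * x := S.claim_iv hne hle hnot haV ha1 hx (h2 x hx) v hv
  rw [Setup.comm_eq_one.mpr h3.symm]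
  exact (cj g V).one_mem

include S hne hle hnot in
theorem claim_vi_comm {q r : G} (hq : q ∈ cP V Q) (hqc : ∀ u ∈ cj g V, q * u = u * q)
    (hr : r ∈ cP V Q) (hrc : ∀ u ∈ cj g V, r * u = u * r) : q * r = r * q := by
  have h1 := S.claim_vi hne hle hnot hq hqc
  have h2 := S.claim_vi hne hle hnot hr hrc
  have h3 := S.claim_vi hne hle hnot ((cP V Q).mul_mem hq hr) (by
    intro u hu
    rw [mul_assoc, hrc u hu, ← mul_assoc, hqc u hu, mul_assoc])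
  have hqi : q⁻¹ = q := inv_eq_of_mul_eq_one_left h1
  have hri : r⁻¹ = r := inv_eq_of_mul_eq_one_left h2
  have h4 : (q * r)⁻¹ = q * r := inv_eq_of_mul_eq_one_left h3
  rw [mul_inv_rev, hqi, hri] at h4
  exact h4.symm

include S hne hle hnot in
/-- `A = W`. -/
theorem claim_A_le {t : G} (ht : t ∈ cP V Q) (htc : ∀ u ∈ cj g V, t * u = u * t) :
    ∃ v ∈ V, ∃ u ∈ cj g V, t = v * u :=
  S.double_centralizer hne hle ht fun q hq hqc => S.claim_vi_comm hne hle hnot ht htc hq hqc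

include S hne hle hnot in
/-- (vii) -/
theorem claim_vii {y x : G} (hy : y ∈ cP (cj g V) (cj g Q)) (hyV : ∀ v ∈ V, y * v = v * y)
    (hx : x ∈ cP V Q) : ⁅y, x⁆ ∈ V := by
  have S' := S.conj g
  have hyN : y ∈ NN V := NN_of_centralizes hyV
  have hyU : ∀ u ∈ cj g V, y * u = u * y := fun u hu => S'.V_central hy hu
  have hyA : ∀ t ∈ cP V Q, (∀ u ∈ cj g V, t * u = u * t) → y * t = t * y := by
    intro t ht htc
    obtain ⟨v, hv, u, hu, rfl⟩ := S.claim_A_le hne hle hnot ht htc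
    rw [← mul_assoc, hyV v hv, mul_assoc, hyU u hu, mul_assoc]
  have hb : ⁅y, x⁆ ∈ cP V Q := by
    rw [commutatorElement_def]
    exact (cP _ _).mul_mem (S.cP_norm hyN hx) ((cP _ _).inv_mem hx)
  -- `b` centralizes `A`
  have hbA : ∀ t ∈ cP V Q, (∀ u ∈ cj g V, t * u = u * t) → ⁅y, x⁆ * t = t * ⁅y, x⁆ := by
    intro t ht htc
    have h1 : y * ⁅x, t⁆ * y⁻¹ = ⁅x, t⁆ := by
      rw [hyV _ (S.comm_mem hx ht), mul_inv_cancel_right]
    rw [conjugate_commutatorElement, Setup.conj_eq_comm_mul y x, Setup.conj_eq_comm_mul y t,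
      Setup.comm_eq_one.mpr (hyA t ht htc), one_mul, S.comm_mul_left hb hx ht] at h1
    exact Setup.comm_eq_one.mp (mul_eq_right.mp h1)
  obtain ⟨v, hv, u, hu, hbe⟩ := S.double_centralizer hne hle hb hbA
  have hP := S.conj_le_cP hne hle
  -- squares
  have hbb : ⁅y, x⁆ * ⁅y, x⁆ = 1 := by
    rw [hbe]
    have h1 : v * u * (v * u) = (v * v) * (u * u) := by
      have h2 : u * v = v * u := S.V_central (hP hu) hv
      calc v * u * (v * u) = v * (u * v) * u := by group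
        _ = v * (v * u) * u := by rw [h2]
        _ = (v * v) * (u * u) := by group
    rw [h1, S.sq v hv, (S.conj g).sq u hu, one_mul]
  have hxx : y * (x * x) * y⁻¹ = x * x := by
    rw [hyV _ (S.sq_mem hx), mul_inv_cancel_right]
  have h2 : y * (x * x) * y⁻¹ = (⁅y, x⁆ * x) * (⁅y, x⁆ * x) := by
    rw [← Setup.conj_eq_comm_mul y x]
    group
  have h3 : (⁅y, x⁆ * x) * (⁅y, x⁆ * x) = ⁅x, ⁅y, x⁆⁆ * (⁅y, x⁆ * ⁅y, x⁆) * (x * x) := by
    have h4 := Setup.conj_eq_comm_mul x ⁅y, x⁆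
    calc (⁅y, x⁆ * x) * (⁅y, x⁆ * x) = ⁅y, x⁆ * (x * ⁅y, x⁆ * x⁻¹) * (x * x) := by group
      _ = ⁅y, x⁆ * (⁅x, ⁅y, x⁆⁆ * ⁅y, x⁆) * (x * x) := by rw [h4]
      _ = (⁅y, x⁆ * ⁅x, ⁅y, x⁆⁆) * ⁅y, x⁆ * (x * x) := by group
      _ = (⁅x, ⁅y, x⁆⁆ * ⁅y, x⁆) * ⁅y, x⁆ * (x * x) := by rw [S.comm_central hx hb hb]
      _ = ⁅x, ⁅y, x⁆⁆ * (⁅y, x⁆ * ⁅y, x⁆) * (x * x) := by group
  rw [h2, h3, hbb, mul_one] at hxx
  have h5 : ⁅x, ⁅y, x⁆⁆ = 1 := mul_eq_right.mp hxx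
  have h6 : ⁅x, u⁆ = 1 := by
    rw [hbe, S.comm_mul_right hx (S.V_le_cP hv) (hP hu),
      Setup.comm_eq_one.mpr (S.V_central hx hv), one_mul] at h5
    exact h5
  by_cases hu1 : u = 1
  · rw [hbe, hu1, mul_one]
    exact hv
  · have h7 : ∀ u' ∈ cj g V, x * u' = u' * x := fun u' hu' =>
      Setup.comm_eq_one.mp (S.comm_eq_one_of hne hle hx hu hu1 h6 hu')
    rw [Setup.comm_eq_one.mpr (hyA x hx h7)]
    exact V.one_mem

include S hne hle hnot in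
/-- (viii) -/
theorem claim_Y {y : G} (hy : y ∈ cP (cj g V) (cj g Q)) (hyV : ∀ v ∈ V, y * v = v * y) :
    y ∈ cj g V := by
  have hyN : y ∈ NN V := NN_of_centralizes hyV
  have h1 : y ∈ Q := S.K_le hne hle hyN fun x hx => S.claim_vii hne hle hnot hy hyV hx
  exact S.claim_iii hne hle hnot (mem_cP.mpr ⟨h1, hyV⟩) hy

end partA

/-- **First main step**: `V ≤ Q^g`. -/
theorem le_conj_Q (S : Setup V Q) (hne : cj g V ≠ V) (hle : cj g V ≤ Q) : V ≤ cj g Q := by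
  by_contra hnot
  have S' := S.conj g
  have hne' : cj g (cj g V) ≠ cj g V := cj_ne hne
  have hle' : cj g (cj g V) ≤ cj g Q := Subgroup.map_mono hle
  -- a nontrivial element of `V`
  obtain ⟨a, ha, ha1⟩ : ∃ a ∈ V, a ≠ 1 := by
    have := exists_ne_one_conj (g := g) (V := V) hne
    obtain ⟨u, hu, hu1⟩ := this
    refine ⟨g⁻¹ * u * g, mem_cj.mp hu, ?_⟩
    intro h
    apply hu1
    have h2 : u = g * (g⁻¹ * u * g) * g⁻¹ := by group
    rw [h2, h]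
    group
  have hP' : ∀ y ∈ cP (cj g V) (cj g Q), y ∈ cj g V := by
    intro y hy
    obtain ⟨hw, hwc⟩ := S.claim_v hne hle hnot ha ha1 hy
    have h1 : ⁅a, y⁆ ∈ cj g V := S.claim_Y hne hle hnot hw hwc
    have h2 : ⁅y, a⁆ ∈ cj g V := by
      rw [← commutatorElement_inv]
      exact (cj g V).inv_mem h1
    have h3 := S.claim_i hne hle hnot ha ha1 hy h2
    have h4 := S.claim_iv hne hle hnot ha ha1 hy (Setup.comm_eq_one.mp h3)
    exact S.claim_Y hne hle hnot hy h4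
  apply hne'
  apply Subgroup.eq_of_le_of_card_ge
  · intro u hu
    apply hP'
    exact S'.conj_le_cP hne' hle' hu
  · simp only [card_cj, le_refl]

end Setup

end Cfsg.Agent.Lib.TI.TwoTI
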